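import Mathlib
import Cfsg.Agent.Lib.Helper94.Symp

set_option autoImplicit false
set_option linter.unusedSimpArgs false

namespace Cfsg.Agent.Lib.Helper13

open LinearMap (BilinForm)
open Module
open Cfsg.Agent.Lib.Helper94

variable {F V : Type*} [Field F] [AddCommGroup V] [Module F V]

/-- The short root element `x ↦ x + B x a • b + B x b • a`, for `B a b = 0`. -/
noncomputable def sr (B : BilinForm F V) (hA : B.IsAlt) (a b : V) (h : B a b = 0) : V ≃ₗ[F] V :=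
  tv B a b h * tv B b a (by rw [alt_swap hA, h, neg_zero])

lemma sr_apply (B : BilinForm F V) (hA : B.IsAlt) (a b : V) (h : B a b = 0) (x : V) :
    sr B hA a b h x = x + B x a • b + B x b • a := by
  simp [sr, tv_apply, LinearEquiv.mul_apply, hA b]

lemma sr_isIsom (B : BilinForm F V) (hA : B.IsAlt) (a b : V) (h : B a b = 0) :
    IsIsom B (sr B hA a b h) := by
  intro x y
  have hba : B b a = 0 := by rw [alt_swap hA, h, neg_zero]
  simp only [sr_apply, map_add, map_smul, LinearMap.add_apply, LinearMap.smul_apply, smul_eq_mul,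
    hA a, hA b, h, hba]
  rw [alt_swap hA a y, alt_swap hA b y]
  ring

lemma sr_comm (B : BilinForm F V) (hA : B.IsAlt) (a b : V) (h : B a b = 0) (h' : B b a = 0) :
    sr B hA a b h = sr B hA b a h' := by
  ext x
  simp only [sr_apply]
  abel

lemma isIsom_inv_left {B : BilinForm F V} {g : V ≃ₗ[F] V} (hg : IsIsom B g) (x a : V) :
    B (g⁻¹ x) a = B x (g a) := by
  conv_rhs => rw [← apply_inv_self' g x]
  rw [hg]

lemma conj_sr {B : BilinForm F V} (hA : B.IsAlt) {g : V ≃ₗ[F] V} (hg : IsIsom B g) (a b : V)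
    (h : B a b = 0) :
    g * sr B hA a b h * g⁻¹ = sr B hA (g a) (g b) (by rw [hg]; exact h) := by
  ext x
  simp only [LinearEquiv.mul_apply, sr_apply, map_add, map_smul, apply_inv_self',
    isIsom_inv_left hg]

lemma sr_inv (B : BilinForm F V) (hA : B.IsAlt) (a b : V) (h : B a b = 0) :
    (sr B hA a b h)⁻¹ = sr B hA a (-b) (by simp [h]) := by
  rw [inv_eq_iff_mul_eq_one]
  ext x
  have hba : B b a = 0 := by rw [alt_swap hA, h, neg_zero]
  simp only [LinearEquiv.mul_apply, sr_apply, map_add, map_smul, map_neg, LinearMap.add_apply,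
    LinearMap.smul_apply, LinearMap.neg_apply, smul_eq_mul, hA a, hA b, h, hba,
    LinearEquiv.coe_one, id_eq]
  module

/-- product of four short root elements with a common vector -/
lemma sr_four (B : BilinForm F V) (hA : B.IsAlt) (c d e : V) (hd : B c d = 0) (he : B c e = 0) :
    sr B hA c (d + e) (by simp [hd, he]) * sr B hA c (-d) (by simp [hd]) *
      sr B hA c (-(d + e)) (by simp [hd, he]) * sr B hA c d hd = st B hA c (-2 * B d e) := by
  ext x
  have hdc : B d c = 0 := by rw [alt_swap hA, hd, neg_zero]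
  have hec : B e c = 0 := by rw [alt_swap hA, he, neg_zero]
  have hed : B e d = - B d e := alt_swap hA e d
  simp only [LinearEquiv.mul_apply, sr_apply, st_apply, map_add, map_smul, map_neg,
    LinearMap.add_apply, LinearMap.smul_apply, LinearMap.neg_apply, smul_eq_mul, hA c, hA d, hA e,
    hd, he, hdc, hec, hed]
  module

/-- the key commutator identity -/
lemma sr_key (B : BilinForm F V) (hA : B.IsAlt) (a b c d : V) (hab : B a b = 0) (hcd : B c d = 0)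
    (hca : B c a = 0) (hcb : B c b = 0) :
    (sr B hA a b hab * sr B hA c d hcd * (sr B hA a b hab)⁻¹) * (sr B hA c d hcd)⁻¹ *
      (sr B hA a b hab * (sr B hA c d hcd)⁻¹ * (sr B hA a b hab)⁻¹) * sr B hA c d hcd
      = st B hA c (-4 * (B d a * B d b)) := by
  have he : B c (B d a • b + B d b • a) = 0 := by simp [hca, hcb]
  have h1 : sr B hA a b hab * sr B hA c d hcd * (sr B hA a b hab)⁻¹
      = sr B hA c (d + (B d a • b + B d b • a)) (by rw [map_add, hcd, he, add_zero]) := by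
    rw [conj_sr hA (sr_isIsom B hA a b hab)]
    congr 1
    · simp [sr_apply, hca, hcb]
    · simp [sr_apply, add_assoc]
  have h2 : sr B hA a b hab * (sr B hA c d hcd)⁻¹ * (sr B hA a b hab)⁻¹
      = sr B hA c (-(d + (B d a • b + B d b • a))) (by rw [map_neg, map_add, hcd, he, add_zero, neg_zero]) := by
    rw [sr_inv, conj_sr hA (sr_isIsom B hA a b hab)]
    congr 1
    · simp [sr_apply, hca, hcb]
    · simp only [sr_apply, map_neg, LinearMap.neg_apply]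
      module
  rw [h1, h2, sr_inv, sr_four B hA c d _ hcd he]
  congr 1
  simp only [map_add, map_smul, smul_eq_mul]
  ring


lemma map_eq_of_forall_mem' [FiniteDimensional F V] (g : V ≃ₗ[F] V) (W W' : Submodule F V)
    (hfr : finrank F W = finrank F W') (h : ∀ w ∈ W, g w ∈ W') : W.map (g : V →ₗ[F] V) = W' := by
  have hle : W.map (g : V →ₗ[F] V) ≤ W' := by
    rintro _ ⟨w, hw, rfl⟩
    exact h w hw
  exact Submodule.eq_of_le_of_finrank_eq hle ((LinearEquiv.finrank_map_eq g W).trans hfr)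

/-- a pair of complementary totally isotropic subspaces -/
structure LagPair (B : BilinForm F V) (W₁ W₂ : Submodule F V) : Prop where
  iso₁ : ∀ u ∈ W₁, ∀ v ∈ W₁, B u v = 0
  iso₂ : ∀ u ∈ W₂, ∀ v ∈ W₂, B u v = 0
  compl : IsCompl W₁ W₂

lemma exists_perp3 [FiniteDimensional F V] (B : BilinForm F V) (W : Submodule F V)
    (hW : 3 < finrank F W) (u : Fin 3 → V) : ∃ c ∈ W, c ≠ 0 ∧ ∀ i, B c (u i) = 0 := by
  let f : W →ₗ[F] (Fin 3 → F) := LinearMap.pi (fun i => (B.flip (u i)).comp W.subtype)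
  have hk : f.ker ≠ ⊥ := LinearMap.ker_ne_bot_of_finrank_lt (by simpa using hW)
  obtain ⟨c, hc, hc0⟩ := Submodule.exists_mem_ne_zero_of_ne_bot hk
  refine ⟨c, c.2, by simpa using hc0, fun i => ?_⟩
  have := congrFun (LinearMap.mem_ker.1 hc) i
  simpa [f] using this

namespace LagPair

variable {B : BilinForm F V} {W₁ W₂ : Submodule F V}

lemma symm (h : LagPair B W₁ W₂) : LagPair B W₂ W₁ := ⟨h.iso₂, h.iso₁, h.compl.symm⟩

lemma exists_add (h : LagPair B W₁ W₂) (x : V) : ∃ x₁ ∈ W₁, ∃ x₂ ∈ W₂, x₁ + x₂ = x := by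
  have : x ∈ W₁ ⊔ W₂ := by rw [h.compl.sup_eq_top]; trivial
  exact Submodule.mem_sup.1 this

lemma inter (h : LagPair B W₁ W₂) {x : V} (h1 : x ∈ W₁) (h2 : x ∈ W₂) : x = 0 := by
  have := h.compl.disjoint
  rw [Submodule.disjoint_def] at this
  exact this x h1 h2

lemma mem_of_perp (h : LagPair B W₁ W₂) (hA : B.IsAlt) (hN : B.Nondegenerate) {x : V}
    (hx : ∀ w ∈ W₂, B w x = 0) : x ∈ W₂ := by
  obtain ⟨x₁, h1, x₂, h2, rfl⟩ := h.exists_add x
  have : x₁ = 0 := by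
    apply hN.1
    intro y
    obtain ⟨y₁, hy1, y₂, hy2, rfl⟩ := h.exists_add y
    rw [map_add, h.iso₁ _ h1 _ hy1, zero_add]
    have := hx y₂ hy2
    rw [map_add, h.iso₂ _ hy2 _ h2, add_zero] at this
    rw [alt_swap hA, this, neg_zero]
  rw [this, zero_add]; exact h2

lemma exists_in [FiniteDimensional F V] (h : LagPair B W₁ W₂) (hA : B.IsAlt) (hN : B.Nondegenerate)
    (U : Submodule F V) {x : V} (hx : x ∉ W₂ ⊔ U) :
    ∃ z ∈ W₂, (∀ u ∈ U, B u z = 0) ∧ B x z ≠ 0 := by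
  obtain ⟨z, hz, hxz⟩ := exists_perp_ne hA hN (W₂ ⊔ U) hx
  rw [LinearMap.BilinForm.mem_orthogonal_iff] at hz
  exact ⟨z, h.mem_of_perp hA hN (fun w hw => hz w (Submodule.mem_sup_left hw)),
    fun u hu => hz u (Submodule.mem_sup_right hu), hxz⟩

theorem sub_tvSet [FiniteDimensional F V] (h : LagPair B W₁ W₂) (hA : B.IsAlt) (hN : B.Nondegenerate)
    (h2 : (2 : F) ≠ 0) (hm : 3 < finrank F W₁)
    (G : Subgroup (V ≃ₗ[F] V)) (hP : ∀ a ∈ W₁, ∀ b ∈ W₂, ∀ hab : B a b = 0, sr B hA a b hab ∈ G)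
    (φ0 : V ≃ₗ[F] V) (hφ0 : φ0 ∈ G) (hI : IsIsom B φ0)
    (a₀ : V) (ha₀ : a₀ ∈ W₁) (ha₀' : φ0 a₀ ∉ W₂) (b₀ : V) (hb₀ : b₀ ∈ W₂) (hb₀' : φ0 b₀ ∉ W₂) :
    ∀ w ∈ W₁, w ∈ tvSet B hA G := by
  -- step 0: find a, b
  obtain ⟨a, ha, b, hb, hab, ha', hb'⟩ :
      ∃ a ∈ W₁, ∃ b ∈ W₂, B a b = 0 ∧ φ0 a ∉ W₂ ∧ φ0 b ∉ W₂ := by
    by_cases hex : ∃ a ∈ W₁, B a b₀ = 0 ∧ φ0 a ∉ W₂
    · obtain ⟨a, ha, hab, ha'⟩ := hex
      exact ⟨a, ha, b₀, hb₀, hab, ha', hb₀'⟩
    · push Not at hex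
      obtain ⟨a₂, ha₂, ha₂0, ha₂b⟩ := exists_perp3 B W₁ hm (fun _ => b₀)
      have ha₂L := hex a₂ ha₂ (ha₂b 0)
      have hnot : a₂ ∉ W₂ ⊔ Submodule.span F {a₀} := by
        intro hmem
        obtain ⟨w, hw, y, hy, hwy⟩ := Submodule.mem_sup.1 hmem
        obtain ⟨l, rfl⟩ := Submodule.mem_span_singleton.1 hy
        have hw0 : w = 0 := h.inter
          (by rw [eq_sub_of_add_eq hwy]; exact W₁.sub_mem ha₂ (W₁.smul_mem _ ha₀)) hw
        rw [hw0, zero_add] at hwy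
        by_cases hl : l = 0
        · rw [hl, zero_smul] at hwy; exact ha₂0 hwy.symm
        · apply ha₀'
          have : a₀ = l⁻¹ • a₂ := by rw [← hwy, smul_smul, inv_mul_cancel₀ hl, one_smul]
          rw [this, map_smul]; exact W₂.smul_mem _ ha₂L
      obtain ⟨b₂, hb₂, hb₂a, hb₂n⟩ := h.exists_in hA hN _ hnot
      refine ⟨a₀, ha₀, b₂, hb₂, hb₂a a₀ (Submodule.mem_span_singleton_self _), ha₀', ?_⟩
      intro hcon
      apply hb₂n
      rw [← hI, h.iso₂ _ ha₂L _ hcon]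
  -- step 1: d
  have hne : ∀ x, x ∉ W₂ → ∃ z ∈ W₂, B.flip x z ≠ 0 := by
    intro x hx
    by_contra hcon
    push Not at hcon
    exact hx (h.mem_of_perp hA hN hcon)
  obtain ⟨d, hd, hda, hdb⟩ := exists_both_ne_zero W₂ (B.flip (φ0 a)) (B.flip (φ0 b)) (hne _ ha') (hne _ hb')
  change B d (φ0 a) ≠ 0 at hda
  change B d (φ0 b) ≠ 0 at hdb
  obtain ⟨c, hc, hc0, hcu⟩ := exists_perp3 B W₁ hm ![φ0 a, φ0 b, d]
  have hca : B c (φ0 a) = 0 := hcu 0
  have hcb : B c (φ0 b) = 0 := hcu 1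
  have hcd : B c d = 0 := hcu 2
  have h4 : (4 : F) ≠ 0 := by
    have : (4 : F) = 2 * 2 := by norm_num
    rw [this]; exact mul_ne_zero h2 h2
  have hcX : c ∈ tvSet B hA G := by
    intro γ
    set l : F := γ / (-4 * (B d (φ0 a) * B d (φ0 b))) with hl
    have hlab : B (l • a) b = 0 := by simp [hab]
    have hS' : sr B hA (φ0 (l • a)) (φ0 b) (by rw [hI]; exact hlab) ∈ G := by
      rw [← conj_sr hA hI (l • a) b hlab]
      exact G.mul_mem (G.mul_mem hφ0 (hP _ (W₁.smul_mem _ ha) _ hb hlab)) (G.inv_mem hφ0)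
    have hS : sr B hA c d hcd ∈ G := hP c hc d hd hcd
    have key := sr_key B hA (φ0 (l • a)) (φ0 b) c d (by rw [hI]; exact hlab) hcd
      (by rw [map_smul, map_smul, hca, smul_zero]) hcb
    have hγ : -4 * (B d (φ0 (l • a)) * B d (φ0 b)) = γ := by
      rw [map_smul, map_smul, smul_eq_mul, hl]
      field_simp
    rw [hγ] at key
    rw [← key]
    exact G.mul_mem (G.mul_mem (G.mul_mem (G.mul_mem (G.mul_mem hS' hS) (G.inv_mem hS')) (G.inv_mem hS))
      (G.mul_mem (G.mul_mem hS' (G.inv_mem hS)) (G.inv_mem hS'))) hS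
  -- step 3
  intro w hw
  by_cases hwc : w ∈ Submodule.span F {c}
  · obtain ⟨r, rfl⟩ := Submodule.mem_span_singleton.1 hwc
    exact tvSet_smul hcX r
  · have hnot : c ∉ W₂ ⊔ Submodule.span F {w - c} := by
      intro hmem
      obtain ⟨w₂, hw₂, y, hy, hwy⟩ := Submodule.mem_sup.1 hmem
      obtain ⟨l, rfl⟩ := Submodule.mem_span_singleton.1 hy
      have hw0 : w₂ = 0 := h.inter
        (by rw [eq_sub_of_add_eq hwy]; exact W₁.sub_mem hc (W₁.smul_mem _ (W₁.sub_mem hw hc))) hw₂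
      rw [hw0, zero_add] at hwy
      by_cases hl : l = 0
      · rw [hl, zero_smul] at hwy; exact hc0 hwy.symm
      · apply hwc
        rw [Submodule.mem_span_singleton]
        refine ⟨(1 + l) / l, ?_⟩
        have : l • w = (1 + l) • c := by
          have h3 : l • w - l • c = c := by rw [← smul_sub]; exact hwy
          rw [add_smul, one_smul]
          rw [sub_eq_iff_eq_add] at h3
          exact h3
        rw [div_eq_inv_mul, mul_smul, ← this, smul_smul, inv_mul_cancel₀ hl, one_smul]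
    obtain ⟨b₁, hb₁, hb₁a, hb₁n⟩ := h.exists_in hA hN _ hnot
    have h0 : B (w - c) ((B c b₁)⁻¹ • b₁) = 0 := by
      rw [map_smul, hb₁a _ (Submodule.mem_span_singleton_self _), smul_zero]
    have := tvSet_map hcX (hP (w - c) (W₁.sub_mem hw hc) _ (W₂.smul_mem _ hb₁) h0) (sr_isIsom _ _ _ _ _)
    rw [sr_apply, h.iso₁ c hc _ (W₁.sub_mem hw hc), zero_smul, add_zero, map_smul, smul_eq_mul,
      inv_mul_cancel₀ hb₁n, one_smul] at this
    simpa using this


lemma exists_swap [FiniteDimensional F V] (h : LagPair B W₁ W₂) (hA : B.IsAlt) (hN : B.Nondegenerate)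
    (hfr : finrank F W₁ = finrank F W₂) :
    ∃ J : V ≃ₗ[F] V, IsIsom B J ∧ (∀ w ∈ W₁, J w ∈ W₂) ∧ (∀ w ∈ W₂, J w ∈ W₁) := by
  classical
  let Ψ : W₂ →ₗ[F] Dual F W₁ := B.flip.domRestrict₁₂ W₂ W₁
  have hΨ : ∀ (w : W₂) (x : W₁), Ψ w x = B x w := fun w x => rfl
  have hinj : Function.Injective Ψ := by
    rw [injective_iff_map_eq_zero]
    intro w hw
    have h1 : (w : V) ∈ W₁ := h.symm.mem_of_perp hA hN (fun x hx => by
      have := LinearMap.congr_fun hw ⟨x, hx⟩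
      simpa [hΨ] using this)
    exact Subtype.ext (h.inter h1 w.2)
  let Ψe : W₂ ≃ₗ[F] Dual F W₁ := LinearMap.linearEquivOfInjective Ψ hinj
    (by rw [Subspace.dual_finrank_eq, hfr])
  have hΨe : ∀ w, Ψe w = Ψ w := fun w => rfl
  let b := Module.finBasis F W₁
  let θ : W₁ ≃ₗ[F] W₂ := b.toDualEquiv.trans Ψe.symm
  have hθ : ∀ x y : W₁, B x (θ y) = b.toDual y x := by
    intro x y
    rw [← hΨ, ← hΨe]
    simp [θ]
  have hsym : ∀ x y : W₁, b.toDual y x = b.toDual x y := by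
    have : b.toDual = b.toDual.flip := by
      refine b.ext fun i => b.ext fun j => ?_
      simp [Module.Basis.toDual_apply, eq_comm]
    intro x y
    conv_lhs => rw [this]
    rfl
  let E := Submodule.prodEquivOfIsCompl W₁ W₂ h.compl
  let K : (W₁ × W₂) ≃ₗ[F] (W₁ × W₂) :=
    (LinearEquiv.prodComm F W₁ W₂).trans ((θ.symm.trans (LinearEquiv.neg F)).prodCongr θ)
  let J : V ≃ₗ[F] V := E.symm.trans (K.trans E)
  have hJ : ∀ (x u : W₁), J ((x : V) + (θ u : V)) = -(u : V) + (θ x : V) := by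
    intro x u
    have h1 : (x : V) + (θ u : V) = E (x, θ u) := by simp [E]
    rw [h1]
    simp [J, K, E]
  have hdec : ∀ v : V, ∃ x u : W₁, v = (x : V) + (θ u : V) := by
    intro v
    obtain ⟨⟨x, y⟩, rfl⟩ := E.surjective v
    obtain ⟨u, rfl⟩ := θ.surjective y
    exact ⟨x, u, by simp [E]⟩
  refine ⟨J, ?_, ?_, ?_⟩
  · intro v v'
    obtain ⟨x, u, rfl⟩ := hdec v
    obtain ⟨x', u', rfl⟩ := hdec v'
    rw [hJ, hJ]
    simp only [map_add, map_neg, LinearMap.add_apply, LinearMap.neg_apply]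
    rw [h.iso₁ _ u.2 _ u'.2, h.iso₁ _ x.2 _ x'.2, h.iso₂ _ (θ x).2 _ (θ x').2,
      h.iso₂ _ (θ u).2 _ (θ u').2, alt_swap hA (θ x : V) (u' : V), alt_swap hA (θ u : V) (x' : V),
      hθ, hθ, hθ, hθ, hsym x u', hsym x' u]
    ring
  · intro w hw
    have := hJ ⟨w, hw⟩ 0
    simp only [map_zero, Submodule.coe_zero, add_zero, neg_zero, zero_add] at this
    rw [this]
    exact (θ ⟨w, hw⟩).2
  · intro w hw
    obtain ⟨u, hu⟩ := θ.surjective ⟨w, hw⟩
    have := hJ 0 u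
    simp only [map_zero, Submodule.coe_zero, add_zero, zero_add, hu] at this
    rw [this]
    exact W₁.neg_mem u.2

/-- `φ` fixes or interchanges `W₁` and `W₂`. -/
def _root_.Cfsg.Agent.Lib.Helper13.PairStab (W₁ W₂ : Submodule F V) (φ : V ≃ₗ[F] V) : Prop :=
  ((∀ w ∈ W₁, φ w ∈ W₁) ∧ (∀ w ∈ W₂, φ w ∈ W₂)) ∨ ((∀ w ∈ W₁, φ w ∈ W₂) ∧ (∀ w ∈ W₂, φ w ∈ W₁))

lemma sr_pairStab (h : LagPair B W₁ W₂) (hA : B.IsAlt) (a b : V) (ha : a ∈ W₁) (hb : b ∈ W₂)
    (hab : B a b = 0) : PairStab W₁ W₂ (sr B hA a b hab) := by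
  left
  constructor
  · intro w hw
    rw [sr_apply, h.iso₁ w hw a ha, zero_smul, add_zero]
    exact W₁.add_mem hw (W₁.smul_mem _ ha)
  · intro w hw
    rw [sr_apply, h.iso₂ w hw b hb, zero_smul, add_zero]
    exact W₂.add_mem hw (W₂.smul_mem _ hb)

theorem core [FiniteDimensional F V] (h : LagPair B W₁ W₂) (hA : B.IsAlt) (hN : B.Nondegenerate)
    (h2 : (2 : F) ≠ 0) (hm : 3 < finrank F W₁) (hfr : finrank F W₁ = finrank F W₂)
    (G : Subgroup (V ≃ₗ[F] V)) (hP : ∀ φ, IsIsom B φ → PairStab W₁ W₂ φ → φ ∈ G)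
    (φ0 : V ≃ₗ[F] V) (hφ0 : φ0 ∈ G) (hI : IsIsom B φ0) (hS : ¬ PairStab W₁ W₂ φ0) :
    ∀ φ, IsIsom B φ → φ ∈ G := by
  obtain ⟨J, hJI, hJ1, hJ2⟩ := h.exists_swap hA hN hfr
  have hJG : J ∈ G := hP J hJI (Or.inr ⟨hJ1, hJ2⟩)
  have hP1 : ∀ a ∈ W₁, ∀ b ∈ W₂, ∀ hab : B a b = 0, sr B hA a b hab ∈ G :=
    fun a ha b hb hab => hP _ (sr_isIsom _ _ _ _ _) (h.sr_pairStab hA a b ha hb hab)
  have hP2 : ∀ a ∈ W₂, ∀ b ∈ W₁, ∀ hab : B a b = 0, sr B hA a b hab ∈ G := by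
    intro a ha b hb hab
    rw [sr_comm B hA a b hab (by rw [alt_swap hA, hab, neg_zero])]
    exact hP1 b hb a ha _
  -- images under J
  have hJsurj1 : ∀ w ∈ W₂, ∃ x ∈ W₁, J x = w := by
    intro w hw
    have := map_eq_of_forall_mem' J W₁ W₂ hfr hJ1
    rw [← this] at hw
    obtain ⟨x, hx, hxw⟩ := hw
    exact ⟨x, hx, hxw⟩
  have hJsurj2 : ∀ w ∈ W₁, ∃ x ∈ W₂, J x = w := by
    intro w hw
    have := map_eq_of_forall_mem' J W₂ W₁ hfr.symm hJ2
    rw [← this] at hw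
    obtain ⟨x, hx, hxw⟩ := hw
    exact ⟨x, hx, hxw⟩
  have hboth : (∀ w ∈ W₁, w ∈ tvSet B hA G) ∧ (∀ w ∈ W₂, w ∈ tvSet B hA G) := by
    by_cases hc1 : (∃ a ∈ W₁, φ0 a ∉ W₂) ∧ (∃ b ∈ W₂, φ0 b ∉ W₂)
    · obtain ⟨⟨a₀, ha₀, ha₀'⟩, b₀, hb₀, hb₀'⟩ := hc1
      have h1 := h.sub_tvSet hA hN h2 hm G hP1 φ0 hφ0 hI a₀ ha₀ ha₀' b₀ hb₀ hb₀'
      refine ⟨h1, fun w hw => ?_⟩
      obtain ⟨x, hx, rfl⟩ := hJsurj1 w hw
      exact tvSet_map (h1 x hx) hJG hJI
    · by_cases hc2 : (∃ a ∈ W₂, φ0 a ∉ W₁) ∧ (∃ b ∈ W₁, φ0 b ∉ W₁)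
      · obtain ⟨⟨a₀, ha₀, ha₀'⟩, b₀, hb₀, hb₀'⟩ := hc2
        have h1 := h.symm.sub_tvSet hA hN h2 (hfr ▸ hm) G hP2 φ0 hφ0 hI a₀ ha₀ ha₀' b₀ hb₀ hb₀'
        refine ⟨fun w hw => ?_, h1⟩
        obtain ⟨x, hx, rfl⟩ := hJsurj2 w hw
        exact tvSet_map (h1 x hx) hJG hJI
      · exfalso
        apply hS
        rw [not_and_or] at hc1 hc2
        push Not at hc1 hc2
        have hne : ∃ e ∈ W₁, e ≠ 0 := by
          apply Submodule.exists_mem_ne_zero_of_ne_bot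
          intro hb
          rw [hb, finrank_bot] at hm
          omega
        have hne2 : ∃ e ∈ W₂, e ≠ 0 := by
          apply Submodule.exists_mem_ne_zero_of_ne_bot
          intro hb
          rw [hfr, hb, finrank_bot] at hm
          omega
        rcases hc1 with hc1 | hc1 <;> rcases hc2 with hc2 | hc2
        · exact Or.inr ⟨hc1, hc2⟩
        · exfalso
          obtain ⟨e, he, he0⟩ := hne
          have := h.inter (hc2 e he) (hc1 e he)
          exact he0 (by simpa using this)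
        · exfalso
          obtain ⟨e, he, he0⟩ := hne2
          have := h.inter (hc2 e he) (hc1 e he)
          exact he0 (by simpa using this)
        · exact Or.inl ⟨hc2, hc1⟩
  obtain ⟨hX1, hX2⟩ := hboth
  refine mem_of_isIsom hA hN G fun v => ?_
  change v ∈ tvSet B hA G
  obtain ⟨w₁, hw₁, w₂, hw₂, rfl⟩ := h.exists_add v
  by_cases hB : B w₁ w₂ = 0
  · by_cases hw0 : w₁ = 0
    · rw [hw0, zero_add]; exact hX2 _ hw₂
    · have hnot : w₁ ∉ W₂ ⊔ (⊥ : Submodule F V) := by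
        rw [sup_bot_eq]
        intro hmem
        exact hw0 (h.inter hw₁ hmem)
      obtain ⟨z, hz, -, hzn⟩ := h.exists_in hA hN _ hnot
      have h1 : w₁ + z ∈ tvSet B hA G := tvSet_add (hX1 _ hw₁) (hX2 _ hz) hzn
      have h3 : B (w₁ + z) (w₂ - z) ≠ 0 := by
        rw [map_add, LinearMap.add_apply, map_sub, map_sub, hB, h.iso₂ z hz w₂ hw₂, hA z]
        simpa using hzn
      have := tvSet_add h1 (hX2 _ (W₂.sub_mem hw₂ hz)) h3
      have he : w₁ + z + (w₂ - z) = w₁ + w₂ := by abel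
      rwa [he] at this
  · exact tvSet_add (hX1 _ hw₁) (hX2 _ hw₂) hB

lemma exists_isIsom_not_stab [FiniteDimensional F V] (h : LagPair B W₁ W₂) (hA : B.IsAlt)
    (hN : B.Nondegenerate) (hm : 0 < finrank F W₁) : ∃ φ, IsIsom B φ ∧ ¬ PairStab W₁ W₂ φ := by
  obtain ⟨e, he, he0⟩ : ∃ e ∈ W₁, e ≠ 0 := by
    apply Submodule.exists_mem_ne_zero_of_ne_bot
    intro hb
    rw [hb, finrank_bot] at hm
    omega
  have hnot : e ∉ W₂ ⊔ (⊥ : Submodule F V) := by
    rw [sup_bot_eq]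
    intro hmem
    exact he0 (h.inter he hmem)
  obtain ⟨z, hz, -, hzn⟩ := h.exists_in hA hN _ hnot
  have hze : B z e ≠ 0 := by rw [alt_swap hA]; simpa using hzn
  refine ⟨st B hA e 1, st_isIsom _ _ _ _, ?_⟩
  rintro (⟨-, h2⟩ | ⟨-, h2⟩)
  · have := h2 z hz
    rw [st_apply, one_mul] at this
    have h3 : B z e • e ∈ W₂ := by
      have := W₂.sub_mem this hz
      simpa using this
    have h4 := h.inter (W₁.smul_mem _ he) h3
    exact (smul_ne_zero hze he0) h4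
  · have := h2 z hz
    rw [st_apply, one_mul] at this
    have h3 : z ∈ W₁ := by
      have := W₁.sub_mem this (W₁.smul_mem (B z e) he)
      simpa using this
    have h4 := h.inter h3 hz
    rw [h4] at hze
    simp at hze

end LagPair

end Cfsg.Agent.Lib.Helper13
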