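import Mathlib
import Cfsg.Agent.Lib.Helper13.LagPair
import Cfsg.Agent.Lib.Helper94.SympDecompWrap

set_option autoImplicit false

namespace Cfsg.Agent.Lib.Helper13

open Module
open Cfsg.Agent.Lib.Helper94

variable {ι : Type} [Fintype ι] [DecidableEq ι] {F : Type*} [Field F]

lemma mem_decStab_two_iff (D : Fin 2 → Submodule F (ι → F))
    (hf : finrank F (D 0) = finrank F (D 1)) (g : Matrix.GeneralLinearGroup ι F) :
    g ∈ Cfsg.Geo.decompositionStabilizer D ↔ PairStab (D 0) (D 1) (glEquiv _ F g) := by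
  have h01 : (0 : Fin 2) ≠ 1 := by decide
  rw [mem_decompositionStabilizer_iff]
  constructor
  · rintro ⟨σ, hσ⟩
    have hmem : ∀ i, ∀ w ∈ D i, glEquiv _ F g w ∈ D (σ i) := by
      intro i w hw
      rw [← hσ i]
      exact Submodule.mem_map_of_mem hw
    have hcases : (σ 0 = 0 ∧ σ 1 = 1) ∨ (σ 0 = 1 ∧ σ 1 = 0) := by
      have hinj : σ 0 ≠ σ 1 := fun h => h01 (σ.injective h)
      generalize σ 0 = x at hinj
      generalize σ 1 = y at hinj
      fin_cases x <;> fin_cases y <;> simp_all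
    rcases hcases with ⟨h0, h1⟩ | ⟨h0, h1⟩
    · left
      exact ⟨fun w hw => h0 ▸ hmem 0 w hw, fun w hw => h1 ▸ hmem 1 w hw⟩
    · right
      exact ⟨fun w hw => h0 ▸ hmem 0 w hw, fun w hw => h1 ▸ hmem 1 w hw⟩
  · rintro (⟨h0, h1⟩ | ⟨h0, h1⟩)
    · refine ⟨1, fun i => ?_⟩
      fin_cases i
      · exact map_eq_of_forall_mem' _ _ _ rfl h0
      · exact map_eq_of_forall_mem' _ _ _ rfl h1
    · refine ⟨Equiv.swap 0 1, fun i => ?_⟩
      fin_cases i
      · exact map_eq_of_forall_mem' _ _ _ hf h0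
      · exact map_eq_of_forall_mem' _ _ _ hf.symm h1

lemma isCompl_of_isMDecomposition {k : ℕ} {D : Fin 2 → Submodule F (ι → F)}
    (hD : Cfsg.Geo.IsMDecomposition k D) : IsCompl (D 0) (D 1) := by
  have h01 : (0 : Fin 2) ≠ 1 := by decide
  refine ⟨hD.indep.pairwiseDisjoint h01, ?_⟩
  rw [codisjoint_iff, eq_top_iff, ← hD.iSup_eq_top]
  refine iSup_le fun i => ?_
  fin_cases i
  · exact le_sup_left
  · exact le_sup_right

end Cfsg.Agent.Lib.Helper13
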