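import Mathlib
import Cfsg.Agent.Lib.Helper13.OrthAE

set_option autoImplicit false
set_option linter.unusedSimpArgs false
set_option linter.unusedSectionVars false

namespace Cfsg.Agent.Lib.Helper13.O

open QuadraticMap Module
open Cfsg.Agent.Lib.Helper44

variable {F V : Type*} [Field F] [AddCommGroup V] [Module F V]

namespace OD

variable {Q : QuadraticForm F V} {W W' : Submodule F V}

/-- irreducibility of a nondegenerate space of dimension at least three under its Eichler maps -/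
lemma irr3 [Fintype F] [FiniteDimensional F V] (h : OD Q W W') (hQ : (polarBilin Q).Nondegenerate)
    (h3 : 3 ≤ finrank F W') (X : AddSubgroup V)
    (hinv : ∀ u ∈ W', ∀ w ∈ W', ∀ (hu : Q u = 0) (huw : polar Q u w = 0), ∀ x ∈ X,
      eichler Q u w hu huw x ∈ X)
    {x₀ : V} (hx₀ : x₀ ∈ X) (hx₀W : x₀ ∈ W') (hx₀0 : x₀ ≠ 0) : ∀ x ∈ W', x ∈ X := by
  classical
  have claim1 : ∀ x ∈ X, ∀ u ∈ W', Q u = 0 → polar Q u x ≠ 0 → ∀ l : F, l • u ∈ X := by
    intro x hx u hu hQu hux l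
    have hu0 : u ≠ 0 := by
      rintro rfl
      simp at hux
    obtain ⟨f, hf, hQf, huf⟩ := h.symm.partner hQ hu hu0 hQu
    have hcard : ({u, f} : Finset V).card ≤ 2 := Finset.card_le_two
    have hfr := finrank_inf_orth hQ W' {u, f}
    have hne : W' ⊓ O.orth Q {u, f} ≠ ⊥ := by
      intro hb
      rw [hb, finrank_bot] at hfr
      omega
    obtain ⟨w, hw, hw0⟩ := Submodule.exists_mem_ne_zero_of_ne_bot hne
    have hwW := hw.1
    have hws := mem_orth.1 hw.2
    have huw : polar Q u w = 0 := hws u (by simp)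
    have hfw : polar Q f w = 0 := hws f (by simp)
    obtain ⟨z, hz, hzw⟩ := h.symm.nd hQ hwW hw0
    set w' : V := z - polar Q u z • f with hw'
    have hw'W : w' ∈ W' := W'.sub_mem hz (W'.smul_mem _ hf)
    have huw' : polar Q u w' = 0 := by
      rw [hw', polar_sub_right, polar_smul_right, huf]; simp
    have hww' : polar Q w w' = 1 := by
      rw [hw', polar_sub_right, polar_smul_right, polar_comm Q w f, hfw, polar_comm Q w z, hzw]; simp
    set μ : F := -l / polar Q u x with hμ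
    have hum : polar Q u (μ • w) = 0 := by rw [polar_smul_right, huw]; simp
    have hus : polar Q u (μ • w + w') = 0 := by rw [polar_add_right, hum, huw', add_zero]
    have k1 := hinv u hu (μ • w) (W'.smul_mem _ hwW) hQu hum x hx
    have k2 := hinv u hu w' hw'W hQu huw' x hx
    have k3 := hinv u hu (μ • w + w') (W'.add_mem (W'.smul_mem _ hwW) hw'W) hQu hus x hx
    have key : l • u = eichler Q u (μ • w + w') hQu hus x - eichler Q u (μ • w) hQu hum x
        - eichler Q u w' hQu huw' x + x := by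
      simp only [eichler_apply, polar_add_left, QuadraticMap.map_add (⇑Q) (μ • w) w',
        polar_smul_left, hww', smul_eq_mul, mul_one]
      have : l = -(μ * polar Q u x) := by
        rw [hμ]; field_simp
      rw [this]
      module
    rw [key]
    exact X.add_mem (X.sub_mem (X.sub_mem k3 k1) k2) hx
  have claim2 : ∀ u ∈ W', Q u = 0 → u ∈ X := by
    intro u hu hQu
    by_cases hu0 : u = 0
    · rw [hu0]; exact X.zero_mem
    by_cases hux : polar Q u x₀ = 0
    · obtain ⟨z1, hz1, hz1u⟩ := h.symm.nd hQ hu hu0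
      obtain ⟨z2, hz2, hz2x⟩ := h.symm.nd hQ hx₀W hx₀0
      obtain ⟨z, hz, hzu, hzx⟩ := Cfsg.Agent.Lib.Helper94.exists_both_ne_zero W'
        ((polarBilin Q).flip u) ((polarBilin Q).flip x₀)
        ⟨z1, hz1, by change polar Q z1 u ≠ 0; rw [hz1u]; exact one_ne_zero⟩
        ⟨z2, hz2, by change polar Q z2 x₀ ≠ 0; rw [hz2x]; exact one_ne_zero⟩
      change polar Q z u ≠ 0 at hzu
      change polar Q z x₀ ≠ 0 at hzx
      set u' : V := z + (-(Q z / polar Q z u)) • u with hu'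
      have hu'W : u' ∈ W' := W'.add_mem hz (W'.smul_mem _ hu)
      have hQu' : Q u' = 0 := by
        rw [hu', Q_add_smul, hQu]; field_simp; ring
      have hu'u : polar Q u u' ≠ 0 := by
        rw [hu', polar_add_right, polar_smul_right, polar_self, hQu, polar_comm Q u z]
        simpa using hzu
      have hu'x : polar Q u' x₀ ≠ 0 := by
        rw [hu', polar_add_left, polar_smul_left, hux]
        simpa using hzx
      have h1 := claim1 x₀ hx₀ u' hu'W hQu' hu'x 1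
      rw [one_smul] at h1
      have h2 := claim1 u' h1 u hu hQu hu'u 1
      rwa [one_smul] at h2
    · have := claim1 x₀ hx₀ u hu hQu hux 1
      rwa [one_smul] at this
  obtain ⟨e, he, he0, hQe⟩ := exists_singular_of_finrank Q W' h3
  obtain ⟨f, hf, hQf, hef⟩ := h.symm.partner hQ he he0 hQe
  exact span_sing he hf hQe hQf hef X claim2

variable {G : Subgroup (V ≃ₗ[F] V)}

lemma mem_AE_of_mem [Fintype F] [FiniteDimensional F V] (h : OD Q W W')
    (hQ : (polarBilin Q).Nondegenerate) (hdim : 4 < finrank F V)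
    (hG : ∀ φ ∈ Om Q, (∀ w ∈ W, φ w ∈ W) → φ ∈ G) {c v : V} (hc : c ∈ W) (hQc : Q c = 0)
    (hv : v ∈ W) (hcv : polar Q c v = 0) : v ∈ AE Q G c hQc := by
  refine ⟨hcv, hG _ (eichler_mem_Om hQ hdim _ _ _ _) ?_⟩
  intro w hw
  rw [eichler_apply]
  exact W.sub_mem (W.sub_mem (W.add_mem hw (W.smul_mem _ hc)) (W.smul_mem _ hv)) (W.smul_mem _ hc)

lemma fill3 [Fintype F] [FiniteDimensional F V] (h : OD Q W W')
    (hQ : (polarBilin Q).Nondegenerate) (hdim : 4 < finrank F V) (h3 : 3 ≤ finrank F W')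
    (hG : ∀ φ ∈ Om Q, (∀ w ∈ W, φ w ∈ W) → φ ∈ G) {c a : V} (hc : c ∈ W) (hQc : Q c = 0)
    (ha : a ∈ AE Q G c hQc) (haW : a ∈ W') (ha0 : a ≠ 0) : ∀ x ∈ W', x ∈ AE Q G c hQc := by
  refine h.irr3 hQ h3 (AE Q G c hQc) ?_ ha haW ha0
  intro u hu w hw hQu huw x hx
  have hfix : ∀ y ∈ W, eichler Q u w hQu huw y = y := by
    intro y hy
    rw [eichler_apply, polar_comm Q w y, polar_comm Q u y, h.orth y hy w hw, h.orth y hy u hu]
    simp
  refine AE_fix (hG _ (eichler_mem_Om hQ hdim _ _ _ _) ?_) (eichler_mem Q _ _ _ _) (hfix c hc) hx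
  intro y hy
  rw [hfix y hy]; exact hy

theorem mixed_of_fill [Fintype F] [FiniteDimensional F V] (h : OD Q W W')
    (hQ : (polarBilin Q).Nondegenerate) (hdim : 12 < finrank F V) (h5 : 5 ≤ finrank F W)
    (hG : ∀ φ ∈ Om Q, (∀ w ∈ W, φ w ∈ W) → φ ∈ G) {c : V} (hc : c ∈ W) (hc0 : c ≠ 0)
    (hQc : Q c = 0) (hfill : ∀ x ∈ W', x ∈ AE Q G c hQc) : Om Q ≤ G := by
  have hcU : c ∈ UU Q G := by
    apply mem_UU_of_AE hQc
    intro v hv
    obtain ⟨v₁, hv₁, v₂, hv₂, rfl⟩ := h.decomp v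
    rw [polar_add_right, h.orth c hc v₂ hv₂, add_zero] at hv
    exact (AE Q G c hQc).add_mem (h.mem_AE_of_mem hQ (by omega) hG hc hQc hv₁ hv) (hfill v₂ hv₂)
  obtain ⟨c', hc', hQc', hcc'⟩ := h.partner hQ hc hc0 hQc
  obtain ⟨e, he, f, hf, hQe, hQf, hef, hce, hc'e, hcf, hc'f⟩ := h.hyp2 hQ hc hc' hQc hQc' hcc' h5
  have hc'v : polar Q c' (e + f) = 0 := by rw [polar_add_right, hc'e, hc'f, add_zero]
  have hcv : polar Q c (e + f) = 0 := by rw [polar_add_right, hce, hcf, add_zero]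
  have hQv : Q (e + f) = 1 := by rw [QuadraticMap.map_add (⇑Q), hQe, hQf, hef]; simp
  have hE : eichler Q c' (e + f) hQc' hc'v ∈ G :=
    (h.mem_AE_of_mem hQ (by omega) hG hc' hQc' (W.add_mem he hf) hc'v).2
  have hU2 := UU_map hcU hE (eichler_mem Q _ _ _ _)
  refine Om_le_of_UU hQ hdim hU2 hcU ?_
  rw [eichler_apply, hQv, polar_comm Q (e + f) c, hcv, polar_comm Q c' c, hcc']
  simp only [polar_add_left, polar_sub_left, polar_smul_left, polar_self, hQc, polar_comm Q (e + f) c,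
    hcv, polar_comm Q c' c, hcc']
  simp


lemma _root_.Cfsg.Agent.Lib.Helper13.O.plane_span [FiniteDimensional F V] {W : Submodule F V}
    (hW2 : finrank F W = 2) {a z : V} (ha : a ∈ W) (hz : z ∈ W) (ha0 : a ≠ 0)
    (hza : z ∉ Submodule.span F {a}) : ∀ w ∈ W, ∃ α β : F, w = α • a + β • z := by
  have hli : LinearIndependent F ![a, z] := by
    rw [LinearIndependent.pair_iff' ha0]
    intro l hl
    exact hza (Submodule.mem_span_singleton.2 ⟨l, hl⟩)
  have hle : Submodule.span F (Set.range ![a, z]) ≤ W := by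
    rw [Submodule.span_le]
    rintro _ ⟨i, rfl⟩
    fin_cases i
    · exact ha
    · exact hz
  have hfr : finrank F (Submodule.span F (Set.range ![a, z])) = 2 := by
    rw [finrank_span_eq_card hli]; simp
  have heq := Submodule.eq_of_le_of_finrank_eq hle (by rw [hfr, hW2])
  intro w hw
  rw [← heq] at hw
  have : Set.range ![a, z] = {a, z} := by
    ext y
    simp only [Matrix.range_cons, Matrix.range_empty, Set.union_empty, Set.singleton_union]
  rw [this, Submodule.mem_span_pair] at hw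
  obtain ⟨α, β, hab⟩ := hw
  exact ⟨α, β, hab.symm⟩

/-- closure of `AE ∩ W'` under scalars -/
lemma AE_smul_closed [Fintype F] [FiniteDimensional F V] (h : OD Q W W')
    (hQ : (polarBilin Q).Nondegenerate) (hdim : 4 < finrank F V) (h5 : 5 ≤ finrank F W)
    (hG : ∀ φ ∈ Om Q, (∀ w ∈ W, φ w ∈ W) → φ ∈ G) {c a : V} (hc : c ∈ W) (hc0 : c ≠ 0)
    (hQc : Q c = 0) (ha : a ∈ AE Q G c hQc) (haW : a ∈ W') (ν : F) : ν • a ∈ AE Q G c hQc := by
  by_cases hν : ν = 0
  · rw [hν, zero_smul]; exact (AE Q G c hQc).zero_mem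
  obtain ⟨c', hc', hQc', hcc'⟩ := h.partner hQ hc hc0 hQc
  obtain ⟨e, he, f, hf, hQe, hQf, hef, hce, hc'e, hcf, hc'f⟩ := h.hyp2 hQ hc hc' hQc hQc' hcc' h5
  set l1 : List V := [c - c', c - ν • c'] with hl1
  set l2 : List V := [e - f, e - ν • f] with hl2
  have hmemW : ∀ v ∈ l1 ++ l2, v ∈ W := by
    intro v hv
    simp only [hl1, hl2, List.mem_append, List.mem_cons, List.not_mem_nil, or_false] at hv
    rcases hv with (rfl | rfl) | (rfl | rfl)
    · exact W.sub_mem hc hc'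
    · exact W.sub_mem hc (W.smul_mem _ hc')
    · exact W.sub_mem he hf
    · exact W.sub_mem he (W.smul_mem _ hf)
  have hne : ∀ v ∈ l1 ++ l2, Q v ≠ 0 := by
    intro v hv
    rcases List.mem_append.1 hv with hv | hv
    · exact Q_hyp_list_ne Q hQc hQc' hcc' hν v hv
    · exact Q_hyp_list_ne Q hQe hQf hef hν v hv
  have hgOm : ((l1 ++ l2).map (refl Q)).prod ∈ Om Q := by
    refine prod_refl_mem_Om hQ (by omega) _ hne (by rw [hl1, hl2]; exact ⟨2, rfl⟩) ?_
    rw [List.map_append, List.prod_append, Q_hyp_list Q hQc hQc' hcc' ν, Q_hyp_list Q hQe hQf hef ν]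
    exact ⟨ν, rfl⟩
  have hgG : ((l1 ++ l2).map (refl Q)).prod ∈ G := by
    refine hG _ hgOm ?_
    exact prod_refl_mem_of_forall Q W _ (fun v hv x hx => refl_mem_of_mem Q (hmemW v hv) hx)
  have hsplit : ∀ x, ((l1 ++ l2).map (refl Q)).prod x
      = (l1.map (refl Q)).prod ((l2.map (refl Q)).prod x) := by
    intro x
    rw [List.map_append, List.prod_append, LinearEquiv.mul_apply]
  have hgc : ((l1 ++ l2).map (refl Q)).prod c = ν • c := by
    rw [hsplit, hyp_rotation_apply Q hQe hQf hef hν (by rw [polar_comm]; exact hce),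
      polar_comm Q f c, hcf, mul_zero, zero_smul, add_zero,
      hyp_rotation_apply Q hQc hQc' hcc' hν (by rw [polar_self, hQc]; simp), polar_comm Q c' c, hcc']
    module
  have hga : ((l1 ++ l2).map (refl Q)).prod a = a := by
    rw [hsplit, hyp_rotation_apply Q hQe hQf hef hν (h.orth e he a haW), h.orth f hf a haW, mul_zero,
      zero_smul, add_zero, hyp_rotation_apply Q hQc hQc' hcc' hν (h.orth c hc a haW),
      h.orth c' hc' a haW, mul_zero, zero_smul, add_zero]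
  have hQνc : Q (ν • c) = 0 := by rw [QuadraticMap.map_smul, hQc]; simp
  have h1 := AE_map hgG (Om_le_OQ Q hgOm) ha (by rw [hgc]; exact hQνc)
  obtain ⟨h2, h3⟩ := h1
  apply AE_smul hQνc
  have h2' : polar Q (ν • c) a = 0 := by rw [hgc, hga] at h2; exact h2
  refine ⟨h2', ?_⟩
  rw [eichler_congr Q hgc.symm hga.symm hQνc h2' _ h2]
  exact h3

/-- invariance of `AE ∩ W'` under the reflections of `W'` -/
lemma AE_refl [Fintype F] [FiniteDimensional F V] (h : OD Q W W')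
    (hQ : (polarBilin Q).Nondegenerate) (hdim : 4 < finrank F V) (h5 : 5 ≤ finrank F W)
    (hG : ∀ φ ∈ Om Q, (∀ w ∈ W, φ w ∈ W) → φ ∈ G) {c a : V} (hc : c ∈ W) (hc0 : c ≠ 0)
    (hQc : Q c = 0) (ha : a ∈ AE Q G c hQc) (haW : a ∈ W') {z : V} (hz : z ∈ W') (hQz : Q z ≠ 0) :
    refl Q z a ∈ AE Q G c hQc := by
  obtain ⟨c', hc', hQc', hcc'⟩ := h.partner hQ hc hc0 hQc
  obtain ⟨e, he, f, hf, hQe, hQf, hef, hce, hc'e, hcf, hc'f⟩ := h.hyp2 hQ hc hc' hQc hQc' hcc' h5
  set z' : V := e + Q z • f with hz'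
  have hz'W : z' ∈ W := W.add_mem he (W.smul_mem _ hf)
  have hQz' : Q z' = Q z := by rw [hz', Q_add_smul, hQe, hQf, hef]; ring
  have hgOm : (([z, z'] : List V).map (refl Q)).prod ∈ Om Q := by
    refine prod_refl_mem_Om hQ (by omega) _ ?_ (by simp) ?_
    · intro v hv
      simp only [List.mem_cons, List.not_mem_nil, or_false] at hv
      rcases hv with rfl | rfl
      · exact hQz
      · rw [hQz']; exact hQz
    · simp only [List.map_cons, List.map_nil, List.prod_cons, List.prod_nil, mul_one, hQz']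
      exact ⟨Q z, rfl⟩
  have happ : ∀ x, (([z, z'] : List V).map (refl Q)).prod x = refl Q z (refl Q z' x) := by
    intro x
    simp only [List.map_cons, List.map_nil, List.prod_cons, List.prod_nil, mul_one,
      LinearEquiv.mul_apply]
  have hzfix : ∀ x ∈ W, refl Q z x = x := fun x hx =>
    refl_apply_of_polar_eq_zero Q (by rw [polar_comm]; exact h.orth x hx z hz)
  have hgG : (([z, z'] : List V).map (refl Q)).prod ∈ G := by
    refine hG _ hgOm ?_
    intro x hx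
    rw [happ, hzfix _ (refl_mem_of_mem Q hz'W hx)]
    exact refl_mem_of_mem Q hz'W hx
  have hz'c : polar Q z' c = 0 := by
    rw [hz', polar_add_left, polar_smul_left, polar_comm Q e c, polar_comm Q f c, hce, hcf]; simp
  have hgc : (([z, z'] : List V).map (refl Q)).prod c = c := by
    rw [happ, refl_apply_of_polar_eq_zero Q hz'c, hzfix c hc]
  have h1 := AE_fix hgG (Om_le_OQ Q hgOm) hgc ha
  rwa [happ, refl_apply_of_polar_eq_zero Q (h.orth z' hz'W a haW)] at h1

/-- the condition excluding hyperbolic planes over very small fields -/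
def _root_.Cfsg.Agent.Lib.Helper13.O.SmallOK [Fintype F] (Q : QuadraticForm F V)
    (W' : Submodule F V) : Prop :=
  finrank F W' = 2 → (∃ u ∈ W', u ≠ 0 ∧ Q u = 0) → 4 ≤ Fintype.card F

lemma exists_good_refl [Fintype F] [FiniteDimensional F V] (h : OD Q W W')
    (hQ : (polarBilin Q).Nondegenerate) (h2 : finrank F W' = 2) (hok : SmallOK Q W') {a : V}
    (haW : a ∈ W') (ha0 : a ≠ 0) :
    ∃ z ∈ W', Q z ≠ 0 ∧ z ∉ Submodule.span F {a} ∧ polar Q z a ≠ 0 := by
  classical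
  by_cases hiso : ∃ u ∈ W', u ≠ 0 ∧ Q u = 0
  · have hq := hok h2 hiso
    obtain ⟨e, he, he0, hQe⟩ := hiso
    obtain ⟨f, hf, hQf, hef⟩ := h.symm.partner hQ he he0 hQe
    have hfe : polar Q f e = 1 := by rw [polar_comm]; exact hef
    have hee : polar Q e e = 0 := by rw [polar_self, hQe]; simp
    have hff : polar Q f f = 0 := by rw [polar_self, hQf]; simp
    have hfspan : f ∉ Submodule.span F {e} := by
      intro hmem
      obtain ⟨l, hl⟩ := Submodule.mem_span_singleton.1 hmem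
      rw [← hl, polar_smul_right, hee] at hef
      simp at hef
    obtain ⟨α, β, hab⟩ := plane_span h2 he hf he0 hfspan a haW
    -- a = α e + β f
    have hcard : ({0, -(β / α), β / α} : Finset F).card < (Finset.univ : Finset F).card := by
      have := Finset.card_le_three (a := (0 : F)) (b := -(β / α)) (c := β / α)
      rw [Finset.card_univ]
      omega
    obtain ⟨γ, -, hγ⟩ := Finset.exists_mem_notMem_of_card_lt_card hcard
    simp only [Finset.mem_insert, Finset.mem_singleton, not_or] at hγ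
    obtain ⟨hγ0, hγ1, hγ2⟩ := hγ
    have hαβ : α ≠ 0 ∨ β ≠ 0 := by
      by_contra hcon
      push Not at hcon
      apply ha0
      rw [hab, hcon.1, hcon.2]; simp
    refine ⟨e + γ • f, W'.add_mem he (W'.smul_mem _ hf), ?_, ?_, ?_⟩
    · rw [Q_add_smul, hQe, hQf, hef]
      simpa using hγ0
    · intro hmem
      obtain ⟨l, hl⟩ := Submodule.mem_span_singleton.1 hmem
      have k1 : polar Q (l • a) f = 1 := by
        rw [hl, polar_add_left, polar_smul_left, hef, hff]; simp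
      have k2 : polar Q (l • a) e = γ := by
        rw [hl, polar_add_left, polar_smul_left, hee, hfe]; simp
      rw [hab, polar_smul_left, polar_add_left, polar_smul_left, polar_smul_left, hef, hff] at k1
      rw [hab, polar_smul_left, polar_add_left, polar_smul_left, polar_smul_left, hee, hfe] at k2
      simp only [smul_eq_mul, mul_one, mul_zero, add_zero, zero_add] at k1 k2
      -- l α = 1, l β = γ
      have hα : α ≠ 0 := by
        rintro rfl
        simp at k1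
      apply hγ2
      rw [← k2]
      field_simp
      rw [mul_assoc, mul_comm β α, ← mul_assoc, k1, one_mul]
    · rw [hab]
      simp only [polar_add_left, polar_add_right, polar_smul_left, polar_smul_right, hee, hef, hfe,
        hff, smul_eq_mul, mul_zero, mul_one, zero_add, add_zero]
      by_cases hα : α = 0
      · rw [hα]
        simpa using hαβ.resolve_left (not_not.2 hα)
      · intro hcon
        apply hγ1
        field_simp
        linear_combination hcon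
  · push Not at hiso
    obtain ⟨z₀, hz₀, hz₀a⟩ := h.symm.nd hQ haW ha0
    obtain ⟨t, ht, hta⟩ := exists_mem_not_mem_span_singleton W' (by omega) a
    have hns : ∀ z ∈ W', z ∉ Submodule.span F {a} → Q z ≠ 0 := by
      intro z hz hza hQz
      by_cases hz0 : z = 0
      · apply hza; rw [hz0]; exact Submodule.zero_mem _
      · exact hiso z hz hz0 hQz
    by_cases h1 : z₀ ∈ Submodule.span F {a}
    · by_cases h2 : polar Q t a = 0
      · have h3 : z₀ + t ∉ Submodule.span F {a} := fun hm =>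
          hta ((Submodule.add_mem_iff_right _ h1).1 hm)
        refine ⟨z₀ + t, W'.add_mem hz₀ ht, hns _ (W'.add_mem hz₀ ht) h3, h3, ?_⟩
        rw [polar_add_left, hz₀a, h2]; simp
      · exact ⟨t, ht, hns t ht hta, hta, h2⟩
    · exact ⟨z₀, hz₀, hns z₀ hz₀ h1, h1, by rw [hz₀a]; exact one_ne_zero⟩


lemma fill [Fintype F] [FiniteDimensional F V] (h : OD Q W W')
    (hQ : (polarBilin Q).Nondegenerate) (hdim : 4 < finrank F V) (h5 : 5 ≤ finrank F W)
    (hok : SmallOK Q W')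
    (hG : ∀ φ ∈ Om Q, (∀ w ∈ W, φ w ∈ W) → φ ∈ G) {c a : V} (hc : c ∈ W) (hc0 : c ≠ 0)
    (hQc : Q c = 0) (ha : a ∈ AE Q G c hQc) (haW : a ∈ W') (ha0 : a ≠ 0) :
    ∀ x ∈ W', x ∈ AE Q G c hQc := by
  by_cases h3 : 3 ≤ finrank F W'
  · exact h.fill3 hQ hdim h3 hG hc hQc ha haW ha0
  have hpos : 0 < finrank F W' :=
    Module.finrank_pos_iff_exists_ne_zero.2 ⟨⟨a, haW⟩, fun hh => ha0 (congrArg Subtype.val hh)⟩
  have hsm : ∀ y ∈ AE Q G c hQc, y ∈ W' → ∀ ν : F, ν • y ∈ AE Q G c hQc := fun y hy hyW ν =>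
    h.AE_smul_closed hQ hdim h5 hG hc hc0 hQc hy hyW ν
  rcases (show finrank F W' = 1 ∨ finrank F W' = 2 by omega) with h1 | h2
  · intro x hx
    obtain ⟨l, hl⟩ := (finrank_eq_one_iff_of_nonzero' (⟨a, haW⟩ : W')
      (fun hh => ha0 (congrArg Subtype.val hh))).1 h1 ⟨x, hx⟩
    have hx' : x = l • a := (congrArg Subtype.val hl).symm
    rw [hx']
    exact hsm a ha haW l
  · obtain ⟨z, hz, hQz, hza, hzpa⟩ := h.exists_good_refl hQ h2 hok haW ha0
    have k1 := h.AE_refl hQ hdim h5 hG hc hc0 hQc ha haW hz hQz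
    have k2 : ((Q z)⁻¹ * polar Q z a) • z ∈ AE Q G c hQc := by
      have := (AE Q G c hQc).sub_mem ha k1
      rw [refl_apply] at this
      simpa using this
    have hzAE : z ∈ AE Q G c hQc := by
      have := hsm _ k2 (W'.smul_mem _ hz) ((Q z)⁻¹ * polar Q z a)⁻¹
      rwa [smul_smul, inv_mul_cancel₀ (mul_ne_zero (inv_ne_zero hQz) hzpa), one_smul] at this
    intro x hx
    obtain ⟨α, β, rfl⟩ := plane_span h2 haW hz ha0 hza x hx
    exact (AE Q G c hQc).add_mem (hsm a ha haW α) (hsm z hzAE hz β)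

theorem mixed [Fintype F] [FiniteDimensional F V] (h : OD Q W W')
    (hQ : (polarBilin Q).Nondegenerate) (hdim : 12 < finrank F V) (h5 : 5 ≤ finrank F W)
    (hok : SmallOK Q W')
    (hG : ∀ φ ∈ Om Q, (∀ w ∈ W, φ w ∈ W) → φ ∈ G) {c a : V} (hc : c ∈ W) (hc0 : c ≠ 0)
    (hQc : Q c = 0) (ha : a ∈ AE Q G c hQc) (haW : a ∉ W) : Om Q ≤ G := by
  obtain ⟨a₁, ha₁, a₂, ha₂, rfl⟩ := h.decomp a
  have hca := ha.1
  rw [polar_add_right, h.orth c hc a₂ ha₂, add_zero] at hca
  have h1 := h.mem_AE_of_mem hQ (by omega) hG hc hQc ha₁ hca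
  have h2 : a₂ ∈ AE Q G c hQc := by
    have := (AE Q G c hQc).sub_mem ha h1
    simpa using this
  have h20 : a₂ ≠ 0 := by
    rintro rfl
    apply haW
    simpa using ha₁
  exact h.mixed_of_fill hQ hdim h5 hG hc hc0 hQc
    (h.fill hQ (by omega) h5 hok hG hc hc0 hQc h2 ha₂ h20)

theorem core [Fintype F] [FiniteDimensional F V] {W₁ W₂ : Submodule F V} (h : OD Q W₁ W₂)
    (hQ : (polarBilin Q).Nondegenerate) (hdim : 12 < finrank F V)
    (hle : finrank F W₂ ≤ finrank F W₁) (hok : SmallOK Q W₂)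
    (hG : ∀ φ ∈ Om Q, (∀ w ∈ W₁, φ w ∈ W₁) → φ ∈ G) (hGO : G ≤ Om Q) {φ0 : V ≃ₗ[F] V}
    (hφ0 : φ0 ∈ G) (hns : ¬ ∀ w ∈ W₁, φ0 w ∈ W₁) (hNI : ¬ ∀ w ∈ W₁, φ0 w ∈ W₂) : Om Q ≤ G := by
  classical
  have hadd := h.finrank_add
  have hd1 : 7 ≤ finrank F W₁ := by omega
  have hφO : φ0 ∈ OQ Q := Om_le_OQ Q (hGO hφ0)
  have hQφ : ∀ x, Q x = 0 → Q (φ0 x) = 0 := fun x hx => by rw [mem_OQ.1 hφO]; exact hx
  have K : ∀ x ∈ W₁, ∀ (hx : Q x = 0), ∀ v ∈ W₁, polar Q x v = 0 →
      φ0 v ∈ AE Q G (φ0 x) (hQφ x hx) := fun x hxW hx v hv hxv =>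
    AE_map hφ0 hφO (h.mem_AE_of_mem hQ (by omega) hG hxW hx hv hxv) _
  obtain ⟨x₀, hx₀W, hQx₀, hx₀⟩ : ∃ x₀ ∈ W₁, Q x₀ = 0 ∧ φ0 x₀ ∉ W₁ := by
    by_contra hcon
    push Not at hcon
    apply hns
    obtain ⟨e, he, he0, hQe⟩ := exists_singular_of_finrank Q W₁ (by omega)
    obtain ⟨f, hf, hQf, hef⟩ := h.partner hQ he he0 hQe
    exact span_sing he hf hQe hQf hef (W₁.comap (φ0 : V →ₗ[F] V)).toAddSubgroup
      (fun u hu hQu => hcon u hu hQu)
  by_cases hc1 : ∃ x ∈ W₁, Q x = 0 ∧ φ0 x ∉ W₁ ∧ ∃ v ∈ W₁, polar Q x v = 0 ∧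
      φ0 v ∉ W₂ ⊔ Submodule.span F {φ0 x}
  · obtain ⟨x, hxW, hQx, hx, v, hvW, hxv, hb⟩ := hc1
    obtain ⟨d, hd, hyd, hbd⟩ := h.exists_not_perp hQ hb
    have hcard : ({φ0 x, φ0 v, d} : Finset V).card ≤ 3 := Finset.card_le_three
    obtain ⟨c, hc, hcs, hc0, hQc⟩ := exists_sing_inf hQ W₁ {φ0 x, φ0 v, d} (by omega)
    have hyc : polar Q (φ0 x) c = 0 := hcs _ (by simp)
    have hbc : polar Q (φ0 v) c = 0 := hcs _ (by simp)
    have hdc : polar Q d c = 0 := hcs _ (by simp)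
    obtain ⟨hyb, hE⟩ := K x hxW hQx v hvW hxv
    have hgc : eichler Q (φ0 x) (φ0 v) (hQφ x hQx) hyb c = c := by
      rw [eichler_apply, hyc, hbc]; simp
    have hdAE : d ∈ AE Q G c hQc :=
      h.mem_AE_of_mem hQ (by omega) hG hc hQc hd (by rw [polar_comm]; exact hdc)
    have hgd := AE_fix hE (eichler_mem Q _ _ _ _) hgc hdAE
    rw [eichler_apply, hyd] at hgd
    simp only [zero_smul, mul_zero, sub_zero] at hgd
    refine h.mixed hQ hdim (by omega) hok hG hc hc0 hQc hgd ?_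
    intro hmem
    have h1 := (W₁.add_mem_iff_right hd).1 hmem
    exact hx ((W₁.smul_mem_iff hbd).1 h1)
  · push Not at hc1
    set Z : Submodule F V := W₁ ⊓ W₂.comap (φ0 : V →ₗ[F] V) with hZ
    have hK0 : W₁ ⊓ O.orth Q {x₀} ≤ Z ⊔ Submodule.span F {x₀} := by
      rintro v ⟨hvW, hv⟩
      have hxv : polar Q x₀ v = 0 := mem_orth.1 hv x₀ (by simp)
      obtain ⟨w₂, hw₂, t, ht, hsum⟩ := Submodule.mem_sup.1 (hc1 x₀ hx₀W hQx₀ hx₀ v hvW hxv)
      obtain ⟨l, rfl⟩ := Submodule.mem_span_singleton.1 ht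
      have e1 : v = (v - l • x₀) + l • x₀ := by abel
      rw [e1]
      refine Submodule.add_mem _ (Submodule.mem_sup_left ⟨W₁.sub_mem hvW (W₁.smul_mem _ hx₀W), ?_⟩)
        (Submodule.mem_sup_right (Submodule.smul_mem _ _ (Submodule.mem_span_singleton_self _)))
      change φ0 (v - l • x₀) ∈ W₂
      rw [map_sub, map_smul, ← hsum]
      simpa using hw₂
    have hZ5 : 5 ≤ finrank F Z := by
      have h1 := finrank_inf_orth hQ W₁ {x₀}
      have h2 := Submodule.finrank_mono hK0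
      have h3 := Submodule.finrank_add_le_finrank_add_finrank Z (Submodule.span F {x₀})
      have h4 : finrank F (Submodule.span F {x₀}) ≤ 1 := by
        have := finrank_span_le_card (R := F) ({x₀} : Set V)
        simpa using this
      simp only [Finset.card_singleton] at h1
      omega
    have hW25 : 5 ≤ finrank F W₂ := by
      have h1 : Z.map (φ0 : V →ₗ[F] V) ≤ W₂ := by
        rintro _ ⟨z, hz, rfl⟩
        exact hz.2
      have h2 := Submodule.finrank_mono h1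
      rw [LinearEquiv.finrank_map_eq φ0 Z] at h2
      omega
    have hG₂ : ∀ φ ∈ Om Q, (∀ w ∈ W₂, φ w ∈ W₂) → φ ∈ G := fun φ hφ hs =>
      hG φ hφ (h.symm.stab_symm hQ (Om_le_OQ Q hφ) hs)
    by_cases hc2 : ∃ c₀ ∈ Z, c₀ ≠ 0 ∧ Q c₀ = 0 ∧ ∃ v ∈ W₁, polar Q c₀ v = 0 ∧ φ0 v ∉ W₂
    · obtain ⟨c₀, hc₀Z, hc₀0, hQc₀, v, hvW, hc₀v, hv⟩ := hc2
      exact h.symm.mixed hQ hdim hW25 (fun h2 => by omega) hG₂ (c := φ0 c₀) hc₀Z.2
        (fun hh => hc₀0 (by simpa using hh)) (hQφ c₀ hQc₀) (K c₀ hc₀Z.1 hQc₀ v hvW hc₀v) hv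
    · push Not at hc2
      exfalso
      apply hNI
      obtain ⟨c₀, hc₀Z, hc₀0, hQc₀⟩ := exists_singular_of_finrank Q Z (by omega)
      obtain ⟨f₀, hf₀, hQf₀, hcf₀⟩ := h.partner hQ hc₀Z.1 hc₀0 hQc₀
      have hcard : ({c₀, f₀} : Finset V).card ≤ 2 := Finset.card_le_two
      obtain ⟨c₂, hc₂, hc₂s, hc₂0, hQc₂⟩ := exists_sing_inf hQ W₁ {c₀, f₀} (by omega)
      have h1 : polar Q c₀ c₂ = 0 := hc₂s _ (by simp)
      have h2 : polar Q f₀ c₂ = 0 := hc₂s _ (by simp)
      have hc₂Z : c₂ ∈ Z := ⟨hc₂, hc2 c₀ hc₀Z hc₀0 hQc₀ c₂ hc₂ h1⟩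
      have hf₀2 : φ0 f₀ ∈ W₂ := hc2 c₂ hc₂Z hc₂0 hQc₂ f₀ hf₀ (by rw [polar_comm]; exact h2)
      intro x hx
      have h3 : φ0 (x - polar Q c₀ x • f₀) ∈ W₂ := by
        apply hc2 c₀ hc₀Z hc₀0 hQc₀ _ (W₁.sub_mem hx (W₁.smul_mem _ hf₀))
        rw [polar_sub_right, polar_smul_right, hcf₀]; simp
      have e1 : x = (x - polar Q c₀ x • f₀) + polar Q c₀ x • f₀ := by abel
      rw [e1, map_add, map_smul]
      exact W₂.add_mem h3 (W₂.smul_mem _ hf₀2)

theorem ne [Fintype F] [FiniteDimensional F V] {W₁ W₂ : Submodule F V} (h : OD Q W₁ W₂)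
    (hQ : (polarBilin Q).Nondegenerate) (hdim : 4 < finrank F V) (h3 : 3 ≤ finrank F W₁)
    (hW₂ : W₂ ≠ ⊥) : ∃ φ ∈ Om Q, ¬ ∀ w ∈ W₁, φ w ∈ W₁ := by
  obtain ⟨c, hc, hc0, hQc⟩ := exists_singular_of_finrank Q W₁ h3
  obtain ⟨c', hc', hQc', hcc'⟩ := h.partner hQ hc hc0 hQc
  obtain ⟨a, ha, ha0⟩ := Submodule.exists_mem_ne_zero_of_ne_bot hW₂
  refine ⟨eichler Q c a hQc (h.orth c hc a ha), eichler_mem_Om hQ hdim _ _ _ _, fun hs => ?_⟩
  have h1 := hs c' hc'
  rw [eichler_apply, hcc', polar_comm Q a c', h.orth c' hc' a ha] at h1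
  simp only [zero_smul, add_zero, one_smul, mul_one] at h1
  have h2 : a ∈ W₁ := by
    have := W₁.sub_mem (W₁.sub_mem hc' (W₁.smul_mem (Q a) hc)) h1
    have e : c' - Q a • c - (c' - a - Q a • c) = a := by abel
    rwa [e] at this
  have h3 : a ∈ W₁ ⊓ W₂ := ⟨h2, ha⟩
  rw [h.compl.inf_eq_bot, Submodule.mem_bot] at h3
  exact ha0 h3

end OD

local notation "perp" => LinearMap.BilinForm.orthogonal

lemma OD_of_nondeg [FiniteDimensional F V] {Q : QuadraticForm F V}
    (hQ : (polarBilin Q).Nondegenerate) {W : Submodule F V}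
    (hW : ∀ w ∈ W, w ≠ 0 → ∃ x ∈ W, polar Q x w ≠ 0) : OD Q W (perp (polarBilin Q) W) := by
  have hdisj : Disjoint W (perp (polarBilin Q) W) := by
    rw [Submodule.disjoint_def]
    intro w hw hw'
    by_contra hw0
    obtain ⟨x, hx, hxw⟩ := hW w hw hw0
    exact hxw (mem_perp.1 hw' x hx)
  refine ⟨⟨hdisj, ?_⟩, fun x hx y hy => mem_perp.1 hy x hx⟩
  rw [codisjoint_iff]
  apply Submodule.eq_top_of_disjoint _ _ _ hdisj
  rw [LinearMap.BilinForm.finrank_orthogonal hQ]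
  have := Submodule.finrank_le W
  omega

/-- maximality core for the stabiliser of a nondegenerate subspace -/
theorem nd_core [Fintype F] [FiniteDimensional F V] {Q : QuadraticForm F V}
    {W W' : Submodule F V} (h : OD Q W W')
    (hQ : (polarBilin Q).Nondegenerate) (hdim : 12 < finrank F V)
    (hok : SmallOK Q W) (hok' : SmallOK Q W') (G : Subgroup (V ≃ₗ[F] V))
    (hG : ∀ φ ∈ Om Q, (∀ w ∈ W, φ w ∈ W) → φ ∈ G) (hGO : G ≤ Om Q) (φ0 : V ≃ₗ[F] V)
    (hφ0 : φ0 ∈ G) (hns : ¬ ∀ w ∈ W, φ0 w ∈ W)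
    (hNI : finrank F W = finrank F W' → ¬ ∀ w ∈ W, φ0 w ∈ W') : Om Q ≤ G := by
  have hφO : φ0 ∈ OQ Q := Om_le_OQ Q (hGO hφ0)
  have hlt : ∀ A B : Submodule F V, finrank F B < finrank F A → ¬ ∀ w ∈ A, φ0 w ∈ B := by
    intro A B hAB hs
    have h1 : A.map (φ0 : V →ₗ[F] V) ≤ B := by
      rintro _ ⟨z, hz, rfl⟩
      exact hs z hz
    have h2 := Submodule.finrank_mono h1
    rw [LinearEquiv.finrank_map_eq φ0 A] at h2
    omega
  by_cases hle : finrank F W' ≤ finrank F W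
  · refine h.core hQ hdim hle hok' hG hGO hφ0 hns ?_
    rcases Nat.lt_or_ge (finrank F W') (finrank F W) with h1 | h1
    · exact hlt _ _ h1
    · exact hNI (le_antisymm h1 hle)
  · refine h.symm.core hQ hdim (by omega) hok
      (fun φ hφ hs => hG φ hφ (h.symm.stab_symm hQ (Om_le_OQ Q hφ) hs)) hGO hφ0
      (fun hs => hns (h.symm.stab_symm hQ hφO hs)) (hlt _ _ (by omega))

theorem nd_ne [Fintype F] [FiniteDimensional F V] {Q : QuadraticForm F V}
    {W W' : Submodule F V} (h : OD Q W W')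
    (hQ : (polarBilin Q).Nondegenerate) (hdim : 12 < finrank F V) (hW : W ≠ ⊥) (hW' : W' ≠ ⊥) :
    ∃ φ ∈ Om Q, ¬ ∀ w ∈ W, φ w ∈ W := by
  have hadd := h.finrank_add
  by_cases hle : finrank F W' ≤ finrank F W
  · exact h.ne hQ (by omega) (by omega) hW'
  · obtain ⟨φ, hφ, hs⟩ := h.symm.ne hQ (by omega) (by omega) hW
    exact ⟨φ, hφ, fun hs' => hs (h.stab_symm hQ (Om_le_OQ Q hφ) hs')⟩

end Cfsg.Agent.Lib.Helper13.O
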