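import Mathlib
import Cfsg.Agent.Lib.Helper13.OrthND

set_option autoImplicit false
set_option linter.unusedSimpArgs false
set_option linter.unusedSectionVars false

namespace Cfsg.Agent.Lib.Helper13.O

open QuadraticMap Module
open Cfsg.Agent.Lib.Helper44

variable {F V : Type*} [Field F] [AddCommGroup V] [Module F V]

/-- splitting off a nonsingular vector from a nondegenerate subspace (odd characteristic) -/
lemma exists_split [FiniteDimensional F V] (h2 : (2 : F) ≠ 0) {Q : QuadraticForm F V}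
    {W : Submodule F V} (hW0 : W ≠ ⊥) (hW : ∀ w ∈ W, w ≠ 0 → ∃ x ∈ W, polar Q x w ≠ 0) :
    ∃ w₁ ∈ W, Q w₁ ≠ 0 ∧ (∀ w ∈ W ⊓ orth Q {w₁}, w ≠ 0 → ∃ x ∈ W ⊓ orth Q {w₁}, polar Q x w ≠ 0) ∧
      finrank F ↥(W ⊓ orth Q {w₁}) + 1 = finrank F W := by
  classical
  obtain ⟨w₁, hw₁, hQw₁⟩ : ∃ w₁ ∈ W, Q w₁ ≠ 0 := by
    by_contra hcon
    push Not at hcon
    obtain ⟨w, hw, hw0⟩ := Submodule.exists_mem_ne_zero_of_ne_bot hW0
    obtain ⟨x, hx, hxw⟩ := hW w hw hw0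
    exact hxw (polar_eq_zero_of_sing hcon hx hw)
  have hB : polar Q w₁ w₁ ≠ 0 := by
    rw [polar_self, nsmul_eq_mul]
    exact mul_ne_zero (by exact_mod_cast h2) hQw₁
  have hmem : ∀ x ∈ W, x - (polar Q w₁ x / polar Q w₁ w₁) • w₁ ∈ W ⊓ orth Q {w₁} := by
    intro x hx
    refine Submodule.mem_inf.2 ⟨W.sub_mem hx (W.smul_mem _ hw₁), mem_orth.2 ?_⟩
    intro z hz
    rw [Finset.mem_singleton.1 hz, polar_sub_right, polar_smul_right, smul_eq_mul,
      div_mul_cancel₀ _ hB, sub_self]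
  refine ⟨w₁, hw₁, hQw₁, ?_, ?_⟩
  · intro w hw hw0
    obtain ⟨x, hx, hxw⟩ := hW w hw.1 hw0
    refine ⟨_, hmem x hx, ?_⟩
    rw [polar_sub_left, polar_smul_left, mem_orth.1 hw.2 w₁ (by simp)]
    simpa using hxw
  · have hnot : w₁ ∉ W ⊓ orth Q {w₁} := fun hm => hB (mem_orth.1 hm.2 w₁ (by simp))
    have heq : (W ⊓ orth Q {w₁}) ⊔ Submodule.span F {w₁} = W := by
      apply le_antisymm
      · exact sup_le inf_le_left ((Submodule.span_singleton_le_iff_mem _ _).2 hw₁)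
      · intro x hx
        have e : x = (x - (polar Q w₁ x / polar Q w₁ w₁) • w₁)
            + (polar Q w₁ x / polar Q w₁ w₁) • w₁ := by abel
        rw [e]
        exact Submodule.add_mem _ (Submodule.mem_sup_left (hmem x hx))
          (Submodule.mem_sup_right (Submodule.smul_mem _ _ (Submodule.mem_span_singleton_self _)))
    rw [← Submodule.finrank_sup_span_singleton hnot, heq]

/-- an even-dimensional nondegenerate space admits a similarity with multiplier `-1` -/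
lemma exists_neg_similarity [Finite F] [FiniteDimensional F V] (h2 : (2 : F) ≠ 0)
    (Q : QuadraticForm F V) : ∀ (j : ℕ) (W : Submodule F V), finrank F W = 2 * j →
    (∀ w ∈ W, w ≠ 0 → ∃ x ∈ W, polar Q x w ≠ 0) →
    ∃ J : V →ₗ[F] V, ∀ w ∈ W, J w ∈ W ∧ Q (J w) = - Q w := by
  classical
  intro j
  induction j with
  | zero =>
    intro W hfr _
    have hW : W = ⊥ := Submodule.finrank_eq_zero.1 (by omega)
    refine ⟨0, fun w hw => ?_⟩
    rw [hW, Submodule.mem_bot] at hw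
    rw [hw]
    simp
  | succ j ih =>
    intro W hfr hW
    have hW0 : W ≠ ⊥ := by
      intro hb
      rw [hb, finrank_bot] at hfr
      omega
    obtain ⟨w₁, hw₁, hQ₁, hW', hfr'⟩ := exists_split h2 hW0 hW
    have hW'0 : W ⊓ orth Q {w₁} ≠ ⊥ := by
      intro hb
      rw [hb, finrank_bot] at hfr'
      omega
    obtain ⟨w₂, hw₂, hQ₂, hW'', hfr''⟩ := exists_split h2 hW'0 hW'
    obtain ⟨J, hJ⟩ := ih _ (by omega) hW''
    have h12 : polar Q w₁ w₂ = 0 := mem_orth.1 hw₂.2 w₁ (by simp)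
    have h21 : polar Q w₂ w₁ = 0 := by rw [polar_comm]; exact h12
    have hB₁ : polar Q w₁ w₁ = 2 * Q w₁ := by rw [polar_self, nsmul_eq_mul]; norm_num
    have hB₂ : polar Q w₂ w₂ = 2 * Q w₂ := by rw [polar_self, nsmul_eq_mul]; norm_num
    obtain ⟨x, y, hxy⟩ := rep (Q w₁) (Q w₂) (-Q w₁) hQ₁ hQ₂
    set c₁ : V →ₗ[F] F := (2 * Q w₁)⁻¹ • polarBilin Q w₁ with hc₁
    set c₂ : V →ₗ[F] F := (2 * Q w₂)⁻¹ • polarBilin Q w₂ with hc₂
    set u₁ : V := x • w₁ + y • w₂ with hu₁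
    set u₂ : V := (Q w₂ * y / Q w₁) • w₁ - x • w₂ with hu₂
    set π : V →ₗ[F] V := LinearMap.id - c₁.smulRight w₁ - c₂.smulRight w₂ with hπ
    refine ⟨c₁.smulRight u₁ + c₂.smulRight u₂ + J.comp π, ?_⟩
    intro w hw
    have hc₁w : c₁ w = (2 * Q w₁)⁻¹ * polar Q w₁ w := by simp [hc₁]
    have hc₂w : c₂ w = (2 * Q w₂)⁻¹ * polar Q w₂ w := by simp [hc₂]
    have hπw : π w = w - c₁ w • w₁ - c₂ w • w₂ := by simp [hπ]
    have h2Q₁ : (2 * Q w₁) ≠ 0 := mul_ne_zero h2 hQ₁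
    have h2Q₂ : (2 * Q w₂) ≠ 0 := mul_ne_zero h2 hQ₂
    have hp1 : polar Q w₁ (π w) = 0 := by
      rw [hπw, polar_sub_right, polar_sub_right, polar_smul_right, polar_smul_right, hB₁, h12, hc₁w,
        smul_eq_mul, smul_eq_mul, mul_zero, sub_zero, mul_assoc, mul_comm (polar Q w₁ w), ← mul_assoc,
        inv_mul_cancel₀ h2Q₁, one_mul, sub_self]
    have hp2 : polar Q w₂ (π w) = 0 := by
      rw [hπw, polar_sub_right, polar_sub_right, polar_smul_right, polar_smul_right, hB₂, h21, hc₂w,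
        smul_eq_mul, smul_eq_mul, mul_zero, sub_zero, mul_assoc, mul_comm (polar Q w₂ w), ← mul_assoc,
        inv_mul_cancel₀ h2Q₂, one_mul, sub_self]
    have hπW : π w ∈ (W ⊓ orth Q {w₁}) ⊓ orth Q {w₂} := by
      refine Submodule.mem_inf.2 ⟨Submodule.mem_inf.2 ⟨?_, mem_orth.2 ?_⟩, mem_orth.2 ?_⟩
      · rw [hπw]
        exact W.sub_mem (W.sub_mem hw (W.smul_mem _ hw₁)) (W.smul_mem _ hw₂.1)
      · intro z hz
        rw [Finset.mem_singleton.1 hz]; exact hp1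
      · intro z hz
        rw [Finset.mem_singleton.1 hz]; exact hp2
    obtain ⟨hJ1, hJ2⟩ := hJ _ hπW
    have hJp1 : polar Q w₁ (J (π w)) = 0 := mem_orth.1 hJ1.1.2 w₁ (by simp)
    have hJp2 : polar Q w₂ (J (π w)) = 0 := mem_orth.1 hJ1.2 w₂ (by simp)
    have happ : (c₁.smulRight u₁ + c₂.smulRight u₂ + J.comp π) w
        = c₁ w • u₁ + c₂ w • u₂ + J (π w) := by simp
    rw [happ]
    have hu₁W : u₁ ∈ W := W.add_mem (W.smul_mem _ hw₁) (W.smul_mem _ hw₂.1)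
    have hu₂W : u₂ ∈ W := W.sub_mem (W.smul_mem _ hw₁) (W.smul_mem _ hw₂.1)
    refine ⟨W.add_mem (W.add_mem (W.smul_mem _ hu₁W) (W.smul_mem _ hu₂W)) hJ1.1.1, ?_⟩
    -- the value of Q
    have e1 : c₁ w • u₁ + c₂ w • u₂
        = (c₁ w * x + c₂ w * (Q w₂ * y / Q w₁)) • w₁ + (c₁ w * y - c₂ w * x) • w₂ := by
      rw [hu₁, hu₂]; module
    have hQab : ∀ a b : F, Q (a • w₁ + b • w₂) = a * a * Q w₁ + b * b * Q w₂ := by
      intro a b
      rw [Q_add_smul, QuadraticMap.map_smul, polar_smul_left, h12]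
      simp
    have hpab : ∀ (a b : F) (z : V), polar Q w₁ z = 0 → polar Q w₂ z = 0 →
        polar Q (a • w₁ + b • w₂) z = 0 := by
      intro a b z h1 h2'
      rw [polar_add_left, polar_smul_left, polar_smul_left, h1, h2']; simp
    have hw_eq : w = (c₁ w • w₁ + c₂ w • w₂) + π w := by rw [hπw]; abel
    have hQw : Q w = c₁ w * c₁ w * Q w₁ + c₂ w * c₂ w * Q w₂ + Q (π w) := by
      conv_lhs => rw [hw_eq]
      rw [QuadraticMap.map_add (⇑Q), hQab, hpab _ _ _ hp1 hp2, add_zero]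
    rw [e1, QuadraticMap.map_add (⇑Q), hQab, hpab _ _ _ hJp1 hJp2, add_zero, hJ2, hQw]
    have hxy' : Q w₂ * y ^ 2 = - Q w₁ - Q w₁ * x ^ 2 := by linear_combination hxy
    generalize c₁ w = a
    generalize c₂ w = b
    generalize Q (π w) = r
    field_simp
    linear_combination (a ^ 2 * Q w₁ + b ^ 2 * Q w₂) * hxy

/-- two isometric orthogonal halves of even dimension make the space of plus type -/
theorem exists_sing_of_halves [Finite F] [FiniteDimensional F V] {Q : QuadraticForm F V}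
    {W W' : Submodule F V} (h : OD Q W W') (hQ : (polarBilin Q).Nondegenerate)
    (hev : Even (finrank F W)) {φ : V ≃ₗ[F] V} (hφ : φ ∈ OQ Q) (hs : ∀ w ∈ W, φ w ∈ W') :
    ∃ T : Submodule F V, (∀ t ∈ T, Q t = 0) ∧ finrank F T = finrank F W := by
  obtain ⟨J, hJ⟩ : ∃ J : V →ₗ[F] V, ∀ w ∈ W, J w ∈ W ∧ Q (J w) = - Q w := by
    by_cases h2 : (2 : F) = 0
    · refine ⟨LinearMap.id, fun w hw => ⟨hw, ?_⟩⟩
      have : Q w + Q w = 0 := by rw [← two_mul, h2, zero_mul]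
      simpa using eq_neg_of_add_eq_zero_left this
    · obtain ⟨j, hj⟩ := hev
      exact exists_neg_similarity h2 Q j W (by omega) (fun w hw hw0 => by
        obtain ⟨z, hz, hzw⟩ := h.nd hQ hw hw0
        exact ⟨z, hz, by rw [hzw]; exact one_ne_zero⟩)
  set Ψ : V →ₗ[F] V := LinearMap.id + (φ : V →ₗ[F] V).comp J with hΨ
  have hΨa : ∀ w, Ψ w = w + φ (J w) := fun w => by simp [hΨ]
  refine ⟨W.map Ψ, ?_, ?_⟩
  · rintro _ ⟨w, hw, rfl⟩
    obtain ⟨h1, h2⟩ := hJ w hw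
    rw [hΨa, QuadraticMap.map_add (⇑Q), mem_OQ.1 hφ, h2, h.orth w hw _ (hs _ h1)]
    simp
  · rw [← LinearMap.range_domRestrict]
    apply LinearMap.finrank_range_of_inj
    rw [← LinearMap.ker_eq_bot, LinearMap.ker_eq_bot']
    rintro ⟨w, hw⟩ h0
    have h1 : w + φ (J w) = 0 := by
      have : Ψ w = 0 := h0
      rwa [hΨa] at this
    have h2 : w = - φ (J w) := eq_neg_of_add_eq_zero_left h1
    have h3 : w ∈ W' := by
      rw [h2]; exact W'.neg_mem (hs _ (hJ w hw).1)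
    have h4 : w ∈ W ⊓ W' := ⟨hw, h3⟩
    rw [h.compl.inf_eq_bot, Submodule.mem_bot] at h4
    exact Subtype.ext h4

end Cfsg.Agent.Lib.Helper13.O
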