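import Mathlib
import Cfsg.Agent.Lib.Helper13.OrthPar
import Cfsg.Agent.Lib.Helper13.LagPair

set_option autoImplicit false
set_option linter.unusedSimpArgs false

namespace Cfsg.Agent.Lib.Helper13.O

open QuadraticMap Module
open Cfsg.Agent.Lib.Helper44

variable {F V : Type*} [Field F] [AddCommGroup V] [Module F V]

local notation "perp" => LinearMap.BilinForm.orthogonal

/-- elements of `Ω` preserve the two families of maximal totally singular subspaces -/
lemma Om_parity [Fintype F] [FiniteDimensional F V] {Q : QuadraticForm F V}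
    (hQ : (polarBilin Q).Nondegenerate) (h4 : finrank F V ≠ 4) {U : Submodule F V}
    (hU : ∀ u ∈ U, Q u = 0) (hdim : 2 * finrank F U = finrank F V) {φ : V ≃ₗ[F] V}
    (hφ : φ ∈ Om Q) : Even (finrank F U + finrank F ↥(U ⊓ U.map (φ : V →ₗ[F] V))) := by
  obtain ⟨g, hg, rfl⟩ := hφ
  obtain ⟨l, hl, rfl⟩ := exists_prod_reflO hQ (Or.inr h4) g
  have he := ((prod_reflO_mem_commutator_iff_all hQ (Or.inr h4) l hl).1 hg).1
  have h1 := even_finrank_inf_map_prod hQ hU hdim l hl
  have e : ((OQ Q).subtype (l.map (reflO Q)).prod : V ≃ₗ[F] V) = (l.map (refl Q)).prod :=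
    prod_reflO_coe Q l
  rw [e]
  exact (Nat.even_add.1 h1).2 he

theorem almost_max_core [Fintype F] [FiniteDimensional F V] {Q : QuadraticForm F V}
    (hQ : (polarBilin Q).Nondegenerate) (hdim : 12 < finrank F V) {W : Submodule F V}
    (hW : ∀ w ∈ W, Q w = 0) (hk : 2 * (finrank F W + 1) = finrank F V)
    (hplus : ∃ U0 : Submodule F V, (∀ u ∈ U0, Q u = 0) ∧ 2 * finrank F U0 = finrank F V) :
    ∃ U1 : Submodule F V, (∀ u ∈ U1, Q u = 0) ∧ U1 ≠ ⊥ ∧
      (∀ φ ∈ Om Q, (∀ w ∈ W, φ w ∈ W) → ∀ u ∈ U1, φ u ∈ U1) ∧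
      (∃ φ ∈ Om Q, (∀ u ∈ U1, φ u ∈ U1) ∧ ¬ ∀ w ∈ W, φ w ∈ W) := by
  obtain ⟨U0, hU0, hU0d⟩ := hplus
  obtain ⟨y, hyW, hQy, hy⟩ : ∃ y ∈ perp (polarBilin Q) W, Q y = 0 ∧ y ∉ W := by
    by_contra hcon
    push Not at hcon
    have := finrank_sing_le hQ W hcon U0 hU0
    omega
  rw [mem_perp] at hyW
  have hU1 : ∀ x ∈ W ⊔ Submodule.span F {y}, Q x = 0 := by
    intro x hx
    obtain ⟨a, ha, b, hb, rfl⟩ := Submodule.mem_sup.1 hx
    obtain ⟨c, rfl⟩ := Submodule.mem_span_singleton.1 hb
    rw [Q_add_smul, hW a ha, hQy, hyW a ha]; simp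
  have hU1d : finrank F ↥(W ⊔ Submodule.span F {y}) = finrank F W + 1 :=
    Submodule.finrank_sup_span_singleton hy
  have hyU1 : y ∈ W ⊔ Submodule.span F {y} :=
    Submodule.mem_sup_right (Submodule.mem_span_singleton_self y)
  refine ⟨W ⊔ Submodule.span F {y}, hU1, ?_, ?_, ?_⟩
  · intro h
    rw [h, finrank_bot] at hU1d
    omega
  · intro φ hφ hs
    set U1 := W ⊔ Submodule.span F {y} with hU1def
    have hpar := Om_parity hQ (by omega) hU1 (by omega) hφ
    have hWmap : W.map (φ : V →ₗ[F] V) = W := map_eq_of_forall_mem φ W hs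
    have hWle : W ≤ U1 ⊓ U1.map (φ : V →ₗ[F] V) := by
      refine le_inf le_sup_left ?_
      calc W = W.map (φ : V →ₗ[F] V) := hWmap.symm
        _ ≤ U1.map (φ : V →ₗ[F] V) := Submodule.map_mono le_sup_left
    have h1 := Submodule.finrank_mono hWle
    have h2 : finrank F ↥(U1 ⊓ U1.map (φ : V →ₗ[F] V)) ≤ finrank F U1 :=
      Submodule.finrank_mono inf_le_left
    have h3 : finrank F ↥(U1 ⊓ U1.map (φ : V →ₗ[F] V)) = finrank F U1 := by
      rcases hpar with ⟨r, hr⟩
      omega
    have h4 : U1 ⊓ U1.map (φ : V →ₗ[F] V) = U1 := Submodule.eq_of_le_of_finrank_eq inf_le_left h3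
    have h5 : U1 ≤ U1.map (φ : V →ₗ[F] V) := inf_eq_left.1 h4
    have h6 : U1 = U1.map (φ : V →ₗ[F] V) :=
      Submodule.eq_of_le_of_finrank_eq h5 (LinearEquiv.finrank_map_eq φ U1).symm
    intro u hu
    rw [h6]
    exact Submodule.mem_map_of_mem hu
  · have hW0 : W ≠ ⊥ := by
      intro h
      rw [h, finrank_bot] at hk
      omega
    obtain ⟨w, hw, hw0⟩ := Submodule.exists_mem_ne_zero_of_ne_bot hW0
    have hnot : w ∉ Submodule.span F {y} := by
      intro hmem
      obtain ⟨c, hc⟩ := Submodule.mem_span_singleton.1 hmem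
      have hc0 : c ≠ 0 := by
        rintro rfl
        rw [zero_smul] at hc
        exact hw0 hc.symm
      apply hy
      have : y = c⁻¹ • w := by rw [← hc, smul_smul, inv_mul_cancel₀ hc0, one_smul]
      rw [this]
      exact W.smul_mem _ hw
    obtain ⟨v, hv1, hv2⟩ := exists_perp_polar_eq_one hQ hnot
    refine ⟨eichler Q y v hQy hv1, eichler_mem_Om hQ (by omega) _ _ _ _, ?_, ?_⟩
    · intro u hu
      rw [eichler_apply, polar_eq_zero_of_sing hU1 hyU1 hu]
      simp only [zero_smul, sub_zero, mul_zero]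
      exact Submodule.add_mem _ hu (Submodule.smul_mem _ _ hyU1)
    · intro h
      have h1 := h w hw
      rw [eichler_apply, polar_comm Q y w, hyW w hw, hv2] at h1
      simp only [zero_smul, sub_zero, mul_zero, one_smul] at h1
      exact hy ((W.add_mem_iff_right hw).1 h1)

theorem odd_pair_core [Fintype F] [FiniteDimensional F V] {Q : QuadraticForm F V}
    (hQ : (polarBilin Q).Nondegenerate) (hdim : 12 < finrank F V) {W₁ W₂ : Submodule F V}
    (h1 : ∀ w ∈ W₁, Q w = 0) (hc : IsCompl W₁ W₂)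
    (hk : 2 * finrank F W₁ = finrank F V) (hodd : Odd (finrank F W₁)) :
    (∀ φ ∈ Om Q, PairStab W₁ W₂ φ → ∀ w ∈ W₁, φ w ∈ W₁) ∧
      (∃ φ ∈ Om Q, (∀ w ∈ W₁, φ w ∈ W₁) ∧ ¬ PairStab W₁ W₂ φ) := by
  constructor
  · rintro φ hφ (⟨h, -⟩ | ⟨h, -⟩)
    · exact h
    · exfalso
      have hpar := Om_parity hQ (by omega) h1 hk hφ
      have hle : W₁ ⊓ W₁.map (φ : V →ₗ[F] V) ≤ ⊥ := by
        rw [← hc.inf_eq_bot]
        refine inf_le_inf_left _ ?_
        rintro _ ⟨w, hw, rfl⟩
        exact h w hw
      have h0 : finrank F ↥(W₁ ⊓ W₁.map (φ : V →ₗ[F] V)) = 0 := by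
        rw [le_bot_iff.1 hle, finrank_bot]
      rw [h0, add_zero] at hpar
      exact (Nat.not_even_iff_odd.2 hodd) hpar
  · have hW0 : W₁ ≠ ⊥ := by
      intro h
      rw [h, finrank_bot] at hk
      omega
    obtain ⟨u, hu, hu0⟩ := Submodule.exists_mem_ne_zero_of_ne_bot hW0
    have hlt : Submodule.span F {u} < W₁ := by
      refine lt_of_le_of_ne ((Submodule.span_singleton_le_iff_mem u W₁).2 hu) ?_
      intro h
      have := finrank_span_singleton (K := F) hu0
      rw [h] at this
      omega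
    obtain ⟨v, hv, hvu⟩ := SetLike.exists_of_lt hlt
    obtain ⟨z, hz⟩ := polar_nondeg_exists hQ hu0
    obtain ⟨a, ha, x, hx, rfl⟩ := Submodule.mem_sup.1
      (show z ∈ W₁ ⊔ W₂ by rw [hc.sup_eq_top]; trivial)
    rw [polar_add_left, polar_eq_zero_of_sing h1 ha hu, zero_add] at hz
    have huv : polar Q u v = 0 := polar_eq_zero_of_sing h1 hu hv
    have hst : ∀ w ∈ W₁, eichler Q u v (h1 u hu) huv w ∈ W₁ := by
      intro w hw
      rw [eichler_apply, polar_eq_zero_of_sing h1 hu hw]
      simp only [zero_smul, sub_zero, mul_zero]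
      exact W₁.add_mem hw (W₁.smul_mem _ hu)
    refine ⟨eichler Q u v (h1 u hu) huv, eichler_mem_Om hQ (by omega) _ _ _ _, hst, ?_⟩
    rintro (⟨-, h⟩ | ⟨h, -⟩)
    · have h2 := h x hx
      rw [eichler_apply, h1 v hv, polar_comm Q u x, hz] at h2
      simp only [zero_mul, zero_smul, sub_zero, one_smul] at h2
      have h3 : polar Q v x • u - v ∈ W₂ := by
        have := W₂.sub_mem h2 hx
        have e : x + polar Q v x • u - v - x = polar Q v x • u - v := by abel
        rwa [e] at this
      have h4 : polar Q v x • u - v ∈ W₁ := W₁.sub_mem (W₁.smul_mem _ hu) hv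
      have h5 : polar Q v x • u - v ∈ W₁ ⊓ W₂ := ⟨h4, h3⟩
      rw [hc.inf_eq_bot, Submodule.mem_bot, sub_eq_zero] at h5
      apply hvu
      rw [← h5]
      exact Submodule.smul_mem _ _ (Submodule.mem_span_singleton_self u)
    · have h2 : eichler Q u v (h1 u hu) huv u ∈ W₁ ⊓ W₂ := ⟨hst u hu, h u hu⟩
      rw [hc.inf_eq_bot, Submodule.mem_bot] at h2
      exact hu0 (by simpa using h2)

theorem plane_core [Fintype F] [FiniteDimensional F V] {Q : QuadraticForm F V}
    (hQ : (polarBilin Q).Nondegenerate) (hdim : 12 < finrank F V) (hq : Fintype.card F ≤ 3)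
    {W : Submodule F V} (hW2 : finrank F W = 2)
    (hnd : ∀ w ∈ W, w ≠ 0 → ∃ x ∈ W, polar Q x w ≠ 0)
    (hpl : ∃ U : Submodule F V, U ≤ W ∧ (∀ u ∈ U, Q u = 0) ∧ 2 * finrank F U = finrank F W) :
    ∃ x0 : V, (∀ φ ∈ OQ Q, (∀ w ∈ W, φ w ∈ W) →
        ∀ w ∈ Submodule.span F {x0}, φ w ∈ Submodule.span F {x0}) ∧
      (∃ φ ∈ Om Q, (∀ w ∈ Submodule.span F {x0}, φ w ∈ Submodule.span F {x0}) ∧
        ¬ ∀ w ∈ W, φ w ∈ W) ∧
      (∃ φ ∈ Om Q, ¬ ∀ w ∈ Submodule.span F {x0}, φ w ∈ Submodule.span F {x0}) := by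
  classical
  obtain ⟨U, hUW, hU, hUd⟩ := hpl
  have hU0 : U ≠ ⊥ := by
    intro h
    rw [h, finrank_bot] at hUd
    omega
  obtain ⟨e, heU, he0⟩ := Submodule.exists_mem_ne_zero_of_ne_bot hU0
  have heW := hUW heU
  have hQe := hU e heU
  obtain ⟨x, hxW, hxe⟩ := hnd e heW he0
  set c := polar Q x e with hc
  set f : V := c⁻¹ • x + (-Q (c⁻¹ • x)) • e with hf
  have hfW : f ∈ W := W.add_mem (W.smul_mem _ hxW) (W.smul_mem _ heW)
  have hQf : Q f = 0 := by
    rw [hf, Q_add_smul, hQe, polar_smul_left, ← hc, smul_eq_mul, inv_mul_cancel₀ hxe]; ring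
  have hef : polar Q e f = 1 := by
    rw [hf, polar_add_right, polar_smul_right, polar_smul_right, polar_self, hQe, polar_comm Q e x,
      ← hc, smul_eq_mul, inv_mul_cancel₀ hxe]
    simp
  have hfe : polar Q f e = 1 := by rw [polar_comm]; exact hef
  have hee : polar Q e e = 0 := by rw [polar_self, hQe]; simp
  have hff : polar Q f f = 0 := by rw [polar_self, hQf]; simp
  -- W is spanned by e, f
  have hspan : ∀ w ∈ W, ∃ a b : F, w = a • e + b • f := by
    have hli : LinearIndependent F ![e, f] := by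
      rw [LinearIndependent.pair_iff]
      intro s t hst
      have h1 : polar Q (s • e + t • f) f = 0 := by rw [hst]; simp
      have h2 : polar Q (s • e + t • f) e = 0 := by rw [hst]; simp
      rw [polar_add_left, polar_smul_left, polar_smul_left, hef, hff] at h1
      rw [polar_add_left, polar_smul_left, polar_smul_left, hfe, hee] at h2
      simp at h1 h2
      exact ⟨h1, h2⟩
    have hle : Submodule.span F (Set.range ![e, f]) ≤ W := by
      rw [Submodule.span_le]
      rintro _ ⟨i, rfl⟩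
      fin_cases i
      · exact heW
      · exact hfW
    have hfr : finrank F (Submodule.span F (Set.range ![e, f])) = 2 := by
      rw [finrank_span_eq_card hli]; simp
    have heq := Submodule.eq_of_le_of_finrank_eq hle (by rw [hfr, hW2])
    intro w hw
    rw [← heq] at hw
    have : Set.range ![e, f] = {e, f} := by
      ext z
      simp only [Matrix.range_cons, Matrix.range_empty, Set.union_empty, Set.singleton_union]
    rw [this, Submodule.mem_span_pair] at hw
    obtain ⟨a, b, hab⟩ := hw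
    exact ⟨a, b, hab.symm⟩
  have hsq : ∀ a : F, a ≠ 0 → a * a = 1 := by
    intro a ha
    have h1 := FiniteField.pow_card_sub_one_eq_one a ha
    have h2 : 1 < Fintype.card F := Fintype.one_lt_card
    have h3 : Fintype.card F = 2 ∨ Fintype.card F = 3 := by omega
    rcases h3 with h3 | h3
    · rw [h3] at h1
      simp at h1
      rw [h1, one_mul]
    · rw [h3] at h1
      simpa [pow_two] using h1
  have hcard : ({e, f} : Finset V).card ≤ 2 := Finset.card_le_two
  obtain ⟨u, u', hu, -, hQu, -, huu'⟩ := exists_hyp hQ {e, f} (by omega)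
  have hu0 : u ≠ 0 := by
    rintro rfl
    simp at huu'
  rw [mem_orth] at hu
  have heu : polar Q e u = 0 := hu e (by simp)
  have hfu : polar Q f u = 0 := hu f (by simp)
  have hue : polar Q u e = 0 := by rw [polar_comm]; exact heu
  have huf : polar Q u f = 0 := by rw [polar_comm]; exact hfu
  have hQx0 : Q (e + f) = 1 := by
    rw [QuadraticMap.map_add (⇑Q), hQe, hQf, hef]; simp
  refine ⟨e + f, ?_, ?_, ?_⟩
  · intro φ hφ hs w hw
    obtain ⟨d, rfl⟩ := Submodule.mem_span_singleton.1 hw
    rw [map_smul]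
    apply Submodule.smul_mem
    obtain ⟨a, b, hab⟩ := hspan _ (hs _ (W.add_mem heW hfW))
    have h1 : Q (φ (e + f)) = 1 := by rw [mem_OQ.1 hφ]; exact hQx0
    rw [hab, Q_add_smul, QuadraticMap.map_smul, hQe, hQf, polar_smul_left, hef] at h1
    simp only [smul_eq_mul, mul_zero, add_zero, zero_add, mul_one] at h1
    have ha : a ≠ 0 := by
      rintro rfl
      simp at h1
    have hba : b = a := by
      have := hsq a ha
      have h3 : b * (a * a) = a * (b * a) := by ring
      rw [this, h1] at h3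
      simpa using h3
    rw [hab, hba, ← smul_add]
    exact Submodule.smul_mem _ _ (Submodule.mem_span_singleton_self _)
  · have huv : polar Q u (e - f) = 0 := by rw [polar_sub_right, hue, huf, sub_zero]
    refine ⟨eichler Q u (e - f) hQu huv, eichler_mem_Om hQ (by omega) _ _ _ _, ?_, ?_⟩
    · intro w hw
      obtain ⟨d, rfl⟩ := Submodule.mem_span_singleton.1 hw
      rw [map_smul]
      apply Submodule.smul_mem
      rw [eichler_apply]
      simp only [polar_add_right, polar_sub_left, hue, huf, hee, hff, hef, hfe]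
      simp only [add_zero, zero_add, sub_self, zero_smul, mul_zero, sub_zero, zero_sub,
        neg_add_cancel]
      exact Submodule.mem_span_singleton_self _
    · intro h
      have h1 := h e heW
      rw [eichler_apply] at h1
      simp only [polar_sub_left, hue, hee, hfe, zero_sub, zero_smul, mul_zero, sub_zero, neg_smul,
        one_smul] at h1
      have h2 : u ∈ W := by
        have := W.sub_mem heW h1
        have e1 : e - (e + -u) = u := by abel
        rwa [e1] at this
      obtain ⟨a, b, hab⟩ := hspan u h2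
      have h3 : polar Q u f = a := by
        rw [hab, polar_add_left, polar_smul_left, polar_smul_left, hef, hff]; simp
      have h4 : polar Q u e = b := by
        rw [hab, polar_add_left, polar_smul_left, polar_smul_left, hfe, hee]; simp
      rw [huf] at h3
      rw [hue] at h4
      apply hu0
      rw [hab, ← h3, ← h4]; simp
  · refine ⟨eichler Q u e hQu hue, eichler_mem_Om hQ (by omega) _ _ _ _, ?_⟩
    intro h
    have h1 := h (e + f) (Submodule.mem_span_singleton_self _)
    rw [eichler_apply] at h1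
    simp only [polar_add_right, hue, huf, hee, hef, add_zero, zero_add, zero_smul, mul_zero, sub_zero,
      one_smul] at h1
    obtain ⟨d, hd⟩ := Submodule.mem_span_singleton.1 h1
    have h2 : u = (d - 1) • (e + f) := by
      rw [sub_smul, one_smul, hd]; abel
    have h3 : Q u = (d - 1) * (d - 1) := by
      rw [h2, QuadraticMap.map_smul, hQx0]; simp
    rw [hQu] at h3
    have h4 : d - 1 = 0 := by
      rcases mul_eq_zero.1 h3.symm with h | h <;> exact h
    apply hu0
    rw [h2, h4, zero_smul]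

end Cfsg.Agent.Lib.Helper13.O
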