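import Mathlib
import Cfsg.Prelude.Def_GeometricClasses
import Cfsg.Agent.Lib.Helper13.OrthBasic
import Cfsg.Agent.Lib.Helper44.StdForms
import Cfsg.Agent.Lib.Helper94.SympWrap
import Cfsg.Agent.Lib.Helper94.QuadWrap

set_option autoImplicit false

namespace Cfsg.Agent.Lib.Helper13.O

open QuadraticMap Module
open Cfsg.Agent.Lib.Helper44

variable {ι : Type} [Fintype ι] [DecidableEq ι] {F : Type*} [Field F]

local notation "gl" => Cfsg.Agent.Lib.Helper94.glEquiv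

lemma mem_omegaGL_iff (Q : QuadraticForm F (ι → F)) (g : Matrix.GeneralLinearGroup ι F) :
    g ∈ Cfsg.Geo.omegaGL ⇑Q ↔ gl ι F g ∈ Om Q := by
  constructor
  · rintro ⟨g', hg', rfl⟩
    exact ⟨isoEquiv Q g', (mem_Omega_iff Q g').1 hg', rfl⟩
  · rintro ⟨g', hg', he⟩
    refine ⟨(isoEquiv Q).symm g', ?_, ?_⟩
    · change (isoEquiv Q).symm g' ∈ Cfsg.Omega F ⇑Q
      rw [mem_Omega_iff, MulEquiv.apply_symm_apply]; exact hg'
    · apply (gl ι F).injective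
      rw [← he]
      change ((isoEquiv Q ((isoEquiv Q).symm g') : ↥(OQ Q)) : (ι → F) ≃ₗ[F] (ι → F)) = _
      rw [MulEquiv.apply_symm_apply]
      rfl

theorem omega_maximal_of_core (Q : QuadraticForm F (ι → F)) (S : Subgroup (Matrix.GeneralLinearGroup ι F))
    (stab : ((ι → F) ≃ₗ[F] (ι → F)) → Prop)
    (hS : ∀ g, g ∈ S ↔ stab (gl ι F g))
    (hne : ∃ φ ∈ Om Q, ¬ stab φ)
    (hcore : ∀ G : Subgroup ((ι → F) ≃ₗ[F] (ι → F)),
      (∀ φ ∈ Om Q, stab φ → φ ∈ G) → G ≤ Om Q → ∀ φ0 ∈ G, ¬ stab φ0 → Om Q ≤ G) :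
    Cfsg.Geo.IsMaximalIn (Cfsg.Geo.omegaGL ⇑Q) (S ⊓ Cfsg.Geo.omegaGL ⇑Q) := by
  refine Cfsg.Agent.Lib.Helper94.isMaximalIn_of_core _ _ inf_le_right ?_ ?_
  · obtain ⟨φ, hφI, hφS⟩ := hne
    refine ⟨(gl ι F).symm φ, ?_, ?_⟩
    · rw [mem_omegaGL_iff, MulEquiv.apply_symm_apply]; exact hφI
    · intro h
      have := (hS _).1 h.1
      rw [MulEquiv.apply_symm_apply] at this
      exact hφS this
  · intro M hHM hMK g0 hg0 hg0H k hk
    have key := hcore (M.map (gl ι F).toMonoidHom) ?_ ?_ (gl ι F g0) ⟨g0, hg0, rfl⟩ ?_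
      ((mem_omegaGL_iff Q k).1 hk)
    · obtain ⟨k', hk', hkk⟩ := key
      have : k' = k := (gl ι F).injective hkk
      exact this ▸ hk'
    · intro φ hφI hφS
      refine ⟨(gl ι F).symm φ, hHM (Subgroup.mem_inf.2 ⟨?_, ?_⟩), ?_⟩
      · rw [hS, MulEquiv.apply_symm_apply]; exact hφS
      · rw [mem_omegaGL_iff, MulEquiv.apply_symm_apply]; exact hφI
      · exact MulEquiv.apply_symm_apply _ _
    · rintro _ ⟨g, hg, rfl⟩
      exact (mem_omegaGL_iff Q g).1 (hMK hg)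
    · intro h
      exact hg0H ⟨(hS _).2 h, hMK hg0⟩

/-- non-maximality: an intermediate stabiliser -/
theorem omega_not_maximal (Q : QuadraticForm F (ι → F)) (S : Subgroup (Matrix.GeneralLinearGroup ι F))
    (stab stab' : ((ι → F) ≃ₗ[F] (ι → F)) → Prop)
    (hS : ∀ g, g ∈ S ↔ stab (gl ι F g))
    (S' : Subgroup (Matrix.GeneralLinearGroup ι F))
    (hS' : ∀ g, g ∈ S' ↔ stab' (gl ι F g))
    (h1 : ∀ φ ∈ Om Q, stab φ → stab' φ)
    (h2 : ∃ φ ∈ Om Q, stab' φ ∧ ¬ stab φ)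
    (h3 : ∃ φ ∈ Om Q, ¬ stab' φ) :
    ∃ K : Subgroup (Matrix.GeneralLinearGroup ι F),
      S ⊓ Cfsg.Geo.omegaGL ⇑Q < K ∧ K < Cfsg.Geo.omegaGL ⇑Q := by
  refine ⟨S' ⊓ Cfsg.Geo.omegaGL ⇑Q, lt_of_le_of_ne ?_ ?_, lt_of_le_of_ne inf_le_right ?_⟩
  · rintro g ⟨hg1, hg2⟩
    exact ⟨(hS' g).2 (h1 _ ((mem_omegaGL_iff Q g).1 hg2) ((hS g).1 hg1)), hg2⟩
  · intro he
    obtain ⟨φ, hφ, hφ1, hφ2⟩ := h2
    have hm : (gl ι F).symm φ ∈ S' ⊓ Cfsg.Geo.omegaGL ⇑Q := by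
      refine Subgroup.mem_inf.2 ⟨?_, ?_⟩
      · rw [hS', MulEquiv.apply_symm_apply]; exact hφ1
      · rw [mem_omegaGL_iff, MulEquiv.apply_symm_apply]; exact hφ
    rw [← he] at hm
    have := (hS _).1 hm.1
    rw [MulEquiv.apply_symm_apply] at this
    exact hφ2 this
  · intro he
    obtain ⟨φ, hφ, hφ1⟩ := h3
    have hm : (gl ι F).symm φ ∈ Cfsg.Geo.omegaGL ⇑Q := by
      rw [mem_omegaGL_iff, MulEquiv.apply_symm_apply]; exact hφ
    rw [← he] at hm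
    have := (hS' _).1 hm.1
    rw [MulEquiv.apply_symm_apply] at this
    exact hφ1 this

end Cfsg.Agent.Lib.Helper13.O
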