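import Mathlib
import Cfsg.Agent.Lib.Helper43.PA.FieldAut

set_option autoImplicit false

namespace Cfsg.Agent.Lib.Helper13.OOut

open Cfsg.Agent.Lib.Helper43.PA

variable {F : Type*} [Field F] [Fintype F]

/-- the Frobenius automorphism -/
noncomputable def frobE (F : Type*) [Field F] [Fintype F] (p : ℕ) [Fact p.Prime] [CharP F p] :
    F ≃+* F := frobeniusEquiv F p

theorem frobE_apply (p : ℕ) [Fact p.Prime] [CharP F p] (x : F) : frobE F p x = x ^ p := rfl

theorem frobE_pow_apply (p : ℕ) [Fact p.Prime] [CharP F p] (k : ℕ) (x : F) :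
    (frobE F p ^ k) x = x ^ (p ^ k) := by
  induction k generalizing x with
  | zero => simp
  | succ k ih =>
    rw [pow_succ, RingAut.mul_apply, ih, frobE_apply, ← pow_mul, pow_succ, mul_comm]

theorem orderOf_frobE {p f : ℕ} [hp : Fact p.Prime] [CharP F p] (hF : Fintype.card F = p ^ f) :
    orderOf (frobE F p) = f := by
  have hf0 : f ≠ 0 := by
    rintro rfl
    have := Fintype.one_lt_card (α := F)
    rw [hF, pow_zero] at this
    omega
  have h1 : frobE F p ^ f = 1 := by
    ext x
    rw [frobE_pow_apply, ← hF, FiniteField.pow_card]; rfl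
  have hd : orderOf (frobE F p) ∣ f := orderOf_dvd_of_pow_eq_one h1
  have hpos : 0 < orderOf (frobE F p) := Nat.pos_of_dvd_of_pos hd (Nat.pos_of_ne_zero hf0)
  apply le_antisymm (Nat.le_of_dvd (Nat.pos_of_ne_zero hf0) hd)
  set o := orderOf (frobE F p) with ho
  have h2 : ∀ x : F, x ^ (p ^ o) = x := by
    intro x
    rw [← frobE_pow_apply, ho, pow_orderOf_eq_one]; rfl
  classical
  obtain ⟨g, hg⟩ := IsCyclic.exists_generator (α := Fˣ)
  have h3 : orderOf g = Fintype.card F - 1 := by
    rw [orderOf_eq_card_of_forall_mem_zpowers hg, Nat.card_eq_fintype_card, Fintype.card_units]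
  have h4 : g ^ (p ^ o - 1) = 1 := by
    have h5 : g ^ (p ^ o) = g := by
      apply Units.ext
      rw [Units.val_pow_eq_pow_val, h2]
    have h6 : g ^ (p ^ o - 1) * g = 1 * g := by
      rw [← pow_succ, Nat.sub_add_cancel (Nat.one_le_pow _ _ hp.out.pos), h5, one_mul]
    exact mul_right_cancel h6
  have h7 := orderOf_dvd_of_pow_eq_one h4
  rw [h3, hF] at h7
  have h8 : 1 < p ^ o := Nat.one_lt_pow hpos.ne' hp.out.one_lt
  have h9 := Nat.le_of_dvd (by omega) h7
  have h10 : p ^ f ≤ p ^ o := by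
    have := Nat.one_le_pow f p hp.out.pos
    omega
  exact (Nat.pow_le_pow_iff_right hp.out.one_lt).1 h10

theorem mem_zpowers_frobE {p f : ℕ} [hp : Fact p.Prime] [CharP F p]
    (hF : Fintype.card F = p ^ f) (σ : F ≃+* F) : σ ∈ Subgroup.zpowers (frobE F p) := by
  have h1 : Nat.card (Subgroup.zpowers (frobE F p)) = Nat.card (F ≃+* F) := by
    rw [Nat.card_zpowers, orderOf_frobE hF, card_ringAut hF]
  have : Finite (F ≃+* F) := by
    apply Nat.finite_of_card_ne_zero
    rw [card_ringAut hF]
    rintro rfl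
    have := Fintype.one_lt_card (α := F)
    rw [hF, pow_zero] at this
    omega
  rw [Subgroup.eq_top_of_card_eq _ h1]
  exact Subgroup.mem_top σ

end Cfsg.Agent.Lib.Helper13.OOut
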