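import Mathlib

set_option autoImplicit false

namespace Cfsg.Agent.Lib.Helper13.OOut

/-- a non-split extension of a cyclic group of order `f` by a group of order two is cyclic -/
theorem cyclic_of_nonsplit {G E : Type*} [Group G] [Group E] (ρ : G →* E)
    (hρ : Function.Surjective ρ) (hk : Nat.card ρ.ker = 2) (t : G) (f : ℕ) (hf : 0 < f)
    (ho : orderOf (ρ t) = f) (hgen : ∀ e : E, e ∈ Subgroup.zpowers (ρ t)) (ht : t ^ f ≠ 1) :
    IsCyclic G ∧ Nat.card G = 2 * f := by
  have hE : Nat.card E = f := by rw [← orderOf_eq_card_of_forall_mem_zpowers hgen, ho]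
  have hG : Nat.card G = 2 * f := by
    rw [← Subgroup.card_mul_index ρ.ker, Subgroup.index_ker, MonoidHom.range_eq_top.2 hρ,
      Subgroup.card_top, hk, hE]
  have : Finite G := Nat.finite_of_card_ne_zero (by omega)
  refine ⟨?_, hG⟩
  have h1 : orderOf t ∣ 2 * f := by rw [← hG]; exact orderOf_dvd_natCard t
  have h2 : f ∣ orderOf t := by rw [← ho]; exact orderOf_map_dvd ρ t
  obtain ⟨j, hj⟩ := h2
  have h3 : j ∣ 2 := by
    rw [hj, mul_comm 2 f] at h1
    exact Nat.dvd_of_mul_dvd_mul_left hf h1
  have h4 : j = 1 ∨ j = 2 := (Nat.dvd_prime Nat.prime_two).1 h3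
  rcases h4 with rfl | rfl
  · exfalso
    apply ht
    rw [mul_one] at hj
    rw [← hj, pow_orderOf_eq_one]
  · apply isCyclic_of_orderOf_eq_card t
    rw [hj, hG, mul_comm]

section trace

variable {F : Type*} [Field F]

/-- partial traces `x + x² + … + x^(2^(k-1))` -/
def tr2 (x : F) : ℕ → F
  | 0 => 0
  | k + 1 => (tr2 x k) ^ 2 + x

theorem tr2_add [CharP F 2] (x y : F) (k : ℕ) : tr2 (x + y) k = tr2 x k + tr2 y k := by
  induction k with
  | zero => simp [tr2]
  | succ k ih => simp only [tr2, ih, CharTwo.add_sq]; ring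

theorem tr2_wp [CharP F 2] (x : F) (k : ℕ) : tr2 (x ^ 2 + x) k = x ^ (2 ^ k) + x := by
  induction k with
  | zero => simp [tr2, CharTwo.add_self_eq_zero]
  | succ k ih =>
    simp only [tr2, ih, CharTwo.add_sq]
    rw [← pow_mul, ← pow_succ]
    have : x ^ 2 ^ (k + 1) + x ^ 2 + (x ^ 2 + x) = x ^ 2 ^ (k + 1) + x + (x ^ 2 + x ^ 2) := by ring
    rw [this, CharTwo.add_self_eq_zero, add_zero]

open Polynomial in
/-- the trace polynomials -/
noncomputable def trP (F : Type*) [Field F] : ℕ → F[X]
  | 0 => 0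
  | k + 1 => (trP F k) ^ 2 + X

open Polynomial in
theorem eval_trP (x : F) (k : ℕ) : (trP F k).eval x = tr2 x k := by
  induction k with
  | zero => simp [trP, tr2]
  | succ k ih => simp [trP, tr2, ih]

open Polynomial in
theorem natDegree_trP (k : ℕ) : (trP F (k + 1)).natDegree = 2 ^ k := by
  induction k with
  | zero => simp [trP]
  | succ k ih =>
    have h1 : trP F (k + 1 + 1) = (trP F (k + 1)) ^ 2 + X := rfl
    have h2 : ((trP F (k + 1)) ^ 2).natDegree = 2 ^ (k + 1) := by
      rw [natDegree_pow, ih, pow_succ, mul_comm]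
    rw [h1, natDegree_add_eq_left_of_natDegree_lt, h2]
    rw [h2, natDegree_X]
    exact Nat.one_lt_pow (by omega) (by norm_num)

theorem tr2_ne_zero [Fintype F] [CharP F 2] {f : ℕ} (hF : Fintype.card F = 2 ^ f) (β : F)
    (hβ : ∀ z : F, z ^ 2 + z ≠ β) : tr2 β f ≠ 0 := by
  classical
  intro h0
  have hf0 : f ≠ 0 := by
    rintro rfl
    have := Fintype.one_lt_card (α := F)
    rw [hF, pow_zero] at this
    omega
  let wp : F →+ F :=
    { toFun := fun z => z ^ 2 + z
      map_zero' := by simp
      map_add' := fun x y => by rw [CharTwo.add_sq]; ring }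
  have hwp : ∀ z, wp z = z ^ 2 + z := fun z => rfl
  have hker : Nat.card wp.ker = 2 := by
    rw [Nat.card_eq_two_iff]
    refine ⟨0, ⟨1, by rw [AddMonoidHom.mem_ker, hwp]; simp [CharTwo.add_self_eq_zero]⟩, ?_, ?_⟩
    · intro h
      exact zero_ne_one (congrArg Subtype.val h)
    · rw [Set.eq_univ_iff_forall]
      rintro ⟨z, hz⟩
      rw [AddMonoidHom.mem_ker, hwp] at hz
      have h3 : z * (z + 1) = 0 := by linear_combination hz
      rcases mul_eq_zero.1 h3 with h | h
      · left; exact Subtype.ext h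
      · right
        apply Subtype.ext
        change z = 1
        have := CharTwo.add_self_eq_zero (1 : F)
        linear_combination h - this
  have h1 := AddSubgroup.card_mul_index wp.ker
  have h2 := AddSubgroup.card_mul_index wp.range
  rw [AddSubgroup.index_ker, hker] at h1
  have hidx : wp.range.index = 2 := by
    have hpos : 0 < Nat.card wp.range := Nat.card_pos
    rw [← h1, mul_comm] at h2
    exact Nat.eq_of_mul_eq_mul_right hpos h2
  have hβ' : β ∉ wp.range := by
    rintro ⟨z, hz⟩
    exact hβ z hz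
  have hrange : ∀ x ∈ wp.range, tr2 x f = 0 := by
    rintro _ ⟨z, rfl⟩
    rw [hwp, tr2_wp, ← hF, FiniteField.pow_card, CharTwo.add_self_eq_zero]
  have hall : ∀ x : F, tr2 x f = 0 := by
    intro x
    by_cases hx : x ∈ wp.range
    · exact hrange x hx
    · have h3 : x + β ∈ wp.range := by
        rw [AddSubgroup.add_mem_iff_of_index_two hidx]
        exact ⟨fun h => absurd h hx, fun h => absurd h hβ'⟩
      have h4 := hrange _ h3
      rw [tr2_add, h0, add_zero] at h4
      exact h4
  obtain ⟨k, rfl⟩ := Nat.exists_eq_succ_of_ne_zero hf0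
  have h5 : trP F (k + 1) = 0 := by
    apply Polynomial.eq_zero_of_natDegree_lt_card_of_eval_eq_zero' _ (Finset.univ : Finset F)
    · intro x _
      rw [eval_trP]; exact hall x
    · rw [natDegree_trP, Finset.card_univ, hF]
      exact Nat.pow_lt_pow_right (by norm_num) (by omega)
  have h6 := natDegree_trP (F := F) k
  rw [h5, Polynomial.natDegree_zero] at h6
  exact (pow_ne_zero k (by norm_num : (2 : ℕ) ≠ 0)) h6.symm

end trace

end Cfsg.Agent.Lib.Helper13.OOut
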