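import Mathlib
import Cfsg.Agent.S3116
import Cfsg.Agent.Lib.Helper13.OOutG

set_option autoImplicit false

namespace Cfsg.Agent.Lib.Helper13.OOut

/-- transport of automorphisms along an isomorphism -/
def autCongr {G H : Type*} [Group G] [Group H] (e : G ≃* H) : MulAut G ≃* MulAut H where
  toFun α := e.symm.trans (α.trans e)
  invFun β := e.trans (β.trans e.symm)
  left_inv α := by ext x; simp
  right_inv β := by ext x; simp
  map_mul' α β := by ext x; simp

theorem isPGroup_mulAut_of_dihedral {K : Type*} [Group K] (e : K ≃* DihedralGroup 4) :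
    IsPGroup 2 (MulAut K) := by
  have h2 : IsPGroup 2 (DihedralGroup 4) := IsPGroup.of_card (n := 3) (by
    rw [DihedralGroup.nat_card]; norm_num)
  exact (Cfsg.Agent.S3116.dihedral 4 le_rfl h2).of_equiv (autCongr e).symm

/-- an extension of a group of odd order by a dihedral group of order eight splits as a direct
product -/
theorem prod_of_dihedral_ker {O E : Type*} [Group O] [Group E] (θ : O →* E)
    (hθ : Function.Surjective θ) (e : θ.ker ≃* DihedralGroup 4) (hE : Odd (Nat.card E)) :
    Nonempty (O ≃* DihedralGroup 4 × E) := by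
  have hK : Nat.card θ.ker = 8 := by
    rw [Nat.card_congr e.toEquiv, DihedralGroup.nat_card]
  have hidx : θ.ker.index = Nat.card E := by
    rw [Subgroup.index_ker, MonoidHom.range_eq_top.2 hθ, Subgroup.card_top]
  have hcop : Nat.Coprime (Nat.card θ.ker) θ.ker.index := by
    rw [hK, hidx]
    have : (8 : ℕ) = 2 ^ 3 := by norm_num
    rw [this]
    exact Nat.Coprime.pow_left 3 (Nat.coprime_two_left.2 hE)
  obtain ⟨C, hC⟩ := Subgroup.exists_right_complement'_of_coprime hcop
  have hCcard : Nat.card C = Nat.card E := by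
    rw [← hidx]
    exact (hC.symm.index_eq_card).symm
  have hP := isPGroup_mulAut_of_dihedral e
  have hcomm : ∀ (k : θ.ker) (c : C), Commute (k : O) (c : O) := by
    intro k c
    have h1 : (MulAut.conjNormal (c : O) : MulAut θ.ker) = 1 := by
      obtain ⟨n, hn⟩ := hP (MulAut.conjNormal (c : O) : MulAut θ.ker)
      have h2 : (MulAut.conjNormal (c : O) : MulAut θ.ker) ^ Nat.card C = 1 := by
        rw [← map_pow, ← Subgroup.coe_pow, pow_card_eq_one', Subgroup.coe_one, map_one]
      have h3 := orderOf_dvd_of_pow_eq_one hn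
      have h4 := orderOf_dvd_of_pow_eq_one h2
      rw [← orderOf_eq_one_iff]
      apply Nat.eq_one_of_dvd_coprimes _ h3 h4
      rw [hCcard]
      exact Nat.Coprime.pow_left n (Nat.coprime_two_left.2 hE)
    have h2 := congrArg (fun α : MulAut θ.ker => ((α k : θ.ker) : O)) h1
    simp only [MulAut.conjNormal_apply, MulAut.one_apply] at h2
    have h3 : (c : O) * k = k * c := by
      calc (c : O) * k = c * k * (c : O)⁻¹ * c := by group
        _ = k * c := by rw [h2]
    exact h3.symm
  let f : θ.ker × C →* O := MonoidHom.noncommCoprod θ.ker.subtype C.subtype hcomm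
  have hf : Function.Bijective f := hC
  have hCE : Function.Bijective (θ.comp C.subtype) := by
    constructor
    · rw [injective_iff_map_eq_one]
      intro c hc
      have h1 : (c : O) ∈ θ.ker ⊓ C := ⟨hc, c.2⟩
      rw [hC.disjoint.eq_bot, Subgroup.mem_bot] at h1
      exact Subtype.ext h1
    · intro y
      obtain ⟨o, rfl⟩ := hθ y
      obtain ⟨⟨k, c⟩, hkc⟩ := hf.2 o
      refine ⟨c, ?_⟩
      rw [← hkc]
      change θ c = θ (k * c)
      rw [map_mul, MonoidHom.mem_ker.1 k.2, one_mul]
  exact ⟨(MulEquiv.ofBijective f hf).symm.trans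
    (MulEquiv.prodCongr e (MulEquiv.ofBijective _ hCE))⟩

/-- the kernel of the induced map on the quotient -/
theorem ker_lift_equiv {A E X : Type*} [Group A] [Group E] [Group X] (I : Subgroup A) [I.Normal]
    (θ : A →* E) (hI : I ≤ θ.ker) (φ : θ.ker →* X) (hφ : Function.Surjective φ)
    (hk : φ.ker = I.subgroupOf θ.ker) : Nonempty ((QuotientGroup.lift I θ hI).ker ≃* X) := by
  let a : θ.ker →* (QuotientGroup.lift I θ hI).ker :=
    ((QuotientGroup.mk' I).comp θ.ker.subtype).codRestrict _ (fun x => x.2)
  have ha : Function.Surjective a := by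
    rintro ⟨y, hy⟩
    induction y using QuotientGroup.induction_on with
    | H x => exact ⟨⟨x, hy⟩, rfl⟩
  have hka : a.ker = φ.ker := by
    rw [hk]
    ext x
    rw [MonoidHom.mem_ker, Subgroup.mem_subgroupOf, ← QuotientGroup.eq_one_iff]
    constructor
    · intro h; exact congrArg Subtype.val h
    · intro h; exact Subtype.ext h
  exact ⟨(QuotientGroup.quotientKerEquivOfSurjective a ha).symm.trans
    ((QuotientGroup.quotientMulEquivOfEq hka).trans
      (QuotientGroup.quotientKerEquivOfSurjective φ hφ))⟩

end Cfsg.Agent.Lib.Helper13.OOut
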