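import Cfsg.Agent.Lib.Helper13.OOutD
import Cfsg.Agent.Lib.Helper13.OOutF

set_option autoImplicit false

namespace Cfsg.Agent.Lib.Helper13.OOut

open Matrix QuadraticMap Module Cfsg.Agent.Lib.Helper44

universe u

variable {F : Type u} [Field F] (m : ℕ)

/-- `id ⊕ [[1,r],[0,s]]` -/
noncomputable def blk (r : F) (s : Fˣ) : GL ((Fin m ⊕ Fin m) ⊕ Fin 2) F :=
  Matrix.GeneralLinearGroup.mkOfDetNeZero (Matrix.fromBlocks 1 0 0 !![1, r; 0, (s : F)])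
    (by simp [Matrix.det_fromBlocks_zero₂₁, Matrix.det_fin_two_of])

theorem blk_coe (r : F) (s : Fˣ) : ((blk m r s : GL ((Fin m ⊕ Fin m) ⊕ Fin 2) F) :
    Matrix ((Fin m ⊕ Fin m) ⊕ Fin 2) ((Fin m ⊕ Fin m) ⊕ Fin 2) F)
      = Matrix.fromBlocks 1 0 0 !![1, r; 0, (s : F)] := rfl

theorem blk_mulVec_inl (r : F) (s : Fˣ) (w : (Fin m ⊕ Fin m) ⊕ Fin 2 → F) (k : Fin m ⊕ Fin m) :
    ((blk m r s : GL ((Fin m ⊕ Fin m) ⊕ Fin 2) F) :
      Matrix ((Fin m ⊕ Fin m) ⊕ Fin 2) ((Fin m ⊕ Fin m) ⊕ Fin 2) F).mulVec w (Sum.inl k)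
      = w (Sum.inl k) := by
  rw [blk_coe, Matrix.fromBlocks_mulVec]
  simp

theorem blk_mulVec_zero (r : F) (s : Fˣ) (w : (Fin m ⊕ Fin m) ⊕ Fin 2 → F) :
    ((blk m r s : GL ((Fin m ⊕ Fin m) ⊕ Fin 2) F) :
      Matrix ((Fin m ⊕ Fin m) ⊕ Fin 2) ((Fin m ⊕ Fin m) ⊕ Fin 2) F).mulVec w (Sum.inr 0)
      = w (Sum.inr 0) + r * w (Sum.inr 1) := by
  rw [blk_coe, Matrix.fromBlocks_mulVec]
  simp [Matrix.mulVec, dotProduct, Fin.sum_univ_two]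

theorem blk_mulVec_one (r : F) (s : Fˣ) (w : (Fin m ⊕ Fin m) ⊕ Fin 2 → F) :
    ((blk m r s : GL ((Fin m ⊕ Fin m) ⊕ Fin 2) F) :
      Matrix ((Fin m ⊕ Fin m) ⊕ Fin 2) ((Fin m ⊕ Fin m) ⊕ Fin 2) F).mulVec w (Sum.inr 1)
      = s * w (Sum.inr 1) := by
  rw [blk_coe, Matrix.fromBlocks_mulVec]
  simp [Matrix.mulVec, dotProduct, Fin.sum_univ_two]

theorem blk_mul (r r' : F) (s s' : Fˣ) :
    blk m r s * blk m r' s' = blk m (r' + r * s') (s * s') := by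
  apply Units.ext
  rw [Units.val_mul, blk_coe, blk_coe, blk_coe, Matrix.fromBlocks_multiply]
  congr 1 <;> simp [Matrix.mul_fin_two]

theorem blk_one : blk m (0 : F) 1 = 1 := by
  apply Units.ext
  rw [blk_coe, Units.val_one, Units.val_one, ← Matrix.one_fin_two, Matrix.fromBlocks_one]

theorem fieldGL_blk (σ : F ≃+* F) (r : F) (s : Fˣ) :
    fieldGL σ (blk m r s) = blk m (σ r) (Units.map (σ : F →* F) s) := by
  apply Units.ext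
  rw [fieldGL_coe, blk_coe, blk_coe, Matrix.fromBlocks_map]
  congr 1
  · ext i j; simp [Matrix.one_apply, apply_ite]
  · ext i j; simp
  · ext i j; simp
  · ext i j; fin_cases i <;> fin_cases j <;> simp

theorem det_blk (r : F) (s : Fˣ) : ((blk m r s : GL ((Fin m ⊕ Fin m) ⊕ Fin 2) F) :
    Matrix ((Fin m ⊕ Fin m) ⊕ Fin 2) ((Fin m ⊕ Fin m) ⊕ Fin 2) F).det = s := by
  rw [blk_coe]
  simp [Matrix.det_fromBlocks_zero₂₁, Matrix.det_fin_two_of]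

theorem blk_semi (a b r : F) (s : Fˣ) (σ : F ≃+* F) (h1 : 2 * r + a * s = σ a)
    (h2 : r ^ 2 + a * r * s + b * (s : F) ^ 2 = σ b) (v : (Fin m ⊕ Fin m) ⊕ Fin 2 → F) :
    Cfsg.quadFormMinus m F a b (((blk m r s : GL ((Fin m ⊕ Fin m) ⊕ Fin 2) F) :
      Matrix ((Fin m ⊕ Fin m) ⊕ Fin 2) ((Fin m ⊕ Fin m) ⊕ Fin 2) F) *ᵥ (fun i => σ (v i)))
      = σ (Cfsg.quadFormMinus m F a b v) := by
  simp only [Cfsg.quadFormMinus, blk_mulVec_inl, blk_mulVec_zero, blk_mulVec_one, map_add, map_sum,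
    map_mul, map_pow, ← h1, ← h2]
  ring

/-- the semi-isometry `(id ⊕ [[1,r],[0,s]], σ)` -/
noncomputable def blkG (a b r : F) (s : Fˣ) (σ : F ≃+* F) (h1 : 2 * r + a * s = σ a)
    (h2 : r ^ 2 + a * r * s + b * (s : F) ^ 2 = σ b) : ↥(Gam (Cfsg.quadFormMinus m F a b)) :=
  ⟨⟨blk m r s, σ⟩, ⟨1, fun v => by rw [blk_semi m a b r s σ h1 h2 v]; simp⟩⟩

theorem blkG_left (a b r : F) (s : Fˣ) (σ : F ≃+* F) (h1 : 2 * r + a * s = σ a)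
    (h2 : r ^ 2 + a * r * s + b * (s : F) ^ 2 = σ b) :
    (blkG m a b r s σ h1 h2 : SG F ((Fin m ⊕ Fin m) ⊕ Fin 2)).left = blk m r s := rfl

theorem blkG_right (a b r : F) (s : Fˣ) (σ : F ≃+* F) (h1 : 2 * r + a * s = σ a)
    (h2 : r ^ 2 + a * r * s + b * (s : F) ^ 2 = σ b) :
    (blkG m a b r s σ h1 h2 : SG F ((Fin m ⊕ Fin m) ⊕ Fin 2)).right = σ := rfl

theorem exists_blk_odd (h2 : (2 : F) ≠ 0) (a b : F) (σ : F ≃+* F) (s : Fˣ)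
    (hs : (s : F) ^ 2 * (a ^ 2 - 4 * b) = σ (a ^ 2 - 4 * b)) :
    ∃ r : F, 2 * r + a * s = σ a ∧ r ^ 2 + a * r * s + b * (s : F) ^ 2 = σ b := by
  refine ⟨(σ a - a * s) / 2, by field_simp; ring, ?_⟩
  have h4 : (4 : F) ≠ 0 := by
    have : (4 : F) = 2 * 2 := by norm_num
    rw [this]; exact mul_ne_zero h2 h2
  have hs' : (s : F) ^ 2 * (a ^ 2 - 4 * b) = σ a ^ 2 - 4 * σ b := by
    rw [hs]; simp [map_sub, map_pow, map_mul, map_ofNat]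
  apply mul_left_cancel₀ h4
  field_simp
  linear_combination -hs'

theorem lam_surjective_of_frob [Fintype F] {ι : Type} [Fintype ι] [DecidableEq ι]
    {p f : ℕ} [Fact p.Prime] [CharP F p] (hF : Fintype.card F = p ^ f) (Q : (ι → F) → F)
    (x : ↥(Gam Q)) (hx : lam Q x = frobE F p) : Function.Surjective (lam Q) := by
  intro σ
  obtain ⟨k, rfl⟩ := mem_zpowers_frobE hF σ
  exact ⟨x ^ k, by rw [map_zpow, hx]⟩

end Cfsg.Agent.Lib.Helper13.OOut
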