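import Cfsg.Agent.Lib.Helper13.OOutM
import Cfsg.Agent.S2728

set_option autoImplicit false

namespace Cfsg.Agent.Lib.Helper13.OOut

open Matrix QuadraticMap Module Cfsg.Agent.Lib.Helper44

universe u

variable {F : Type u} [Field F] [Fintype F] (m : ℕ)

/-- the Frobenius semi-isometry in odd characteristic -/
theorem exists_T_odd {p : ℕ} [hp : Fact p.Prime] [CharP F p] (h2 : (2 : F) ≠ 0) (a b : F)
    (hD : a ^ 2 - 4 * b ≠ 0) :
    ∃ (x : ↥(Gam (Cfsg.quadFormMinus m F a b))) (r : F),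
      (x : SG F ((Fin m ⊕ Fin m) ⊕ Fin 2)).left
        = blk m r (Units.mk0 ((a ^ 2 - 4 * b) ^ ((p - 1) / 2)) (pow_ne_zero _ hD)) ∧
      (x : SG F ((Fin m ⊕ Fin m) ⊕ Fin 2)).right = frobE F p ∧
      ∀ v, Cfsg.quadFormMinus m F a b (act (x : SG F ((Fin m ⊕ Fin m) ⊕ Fin 2)) v)
        = frobE F p (Cfsg.quadFormMinus m F a b v) := by
  have hp2 : p ≠ 2 := by
    rintro rfl
    exact h2 (CharTwo.two_eq_zero)
  have hodd : (p - 1) / 2 * 2 + 1 = p := by
    have := hp.out.odd_of_ne_two hp2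
    obtain ⟨k, hk⟩ := this
    omega
  set s : Fˣ := Units.mk0 ((a ^ 2 - 4 * b) ^ ((p - 1) / 2)) (pow_ne_zero _ hD) with hs
  have hs2 : (s : F) ^ 2 * (a ^ 2 - 4 * b) = frobE F p (a ^ 2 - 4 * b) := by
    rw [frobE_apply, hs, Units.val_mk0, ← pow_mul, ← pow_succ, hodd]
  obtain ⟨r, h1, h3⟩ := exists_blk_odd h2 a b (frobE F p) s hs2
  exact ⟨blkG m a b r s _ h1 h3, r, rfl, rfl, fun v => blk_semi m a b r s _ h1 h3 v⟩

omit [Fintype F] in
theorem a_ne_zero_of_anisotropic [Finite F] [CharP F 2] {a b : F}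
    (hab : ∀ z₁ z₂ : F, z₁ ^ 2 + a * z₁ * z₂ + b * z₂ ^ 2 = 0 → z₁ = 0 ∧ z₂ = 0) : a ≠ 0 := by
  have := disc_ne_zero_of_anisotropic F hab
  rintro rfl
  apply this
  have h4 : (4 : F) = 0 := by
    have : (4 : F) = 2 * 2 := by norm_num
    rw [this, CharTwo.two_eq_zero]; simp
  rw [h4]; simp

/-- the Frobenius semi-isometry in characteristic two -/
noncomputable def T2 [CharP F 2] (a b : F) (ha : a ≠ 0) :
    ↥(Gam (Cfsg.quadFormMinus m F a b)) :=
  blkG m a b b (Units.mk0 a ha) (frobE F 2)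
    (by rw [frobE_apply, CharTwo.two_eq_zero, Units.val_mk0]; ring)
    (by
      rw [frobE_apply, Units.val_mk0]
      have : b ^ 2 + a * b * a + b * a ^ 2 = b ^ 2 + 2 * (a ^ 2 * b) := by ring
      rw [this, CharTwo.two_eq_zero (R := F)]; ring)

theorem lam_surjective_minus {p f : ℕ} [hp : Fact p.Prime] (hF : Fintype.card F = p ^ f)
    {a b : F} (hab : ∀ z₁ z₂ : F, z₁ ^ 2 + a * z₁ * z₂ + b * z₂ ^ 2 = 0 → z₁ = 0 ∧ z₂ = 0) :
    Function.Surjective (lam (Cfsg.quadFormMinus m F a b)) := by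
  have : CharP F p := charP_of_card_eq_prime_pow hF
  by_cases h2 : (2 : F) = 0
  · have h3 : CharP F 2 := CharTwo.of_one_ne_zero_of_two_eq_zero one_ne_zero h2
    have hp2 : p = 2 := CharP.eq F this h3
    subst hp2
    exact lam_surjective_of_frob hF _ (T2 m a b (a_ne_zero_of_anisotropic hab)) rfl
  · obtain ⟨x, r, -, hx, -⟩ := exists_T_odd (p := p) m h2 a b (disc_ne_zero_of_anisotropic F hab)
    exact lam_surjective_of_frob hF _ x hx

omit [Fintype F] in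
theorem card_of_hom {A X : Type*} [Group A] [Group X] (I P : Subgroup A) (hIP : I ≤ P)
    (φ : ↥P →* X) (hφ : Function.Surjective φ) (hk : φ.ker = I.subgroupOf P) :
    Nat.card ↥P = Nat.card X * Nat.card ↥I := by
  rw [← Subgroup.card_mul_index φ.ker, Subgroup.index_ker, MonoidHom.range_eq_top.2 hφ,
    Subgroup.card_top, hk, Nat.card_congr (Subgroup.subgroupOfEquivOfLe hIP).toEquiv, mul_comm]

theorem card_pgoAut_minus_even [CharP F 2] (hm : 3 ≤ m) {a b : F}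
    (hab : ∀ z₁ z₂ : F, z₁ ^ 2 + a * z₁ * z₂ + b * z₂ ^ 2 = 0 → z₁ = 0 ∧ z₂ = 0) :
    Nat.card ↥(Cfsg.pgoAut F (Cfsg.quadFormMinus m F a b))
      = 2 * Nat.card (Cfsg.POmega F (Cfsg.quadFormMinus m F a b)) := by
  classical
  have hQ := minusQF_nondeg m F hab
  have hn : 5 ≤ Fintype.card ((Fin m ⊕ Fin m) ⊕ Fin 2) := by simp; omega
  have hex := exists_ne_zero (minusQF m F a b) hQ hn
  have h1 := card_pgoAut_mul (minusQF m F a b) hQ hn hex
  have htop : (multHom (minusQF m F a b) hex).range = ⊤ := by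
    rw [eq_top_iff]
    intro c _
    obtain ⟨μ, hμ⟩ := FiniteField.isSquare_of_char_two (ringChar.eq F 2) (c : F)
    have hμ0 : μ ≠ 0 := by
      rintro rfl
      exact c.ne_zero (by rw [hμ]; simp)
    refine ⟨scalSimil _ (Units.mk0 μ hμ0), ?_⟩
    rw [multHom_apply]
    apply Units.ext
    rw [multF_of_scalar hex _ μ (scalSimil_coe _ _), hμ]
  rw [htop, Subgroup.card_top, Nat.card_eq_fintype_card (α := Fˣ), Fintype.card_units] at h1
  have hq : 0 < Fintype.card F - 1 := by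
    have := Fintype.one_lt_card (α := F)
    omega
  have h3 := Nat.eq_of_mul_eq_mul_right hq h1
  have hmul := Cfsg.Agent.Lib.Helper5.card_POmega_mul (F := F) ⇑(minusQF m F a b)
  have hidx := Cfsg.Agent.Lib.Helper5.index_Omega_even (minusQF m F a b) hQ hn
  have hZ := card_center_Omega_eq_one (minusQF m F a b) hQ hn (Or.inl CharTwo.two_eq_zero)
  rw [hidx, hZ, mul_one] at hmul
  rw [← hmul, minusQF_coe] at h3
  rw [h3, mul_comm]

theorem card_pgoAut_minus_odd (hodd : Odd (Fintype.card F)) (hm : 3 ≤ m) {a b : F}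
    (hab : ∀ z₁ z₂ : F, z₁ ^ 2 + a * z₁ * z₂ + b * z₂ ^ 2 = 0 → z₁ = 0 ∧ z₂ = 0) :
    Nat.card ↥(Cfsg.pgoAut F (Cfsg.quadFormMinus m F a b))
      = (if Even m ∧ Fintype.card F % 4 = 3 then 8 else 4)
        * Nat.card (Cfsg.POmega F (Cfsg.quadFormMinus m F a b)) := by
  have hQ := minusQF_nondeg m F hab
  have hn : 5 ≤ Fintype.card ((Fin m ⊕ Fin m) ⊕ Fin 2) := by simp; omega
  have hI := card_Inn (minusQF m F a b) hQ hn
  rw [minusQF_coe] at hI
  obtain ⟨h1, h2⟩ := Cfsg.Agent.S2728.result hodd hm a b hab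
  by_cases hc : Even m ∧ Fintype.card F % 4 = 3
  · obtain ⟨φ, hφ, hk⟩ := h1 hc
    rw [if_pos hc, card_of_hom _ _ (inn_le_pgoAut _) φ hφ hk, hI, DihedralGroup.nat_card]
  · obtain ⟨φ, hφ, hk⟩ := h2 hc
    rw [if_neg hc, card_of_hom _ _ (inn_le_pgoAut _) φ hφ hk, hI]
    congr 1
    simp [Nat.card_eq_fintype_card, ZMod.card]

theorem card_aut_minus {p f : ℕ} [hp : Fact p.Prime] (hF : Fintype.card F = p ^ f) (hm : 3 ≤ m)
    {a b : F} (hab : ∀ z₁ z₂ : F, z₁ ^ 2 + a * z₁ * z₂ + b * z₂ ^ 2 = 0 → z₁ = 0 ∧ z₂ = 0)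
    (htop : Cfsg.gammaPOmega F (Cfsg.quadFormMinus m F a b) = ⊤) :
    Nat.card (MulAut (Cfsg.POmega F (Cfsg.quadFormMinus m F a b)))
      = (if p = 2 then 2 else (if Even m ∧ p ^ f % 4 = 3 then 8 else 4)) * f
        * Nat.card (Cfsg.POmega F (Cfsg.quadFormMinus m F a b)) := by
  have hQ := minusQF_nondeg m F hab
  have hn : 5 ≤ Fintype.card ((Fin m ⊕ Fin m) ⊕ Fin 2) := by simp; omega
  have h1 := card_aut (minusQF m F a b) hQ hn (by rw [minusQF_coe]; exact htop)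
    (by rw [minusQF_coe]; exact lam_surjective_minus m hF hab)
  rw [minusQF_coe, Cfsg.Agent.Lib.Helper43.PA.card_ringAut hF] at h1
  have : CharP F p := charP_of_card_eq_prime_pow hF
  by_cases hp2 : p = 2
  · subst hp2
    rw [h1, card_pgoAut_minus_even m hm hab, if_pos rfl]; ring
  · have hodd : Odd (Fintype.card F) := by
      rw [hF]; exact (hp.out.odd_of_ne_two hp2).pow
    rw [h1, card_pgoAut_minus_odd m hodd hm hab, if_neg hp2, hF]; ring

end Cfsg.Agent.Lib.Helper13.OOut
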