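import Cfsg.Agent.Lib.Helper13.OOutN
import Cfsg.Agent.Lib.Helper13.OOutH
import Cfsg.Agent.Lib.Helper44.InvolOmega

set_option autoImplicit false

namespace Cfsg.Agent.Lib.Helper13.OOut

open Matrix QuadraticMap Module Cfsg.Agent.Lib.Helper44

universe u

section general

variable {F : Type u} [Field F] {ι : Type} [Fintype ι] [DecidableEq ι]

theorem mem_inn_imp [Fintype F] (Q : QuadraticForm F (ι → F))
    (hQ : (polarBilin Q).Nondegenerate) (hn : 5 ≤ Fintype.card ι) (x : ↥(Gam ⇑Q))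
    (hx : Th ⇑Q x ∈ Cfsg.Inn (Cfsg.POmega F ⇑Q)) :
    (x : SG F ι).right = 1 ∧ ∃ (μ : F) (s : ↥(Cfsg.Omega F ⇑Q)),
      ((x : SG F ι).left : Matrix ι ι F)
        = μ • (((s : ↥(Cfsg.isometryGroup F ⇑Q)) : GL ι F) : Matrix ι ι F) := by
  rw [inn_eq_map] at hx
  obtain ⟨_, ⟨s, rfl⟩, hs⟩ := hx
  have h1 : x * omG ⇑Q s⁻¹ ∈ (Th ⇑Q).ker := by
    rw [MonoidHom.mem_ker, map_mul, map_inv, map_inv, hs, mul_inv_cancel]
  obtain ⟨h2, μ, hμ⟩ := (mem_ker_Th_iff Q hQ hn _).1 h1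
  have h3 : (x : SG F ι).right = 1 := by
    have : ((x * omG ⇑Q s⁻¹ : ↥(Gam ⇑Q)) : SG F ι).right = (x : SG F ι).right := by
      rw [Subgroup.coe_mul, SemidirectProduct.mul_right, omG_right, mul_one]
    rw [← this, h2]
  refine ⟨h3, μ, s, ?_⟩
  rw [Subgroup.coe_mul, SemidirectProduct.mul_left, h3, map_one, omG_left] at hμ
  have h4 : ((x : SG F ι).left : Matrix ι ι F)
      * ((((s⁻¹ : ↥(Cfsg.Omega F ⇑Q)) : ↥(Cfsg.isometryGroup F ⇑Q)) : GL ι F) : Matrix ι ι F)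
      = μ • (1 : Matrix ι ι F) := by
    rw [← hμ]; rfl
  have h5 : ((((s⁻¹ : ↥(Cfsg.Omega F ⇑Q)) : ↥(Cfsg.isometryGroup F ⇑Q)) : GL ι F) : Matrix ι ι F)
      * (((s : ↥(Cfsg.isometryGroup F ⇑Q)) : GL ι F) : Matrix ι ι F) = 1 := by
    rw [← Units.val_mul, ← Subgroup.coe_mul, ← Subgroup.coe_mul, inv_mul_cancel]; rfl
  calc ((x : SG F ι).left : Matrix ι ι F)
      = ((x : SG F ι).left : Matrix ι ι F)
        * (((((s⁻¹ : ↥(Cfsg.Omega F ⇑Q)) : ↥(Cfsg.isometryGroup F ⇑Q)) : GL ι F) : Matrix ι ι F)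
        * (((s : ↥(Cfsg.isometryGroup F ⇑Q)) : GL ι F) : Matrix ι ι F)) := by rw [h5, mul_one]
    _ = _ := by rw [← mul_assoc, h4]; simp

end general

variable {F : Type u} [Field F] [Fintype F] [CharP F 2] (m : ℕ) (a b : F) (ha : a ≠ 0)

/-- lower right entries of the powers of the Frobenius semi-isometry -/
noncomputable def sSeq : ℕ → Fˣ
  | 0 => 1
  | k + 1 => Units.mk0 a ha * (sSeq k) ^ 2

/-- upper right entries of the powers of the Frobenius semi-isometry -/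
noncomputable def rSeq : ℕ → F
  | 0 => 0
  | k + 1 => (rSeq k) ^ 2 + b * ((sSeq a ha k : Fˣ) : F) ^ 2

theorem T2_pow (k : ℕ) : ((T2 m a b ha : ↥(Gam (Cfsg.quadFormMinus m F a b))) :
    SG F ((Fin m ⊕ Fin m) ⊕ Fin 2)) ^ k
      = ⟨blk m (rSeq a b ha k) (sSeq a ha k), (frobE F 2) ^ k⟩ := by
  induction k with
  | zero =>
    apply SemidirectProduct.ext
    · simp [rSeq, sSeq, blk_one]
    · simp
  | succ k ih =>
    rw [pow_succ', ih]
    apply SemidirectProduct.ext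
    · rw [SemidirectProduct.mul_left]
      change blk m b (Units.mk0 a ha) * fieldGL (frobE F 2) (blk m _ _) = blk m _ _
      rw [fieldGL_blk, blk_mul]
      congr 1
    · rw [SemidirectProduct.mul_right, pow_succ']
      rfl

omit [Fintype F] [CharP F 2] in
theorem sSeq_mul (k : ℕ) : ((sSeq a ha k : Fˣ) : F) * a = a ^ (2 ^ k) := by
  induction k with
  | zero => simp [sSeq]
  | succ k ih =>
    have : ((sSeq a ha (k + 1) : Fˣ) : F) = a * ((sSeq a ha k : Fˣ) : F) ^ 2 := by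
      simp [sSeq]
    rw [this, pow_succ 2 k, pow_mul, ← ih]; ring

omit [Fintype F] [CharP F 2] in
theorem rSeq_eq (k : ℕ) :
    rSeq a b ha k = a * ((sSeq a ha k : Fˣ) : F) * tr2 (b / a ^ 2) k := by
  induction k with
  | zero => simp [rSeq, tr2]
  | succ k ih =>
    have : ((sSeq a ha (k + 1) : Fˣ) : F) = a * ((sSeq a ha k : Fˣ) : F) ^ 2 := by
      simp [sSeq]
    rw [this]
    simp only [rSeq, tr2, ih]
    field_simp

theorem sSeq_card {f : ℕ} (hF : Fintype.card F = 2 ^ f) : sSeq a ha f = 1 := by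
  apply Units.ext
  have := sSeq_mul a ha f
  rw [← hF, FiniteField.pow_card] at this
  rw [Units.val_one]
  exact mul_right_cancel₀ ha (by rw [this, one_mul])

/-- the `f`-th power of the Frobenius semi-isometry does not induce an inner automorphism -/
theorem T2_pow_not_inn {f : ℕ} (hF : Fintype.card F = 2 ^ f) (hm : 3 ≤ m)
    (hab : ∀ z₁ z₂ : F, z₁ ^ 2 + a * z₁ * z₂ + b * z₂ ^ 2 = 0 → z₁ = 0 ∧ z₂ = 0) :
    Th (Cfsg.quadFormMinus m F a b) (T2 m a b ha ^ f)
      ∉ Cfsg.Inn (Cfsg.POmega F (Cfsg.quadFormMinus m F a b)) := by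
  intro hmem
  have hQ := minusQF_nondeg m F hab
  have hn : 5 ≤ Fintype.card ((Fin m ⊕ Fin m) ⊕ Fin 2) := by simp; omega
  have key := mem_inn_imp (minusQF m F a b) hQ hn
  have hΩ := mul_reflElt_mem_Omega_iff (minusQF m F a b) hQ
    (omegaEvenRank_of_generic _ hQ (Or.inr (by omega))) 1
    (x := Pi.single (Sum.inr 0) 1) (by rw [minusQF_apply]; simp)
  have hrefl := reflElt_coe (minusQF m F a b) (Pi.single (Sum.inr 0) 1)
  have hiso : ∀ s : ↥(Cfsg.isometryGroup F ⇑(minusQF m F a b)), ∀ v,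
      minusQF m F a b (((s : GL ((Fin m ⊕ Fin m) ⊕ Fin 2) F) :
        Matrix ((Fin m ⊕ Fin m) ⊕ Fin 2) ((Fin m ⊕ Fin m) ⊕ Fin 2) F) *ᵥ v) = minusQF m F a b v :=
    fun s v => mem_isometryGroup.1 s.2 v
  set R := rSeq a b ha f with hR
  have hR0 : R ≠ 0 := by
    rw [hR, rSeq_eq, sSeq_card a ha hF, Units.val_one, mul_one]
    apply mul_ne_zero ha
    apply tr2_ne_zero hF
    intro z hz
    have := hab (a * z) 1 (by
      have h1 : b = a ^ 2 * (z ^ 2 + z) := by rw [hz]; field_simp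
      rw [h1]
      have : (a * z) ^ 2 + a * (a * z) * 1 + a ^ 2 * (z ^ 2 + z) * 1 ^ 2
          = 2 * (a ^ 2 * (z ^ 2 + z)) := by ring
      rw [this, CharTwo.two_eq_zero (R := F), zero_mul])
    exact one_ne_zero this.2
  have hleft : ((T2 m a b ha ^ f : ↥(Gam (Cfsg.quadFormMinus m F a b))) :
      SG F ((Fin m ⊕ Fin m) ⊕ Fin 2)).left = blk m R 1 := by
    rw [Subgroup.coe_pow, T2_pow, sSeq_card a ha hF]
  generalize T2 m a b ha ^ f = x at hmem hleft
  revert x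
  rw [← minusQF_coe]
  intro x hmem hleft
  obtain ⟨-, μ, s, hs⟩ := key x hmem
  rw [hleft] at hs
  let i0 : Fin m := ⟨0, by omega⟩
  -- μ = 1
  have h1 := hiso s (Pi.single (Sum.inl (Sum.inl i0)) 1 + Pi.single (Sum.inl (Sum.inr i0)) 1)
  have hv0 : minusQF m F a b
      (Pi.single (Sum.inl (Sum.inl i0)) 1 + Pi.single (Sum.inl (Sum.inr i0)) 1) = 1 := by
    rw [minusQF_apply]
    simp [Pi.single_apply, Finset.sum_ite_eq]
  have hfix : ((blk m R 1 : GL ((Fin m ⊕ Fin m) ⊕ Fin 2) F) :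
      Matrix ((Fin m ⊕ Fin m) ⊕ Fin 2) ((Fin m ⊕ Fin m) ⊕ Fin 2) F) *ᵥ
      (Pi.single (Sum.inl (Sum.inl i0)) 1 + Pi.single (Sum.inl (Sum.inr i0)) 1)
      = (Pi.single (Sum.inl (Sum.inl i0)) 1 + Pi.single (Sum.inl (Sum.inr i0)) 1) := by
    funext k
    rcases k with k | k
    · rw [blk_mulVec_inl]
    · fin_cases k
      · exact (blk_mulVec_zero m R 1 _).trans (by simp)
      · exact (blk_mulVec_one m R 1 _).trans (by simp)
  have h2 : μ * μ = 1 := by
    have h3 := congrArg (minusQF m F a b) hfix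
    rw [hs, Matrix.smul_mulVec, QuadraticMap.map_smul, h1, hv0] at h3
    simpa using h3
  have hμ : μ = 1 := by
    have h3 : (μ + 1) ^ 2 = 0 := by
      rw [CharTwo.add_sq, pow_two, h2]; simp [CharTwo.add_self_eq_zero]
    have h4 := pow_eq_zero_iff (two_ne_zero) |>.1 h3
    have := CharTwo.add_self_eq_zero (1 : F)
    linear_combination h4 - this
  rw [hμ, one_smul] at hs
  -- R = a
  have h5 := hiso s (Pi.single (Sum.inr 1) 1)
  rw [← hs, minusQF_apply, minusQF_apply] at h5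
  simp only [blk_mulVec_inl, blk_mulVec_zero, blk_mulVec_one] at h5
  simp at h5
  have hRa : R = a := by
    have h6 : R * (R + a) = 0 := by linear_combination h5
    have h7 := (mul_eq_zero.1 h6).resolve_left hR0
    have := CharTwo.add_self_eq_zero a
    linear_combination h7 - this
  -- the element is a reflection
  have h8 : (s : ↥(Cfsg.isometryGroup F ⇑(minusQF m F a b)))
      = reflElt (minusQF m F a b) (Pi.single (Sum.inr 0) 1) := by
    apply isometryGroup_ext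
    rw [← hs, hrefl]
    apply matrix_ext_mulVec
    intro v
    rw [reflectionMatrix_mulVec, refl_apply, minusQF_polar_single_zero, minusQF_apply, hRa]
    funext k
    rcases k with k | k
    · rw [blk_mulVec_inl]; simp
    · fin_cases k
      · refine (blk_mulVec_zero m a 1 _).trans ?_
        simp [CharTwo.two_eq_zero (R := F)]
        rw [sub_eq_add_neg, CharTwo.neg_eq]
      · refine (blk_mulVec_one m a 1 _).trans ?_
        simp
  rw [one_mul, ← h8] at hΩ
  exact hΩ.1 s.2 (one_mem _)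

theorem out_minus_even {f : ℕ} (hf : 1 ≤ f) (hF : Fintype.card F = 2 ^ f) (hm : 3 ≤ m)
    (hab : ∀ z₁ z₂ : F, z₁ ^ 2 + a * z₁ * z₂ + b * z₂ ^ 2 = 0 → z₁ = 0 ∧ z₂ = 0)
    (htop : Cfsg.gammaPOmega F (Cfsg.quadFormMinus m F a b) = ⊤) :
    IsCyclic (Cfsg.Out (Cfsg.POmega F (Cfsg.quadFormMinus m F a b))) ∧
      Nat.card (Cfsg.Out (Cfsg.POmega F (Cfsg.quadFormMinus m F a b))) = 2 * f := by
  have hQ := minusQF_nondeg m F hab
  have hn : 5 ≤ Fintype.card ((Fin m ⊕ Fin m) ⊕ Fin 2) := by simp; omega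
  have ha : a ≠ 0 := a_ne_zero_of_anisotropic hab
  have hθ := exists_theta (minusQF m F a b) hQ hn (by rw [minusQF_coe]; exact htop)
    (by rw [minusQF_coe]; exact lam_surjective_minus m hF hab)
  have hI0 := card_Inn (minusQF m F a b) hQ hn
  rw [minusQF_coe] at hθ hI0
  obtain ⟨θ, h1, h2, h3⟩ := hθ
  have hI : Cfsg.Inn (Cfsg.POmega F (Cfsg.quadFormMinus m F a b)) ≤ θ.ker := by
    rw [h2]; exact inn_le_pgoAut _
  have hval : (QuotientGroup.lift _ θ hI)
      (QuotientGroup.mk (Th (Cfsg.quadFormMinus m F a b) (T2 m a b ha))) = frobE F 2 := h3 _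
  apply cyclic_of_nonsplit (QuotientGroup.lift _ θ hI) (lift_surjective _ θ hI h1)
    (card_ker_lift _ θ hI 2 (by rw [h2, card_pgoAut_minus_even m hm hab, hI0]))
    (QuotientGroup.mk (Th (Cfsg.quadFormMinus m F a b) (T2 m a b ha))) f hf
  · rw [hval, orderOf_frobE hF]
  · rw [hval]; exact mem_zpowers_frobE hF
  · rw [← QuotientGroup.mk_pow, ← map_pow, Ne, QuotientGroup.eq_one_iff]
    exact T2_pow_not_inn m a b ha hF hm hab

end Cfsg.Agent.Lib.Helper13.OOut
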