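import Cfsg.Agent.Lib.Helper13.OOutN
import Cfsg.Agent.Lib.Helper13.OOutH
import Cfsg.Agent.Lib.Helper13.OOutI
import Cfsg.Agent.Lib.Helper44.SimilD8

set_option autoImplicit false

namespace Cfsg.Agent.Lib.Helper13.OOut

open Matrix QuadraticMap Module Cfsg.Agent.Lib.Helper44

universe u

variable {F : Type u} [Field F] {ι : Type} [Fintype ι] [DecidableEq ι]

/-- the multiplier of a semisimilarity -/
noncomputable def cG (Q : (ι → F) → F) (x : ↥(Gam Q)) : Fˣ := Classical.choose x.2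

theorem cG_spec (Q : (ι → F) → F) (x : ↥(Gam Q)) (v : ι → F) :
    Q (act (x : SG F ι) v) = (cG Q x : F) * (x : SG F ι).right (Q v) :=
  Classical.choose_spec x.2 v

theorem cG_unique {Q : (ι → F) → F} (hex : ∃ v, Q v ≠ 0) (x : ↥(Gam Q)) (c : Fˣ)
    (hc : ∀ v, Q (act (x : SG F ι) v) = (c : F) * (x : SG F ι).right (Q v)) : cG Q x = c := by
  obtain ⟨v, hv⟩ := hex
  apply Units.ext
  have h1 := cG_spec Q x v
  rw [hc v] at h1
  have hv' : (x : SG F ι).right (Q v) ≠ 0 := by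
    rw [Ne, map_eq_zero_iff _ (x : SG F ι).right.injective]; exact hv
  exact (mul_right_cancel₀ hv' h1).symm

/-- field automorphisms acting on the multiplicative group -/
def unitsAct : (F ≃+* F) →* MulAut Fˣ where
  toFun σ := Units.mapEquiv (σ : F ≃* F)
  map_one' := by ext x; rfl
  map_mul' a b := by ext x; rfl

theorem unitsAct_coe (σ : F ≃+* F) (c : Fˣ) : ((unitsAct σ c : Fˣ) : F) = σ c := rfl

theorem cG_one {Q : (ι → F) → F} (hex : ∃ v, Q v ≠ 0) : cG Q 1 = 1 :=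
  cG_unique hex 1 1 (fun v => by simp)

theorem cG_mul {Q : (ι → F) → F} (hex : ∃ v, Q v ≠ 0) (x y : ↥(Gam Q)) :
    cG Q (x * y) = cG Q x * unitsAct (x : SG F ι).right (cG Q y) :=
  cG_unique hex _ _ (fun v => by
    rw [Subgroup.coe_mul, act_mul, cG_spec Q x, cG_spec Q y, SemidirectProduct.mul_right,
      Units.val_mul, unitsAct_coe, map_mul, mul_assoc]
    rfl)

theorem det_fieldGL (σ : F ≃+* F) (g : GL ι F) :
    Matrix.GeneralLinearGroup.det (fieldGL σ g) = unitsAct σ (Matrix.GeneralLinearGroup.det g) := by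
  apply Units.ext
  rw [unitsAct_coe]
  exact (RingEquiv.map_det σ (g : Matrix ι ι F)).symm

/-- `det / multiplier ^ m` -/
noncomputable def eG (Q : (ι → F) → F) (m : ℕ) (x : ↥(Gam Q)) : Fˣ :=
  Matrix.GeneralLinearGroup.det (x : SG F ι).left * (cG Q x ^ m)⁻¹

/-- the homomorphism `(g, σ) ↦ (det g / c ^ m, σ)` -/
noncomputable def DD (Q : (ι → F) → F) (hex : ∃ v, Q v ≠ 0) (m : ℕ) :
    ↥(Gam Q) →* Fˣ ⋊[unitsAct (F := F)] (F ≃+* F) where
  toFun x := ⟨eG Q m x, (x : SG F ι).right⟩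
  map_one' := by
    apply SemidirectProduct.ext
    · simp [eG, cG_one hex]
    · rfl
  map_mul' x y := by
    apply SemidirectProduct.ext
    · simp only [SemidirectProduct.mul_left, eG, cG_mul hex, Subgroup.coe_mul, map_mul,
        det_fieldGL, mul_pow, mul_inv, map_inv, map_pow]
      rw [mul_mul_mul_comm]
    · rfl

theorem DD_left (Q : (ι → F) → F) (hex : ∃ v, Q v ≠ 0) (m : ℕ) (x : ↥(Gam Q)) :
    (DD Q hex m x).left = eG Q m x := rfl

theorem DD_right (Q : (ι → F) → F) (hex : ∃ v, Q v ≠ 0) (m : ℕ) (x : ↥(Gam Q)) :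
    (DD Q hex m x).right = (x : SG F ι).right := rfl

theorem isSquare_map_iff (σ : F ≃+* F) (c : F) : IsSquare (σ c) ↔ IsSquare c := by
  constructor
  · rintro ⟨r, hr⟩
    refine ⟨σ.symm r, ?_⟩
    rw [← map_mul, ← hr, RingEquiv.symm_apply_apply]
  · rintro ⟨r, rfl⟩
    exact ⟨σ r, map_mul σ r r⟩

theorem int_units_eq_iff (x y : ℤˣ) : x = y ↔ (x = 1 ↔ y = 1) := by
  rcases Int.units_eq_one_or x with rfl | rfl <;> rcases Int.units_eq_one_or y with rfl | rfl <;>
    decide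

open Classical in
/-- quadratic character of a unit -/
noncomputable def qc [Fintype F] : Fˣ →* ℤˣ := (quadraticChar F).toUnitHom

theorem qc_eq_one_iff [Fintype F] (c : Fˣ) : qc c = 1 ↔ IsSquare (c : F) := by
  classical
  rw [← quadraticChar_one_iff_isSquare c.ne_zero, ← Units.val_inj]
  have : ((qc c : ℤˣ) : ℤ) = quadraticChar F (c : F) := by
    rw [qc]
    simp only [MulChar.coe_toUnitHom]
  rw [this]; simp

/-- quadratic character of the multiplier -/
noncomputable def chiG [Fintype F] (Q : (ι → F) → F) (hex : ∃ v, Q v ≠ 0) : ↥(Gam Q) →* ℤˣ where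
  toFun x := qc (cG Q x)
  map_one' := by rw [cG_one hex, map_one]
  map_mul' x y := by
    rw [cG_mul hex, map_mul]
    congr 1
    rw [int_units_eq_iff, qc_eq_one_iff, qc_eq_one_iff, unitsAct_coe, isSquare_map_iff]

theorem chiG_eq_one_iff [Fintype F] (Q : (ι → F) → F) (hex : ∃ v, Q v ≠ 0) (x : ↥(Gam Q)) :
    chiG Q hex x = 1 ↔ IsSquare (cG Q x : F) := qc_eq_one_iff _

theorem cG_inlG (Q : QuadraticForm F (ι → F)) (hex : ∃ v, Q v ≠ 0)
    (g : ↥(Cfsg.Geo.quadSimilarityGroup ⇑Q)) : cG ⇑Q (inlG ⇑Q g) = multF Q g :=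
  cG_unique hex _ _ (fun v => by
    have := multF_spec Q g v
    rw [act_def]
    simpa [inlG_coe] using this)

end Cfsg.Agent.Lib.Helper13.OOut
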