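import Cfsg.Agent.Lib.Helper13.OOutQ
import Cfsg.Agent.Lib.Helper13.OOutP

set_option autoImplicit false

namespace Cfsg.Agent.Lib.Helper13.OOut

open Matrix QuadraticMap Module Cfsg.Agent.Lib.Helper44

universe u

variable {F : Type u} [Field F] {ι : Type} [Fintype ι] [DecidableEq ι]

theorem eG_inlG (Q : QuadraticForm F (ι → F)) (hex : ∃ v, Q v ≠ 0) (m : ℕ)
    (g : ↥(Cfsg.Geo.quadSimilarityGroup ⇑Q)) : eG ⇑Q m (inlG ⇑Q g) = detMult Q hex m g := by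
  rw [eG, cG_inlG Q hex]
  rfl

theorem DD_eq_one_iff (Q : (ι → F) → F) (hex : ∃ v, Q v ≠ 0) (m : ℕ) (x : ↥(Gam Q)) :
    DD Q hex m x = 1 ↔ eG Q m x = 1 ∧ (x : SG F ι).right = 1 := by
  constructor
  · intro h
    exact ⟨by rw [← DD_left Q hex, h]; rfl, by rw [← DD_right Q hex m, h]; rfl⟩
  · rintro ⟨h1, h2⟩
    apply SemidirectProduct.ext
    · exact h1
    · exact h2

section main

variable [Fintype F] (h2 : (2 : F) ≠ 0) (Q : QuadraticForm F (ι → F))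
  (hQ : (polarBilin Q).Nondegenerate) (hn : 5 ≤ Fintype.card ι) (hex : ∃ v, Q v ≠ 0) (m : ℕ)
  (hm : Fintype.card ι = 2 * m)

/-- the map to `Z₂ × (a group of order 2f)` -/
noncomputable def Psi : ↥(Gam ⇑Q) →* ℤˣ × ↥(DD ⇑Q hex m).range :=
  (chiG ⇑Q hex).prod (DD ⇑Q hex m).rangeRestrict

omit [DecidableEq ι] [Fintype ι] in
theorem exists_inlG_of_right [Fintype ι] [DecidableEq ι] (Qf : (ι → F) → F) (x : ↥(Gam Qf))
    (hx : (x : SG F ι).right = 1) : ∃ g, x = inlG Qf g := by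
  have : x ∈ (lam Qf).ker := hx
  rw [ker_lam] at this
  obtain ⟨g, rfl⟩ := this
  exact ⟨g, rfl⟩

include h2 hQ hm in
theorem inlG_mem_ker_Psi_iff (g : ↥(Cfsg.Geo.quadSimilarityGroup ⇑Q)) :
    inlG ⇑Q g ∈ (Psi Q hex m).ker ↔ g ∈ (psi1 h2 hQ hex m hm).ker := by
  rw [mem_ker_psi1_iff, MonoidHom.mem_ker, Psi, MonoidHom.prod_apply, Prod.mk_eq_one,
    chiG_eq_one_iff, cG_inlG Q hex, ← detMult_eq_one_iff Q hex, ← eG_inlG]
  apply and_congr_right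
  intro _
  constructor
  · intro h
    have h3 : DD ⇑Q hex m (inlG ⇑Q g) = 1 := congrArg Subtype.val h
    exact ((DD_eq_one_iff _ hex m _).1 h3).1
  · intro h
    apply Subtype.ext
    exact (DD_eq_one_iff _ hex m _).2 ⟨h, rfl⟩

include h2 hQ hn hm in
theorem ker_Psi_eq (hneg : negOneO Q ∉ Cfsg.Omega F ⇑Q) :
    ((QuotientGroup.mk' (Cfsg.Inn (Cfsg.POmega F ⇑Q))).comp (Th ⇑Q)).ker = (Psi Q hex m).ker := by
  have hinn := psoAut_eq_inn h2 Q hQ hn m hm hneg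
  have key : ∀ g : ↥(Cfsg.Geo.quadSimilarityGroup ⇑Q),
      Th ⇑Q (inlG ⇑Q g) ∈ Cfsg.Inn (Cfsg.POmega F ⇑Q) ↔ g ∈ (psi1 h2 hQ hex m hm).ker := by
    intro g
    have h3 : Th ⇑Q (inlG ⇑Q g) = conjPOmega ⇑Q g := by rw [← Th_inlG]; rfl
    rw [h3, ← hinn, psoAut_eq', ← Subgroup.mem_comap, Subgroup.comap_map_eq,
      ker_psi1_eq' h2 hQ hn hex m hm]
  ext x
  rw [MonoidHom.mem_ker, MonoidHom.comp_apply, QuotientGroup.mk'_apply, QuotientGroup.eq_one_iff]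
  constructor
  · intro hx
    obtain ⟨g, rfl⟩ := exists_inlG_of_right _ x (mem_inn_imp Q hQ hn x hx).1
    rw [inlG_mem_ker_Psi_iff h2 Q hQ hex m hm]
    exact (key g).1 hx
  · intro hx
    have h3 : DD ⇑Q hex m x = 1 := by
      rw [MonoidHom.mem_ker, Psi, MonoidHom.prod_apply, Prod.mk_eq_one] at hx
      exact congrArg Subtype.val hx.2
    obtain ⟨g, rfl⟩ := exists_inlG_of_right _ x ((DD_eq_one_iff _ hex m _).1 h3).2
    rw [inlG_mem_ker_Psi_iff h2 Q hQ hex m hm] at hx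
    exact (key g).2 hx

include h2 hQ hm in
theorem Psi_surjective
    (hδ : ∃ δ : ↥(Cfsg.Geo.quadSimilarityGroup ⇑Q), ¬ IsSquare (multF Q δ : F)) :
    Function.Surjective (Psi Q hex m) := by
  rintro ⟨ε, ⟨_, y, rfl⟩⟩
  obtain ⟨g, hg⟩ := psi1_surjective h2 hQ hex m hm hδ (ε * (chiG ⇑Q hex y)⁻¹, 1)
  rw [psi1, MonoidHom.prod_apply, Prod.mk.injEq] at hg
  refine ⟨inlG ⇑Q g * y, ?_⟩
  rw [Psi, MonoidHom.prod_apply, Prod.mk.injEq]
  constructor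
  · rw [map_mul]
    have h3 : chiG ⇑Q hex (inlG ⇑Q g) = chi1 Q hex g := by
      rw [int_units_eq_iff, chiG_eq_one_iff, chi1_eq_one_iff, cG_inlG Q hex]
    rw [h3, hg.1, inv_mul_cancel_right]
  · apply Subtype.ext
    change DD ⇑Q hex m (inlG ⇑Q g * y) = DD ⇑Q hex m y
    rw [map_mul]
    have h3 : DD ⇑Q hex m (inlG ⇑Q g) = 1 := by
      rw [DD_eq_one_iff]
      refine ⟨?_, rfl⟩
      rw [eG_inlG Q hex, detMult_eq_one_iff, ← chi2_eq_one_iff h2 hQ hex m hm]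
      exact hg.2
    rw [h3, one_mul]

include h2 hQ hm in
/-- the image of `DD` is cyclic of order `2f` -/
theorem range_DD_cyclic {p f : ℕ} [Fact p.Prime] [CharP F p] (hf : 0 < f)
    (hF : Fintype.card F = p ^ f) (x₀ : ↥(Gam ⇑Q)) (hx₀ : lam ⇑Q x₀ = frobE F p)
    (hx₀f : (DD ⇑Q hex m x₀) ^ f ≠ 1) :
    IsCyclic ↥(DD ⇑Q hex m).range ∧ Nat.card ↥(DD ⇑Q hex m).range = 2 * f := by
  let ρ : ↥(DD ⇑Q hex m).range →* (F ≃+* F) :=
    SemidirectProduct.rightHom.comp (DD ⇑Q hex m).range.subtype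
  have hρ : ∀ x, ρ ⟨DD ⇑Q hex m x, x, rfl⟩ = lam ⇑Q x := fun x => rfl
  have hsurj : Function.Surjective ρ := by
    intro σ
    obtain ⟨x, rfl⟩ := lam_surjective_of_frob hF _ x₀ hx₀ σ
    exact ⟨_, hρ x⟩
  obtain ⟨v, hv⟩ := hex
  have hker : Nat.card ρ.ker = 2 := by
    have hR := psi1_reflElt h2 hQ ⟨v, hv⟩ m hm hv
    rw [psi1, MonoidHom.prod_apply, Prod.mk.injEq] at hR
    have hne : DD ⇑Q ⟨v, hv⟩ m (inlG ⇑Q (ofO Q (reflElt Q v))) ≠ 1 := by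
      intro h
      have h3 := ((DD_eq_one_iff _ _ m _).1 h).1
      rw [eG_inlG Q ⟨v, hv⟩, detMult_eq_one_iff, ← chi2_eq_one_iff h2 hQ ⟨v, hv⟩ m hm, hR.2] at h3
      exact absurd h3 (by decide)
    rw [Nat.card_eq_two_iff]
    refine ⟨1, ⟨⟨DD ⇑Q ⟨v, hv⟩ m (inlG ⇑Q (ofO Q (reflElt Q v))), _, rfl⟩, rfl⟩, ?_, ?_⟩
    · intro h
      exact hne (congrArg (fun z : ρ.ker => ((z : ↥(DD ⇑Q ⟨v, hv⟩ m).range) :
        Fˣ ⋊[unitsAct (F := F)] (F ≃+* F))) h).symm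
    · rw [Set.eq_univ_iff_forall]
      rintro ⟨⟨_, x, rfl⟩, hx⟩
      obtain ⟨g, rfl⟩ := exists_inlG_of_right _ x hx
      have e1 : ∀ g' : ↥(Cfsg.Geo.quadSimilarityGroup ⇑Q),
          detMult Q ⟨v, hv⟩ m g' = 1 → DD ⇑Q ⟨v, hv⟩ m (inlG ⇑Q g') = 1 := by
        intro g' h
        rw [DD_eq_one_iff]
        exact ⟨by rw [eG_inlG Q ⟨v, hv⟩]; exact h, rfl⟩
      rcases detMult_eq_or hQ ⟨v, hv⟩ m hm g with h | h
      · left
        apply Subtype.ext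
        apply Subtype.ext
        exact e1 g h
      · right
        apply Subtype.ext
        apply Subtype.ext
        change DD ⇑Q ⟨v, hv⟩ m (inlG ⇑Q g) = DD ⇑Q ⟨v, hv⟩ m (inlG ⇑Q (ofO Q (reflElt Q v)))
        have h4 : detMult Q ⟨v, hv⟩ m (ofO Q (reflElt Q v)) = -1 := by
          rcases detMult_eq_or hQ ⟨v, hv⟩ m hm (ofO Q (reflElt Q v)) with h5 | h5
          · exact absurd (e1 _ h5) hne
          · exact h5
        have h5 := e1 (g * (ofO Q (reflElt Q v))⁻¹) (by rw [map_mul, map_inv, h, h4]; simp)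
        rw [map_mul, map_mul, map_inv, map_inv, mul_inv_eq_one] at h5
        exact h5
  apply cyclic_of_nonsplit ρ hsurj hker ⟨DD ⇑Q ⟨v, hv⟩ m x₀, x₀, rfl⟩ f hf
  · rw [hρ, hx₀, orderOf_frobE hF]
  · rw [hρ, hx₀]; exact mem_zpowers_frobE hF
  · intro h
    exact hx₀f (congrArg Subtype.val h)

include h2 hQ hn hm in
theorem out_of_DD (hδ : ∃ δ : ↥(Cfsg.Geo.quadSimilarityGroup ⇑Q), ¬ IsSquare (multF Q δ : F))
    (hneg : negOneO Q ∉ Cfsg.Omega F ⇑Q) (htop : Cfsg.gammaPOmega F ⇑Q = ⊤)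
    {p f : ℕ} [Fact p.Prime] [CharP F p] (hf : 0 < f)
    (hF : Fintype.card F = p ^ f) (x₀ : ↥(Gam ⇑Q)) (hx₀ : lam ⇑Q x₀ = frobE F p)
    (hx₀f : (DD ⇑Q hex m x₀) ^ f ≠ 1) :
    Nonempty (Cfsg.Out (Cfsg.POmega F ⇑Q) ≃* Multiplicative (ZMod 2 × ZMod (2 * f))) := by
  obtain ⟨e1⟩ := nonempty_equiv_of_ker_eq
    ((QuotientGroup.mk' (Cfsg.Inn (Cfsg.POmega F ⇑Q))).comp (Th ⇑Q))
    ((QuotientGroup.mk'_surjective _).comp (Th_surjective Q hQ hn htop))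
    (Psi Q hex m) (Psi_surjective h2 Q hQ hex m hm hδ) (ker_Psi_eq h2 Q hQ hn hex m hm hneg)
  obtain ⟨hc, hcard⟩ := range_DD_cyclic h2 Q hQ hex m hm hf hF x₀ hx₀ hx₀f
  obtain ⟨e2⟩ := nonempty_mulEquiv_two (G := ℤˣ) (by simp)
  have : NeZero (2 * f) := ⟨by omega⟩
  have e3 : ↥(DD ⇑Q hex m).range ≃* Multiplicative (ZMod (2 * f)) :=
    mulEquivOfCyclicCardEq (by rw [hcard]; simp)
  exact ⟨e1.trans ((MulEquiv.prodCongr e2 e3).trans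
    (MulEquiv.prodMultiplicative (ZMod 2) (ZMod (2 * f))).symm)⟩

end main

end Cfsg.Agent.Lib.Helper13.OOut
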