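import Cfsg.Agent.Lib.Helper13.OOutR
import Cfsg.Agent.Lib.Helper44.PGOStd

set_option autoImplicit false

namespace Cfsg.Agent.Lib.Helper13.OOut

open Matrix QuadraticMap Module Cfsg.Agent.Lib.Helper44

universe u

variable {F : Type u} [Field F]

theorem not_isSquare_disc (h2 : (2 : F) ≠ 0) {a b : F}
    (hab : ∀ z₁ z₂ : F, z₁ ^ 2 + a * z₁ * z₂ + b * z₂ ^ 2 = 0 → z₁ = 0 ∧ z₂ = 0) :
    ¬ IsSquare (a ^ 2 - 4 * b) := by
  rintro ⟨t, ht⟩
  have := hab ((t - a) / 2) 1 (by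
    field_simp
    linear_combination -ht)
  exact one_ne_zero this.2

/-- exponents `(p^k - 1) / 2` -/
def expE (p : ℕ) : ℕ → ℕ
  | 0 => 0
  | k + 1 => (p - 1) / 2 + p * expE p k

theorem expE_spec {p : ℕ} (hp : (p - 1) / 2 * 2 + 1 = p) (k : ℕ) : 2 * expE p k + 1 = p ^ k := by
  induction k with
  | zero => simp [expE]
  | succ k ih =>
    rw [pow_succ, ← ih]
    simp only [expE]
    set h := (p - 1) / 2
    calc 2 * (h + p * expE p k) + 1 = (h * 2 + 1) + p * (2 * expE p k) := by ring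
      _ = p + p * (2 * expE p k) := by rw [hp]
      _ = (2 * expE p k + 1) * p := by ring

theorem pair_pow [Fintype F] (p : ℕ) [Fact p.Prime] [CharP F p] (u : Fˣ) (k : ℕ) :
    (⟨u ^ ((p - 1) / 2), frobE F p⟩ : Fˣ ⋊[unitsAct (F := F)] (F ≃+* F)) ^ k
      = ⟨u ^ expE p k, frobE F p ^ k⟩ := by
  induction k with
  | zero => simp [expE]
  | succ k ih =>
    rw [pow_succ', ih]
    apply SemidirectProduct.ext
    · rw [SemidirectProduct.mul_left]
      have h1 : unitsAct (frobE F p) (u ^ expE p k) = (u ^ expE p k) ^ p := by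
        apply Units.ext
        rw [unitsAct_coe, frobE_apply]; simp
      change u ^ ((p - 1) / 2) * unitsAct (frobE F p) (u ^ expE p k) = u ^ expE p (k + 1)
      rw [h1, ← pow_mul, ← pow_add, mul_comm]
      rfl
    · rw [SemidirectProduct.mul_right, pow_succ']

variable [Fintype F] (m : ℕ)

theorem odd_of_pow_mod_four {p f : ℕ} (h : p ^ f % 4 = 3) : Odd f := by
  by_contra hf
  rw [Nat.not_odd_iff_even] at hf
  obtain ⟨k, rfl⟩ := hf
  rw [← two_mul, mul_comm, pow_mul, pow_two, Nat.mul_mod] at h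
  have : p ^ k % 4 < 4 := Nat.mod_lt _ (by norm_num)
  interval_cases (p ^ k % 4) <;> omega

theorem out_minus_odd_dihedral {p f : ℕ} [hp : Fact p.Prime] (hF : Fintype.card F = p ^ f)
    (hodd : Odd (Fintype.card F)) (hm : 3 ≤ m) {a b : F}
    (hab : ∀ z₁ z₂ : F, z₁ ^ 2 + a * z₁ * z₂ + b * z₂ ^ 2 = 0 → z₁ = 0 ∧ z₂ = 0)
    (htop : Cfsg.gammaPOmega F (Cfsg.quadFormMinus m F a b) = ⊤)
    (hc : Even m ∧ Fintype.card F % 4 = 3) :
    Nonempty (Cfsg.Out (Cfsg.POmega F (Cfsg.quadFormMinus m F a b)) ≃*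
      DihedralGroup 4 × Multiplicative (ZMod f)) := by
  have hQ := minusQF_nondeg m F hab
  have hn : 5 ≤ Fintype.card ((Fin m ⊕ Fin m) ⊕ Fin 2) := by simp; omega
  have hθ := exists_theta (minusQF m F a b) hQ hn (by rw [minusQF_coe]; exact htop)
    (by rw [minusQF_coe]; exact lam_surjective_minus m hF hab)
  rw [minusQF_coe] at hθ
  obtain ⟨θ, h1, h2, -⟩ := hθ
  have hI : Cfsg.Inn (Cfsg.POmega F (Cfsg.quadFormMinus m F a b)) ≤ θ.ker := by
    rw [h2]; exact inn_le_pgoAut _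
  have hφ := (Cfsg.Agent.S2728.result hodd hm a b hab).1 hc
  rw [← h2] at hφ
  obtain ⟨φ, hφ1, hφ2⟩ := hφ
  obtain ⟨e⟩ := ker_lift_equiv _ θ hI φ hφ1 hφ2
  obtain ⟨e1⟩ := prod_of_dihedral_ker (QuotientGroup.lift _ θ hI) (lift_surjective _ θ hI h1) e (by
    rw [Cfsg.Agent.Lib.Helper43.PA.card_ringAut hF]
    exact odd_of_pow_mod_four (by rw [← hF]; exact hc.2))
  obtain ⟨e2⟩ := Cfsg.Agent.Lib.Helper43.PA.exists_ringAut_equiv hF
  exact ⟨e1.trans (MulEquiv.prodCongr (MulEquiv.refl _) e2)⟩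

theorem out_minus_odd_abelian {p f : ℕ} [hp : Fact p.Prime] (hf : 1 ≤ f)
    (hF : Fintype.card F = p ^ f)
    (hodd : Odd (Fintype.card F)) (hm : 3 ≤ m) {a b : F}
    (hab : ∀ z₁ z₂ : F, z₁ ^ 2 + a * z₁ * z₂ + b * z₂ ^ 2 = 0 → z₁ = 0 ∧ z₂ = 0)
    (htop : Cfsg.gammaPOmega F (Cfsg.quadFormMinus m F a b) = ⊤)
    (hc : ¬ (Even m ∧ Fintype.card F % 4 = 3)) :
    Nonempty (Cfsg.Out (Cfsg.POmega F (Cfsg.quadFormMinus m F a b)) ≃*
      Multiplicative (ZMod 2 × ZMod (2 * f))) := by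
  have h2 : (2 : F) ≠ 0 := two_ne_zero_of_odd_card hodd
  have : CharP F p := charP_of_card_eq_prime_pow hF
  have hQ := minusQF_nondeg m F hab
  have hn : 5 ≤ Fintype.card ((Fin m ⊕ Fin m) ⊕ Fin 2) := by simp; omega
  have hcard : Fintype.card ((Fin m ⊕ Fin m) ⊕ Fin 2) = 2 * (m + 1) := by simp; ring
  have hex := exists_ne_zero (minusQF m F a b) hQ hn
  have hD := disc_ne_zero_of_anisotropic F hab
  have hp2 : p ≠ 2 := by
    rintro rfl
    exact h2 (CharTwo.two_eq_zero)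
  have hpodd : (p - 1) / 2 * 2 + 1 = p := by
    obtain ⟨k, hk⟩ := hp.out.odd_of_ne_two hp2
    omega
  have hT := exists_T_odd (p := p) m h2 a b hD
  rw [← minusQF_coe] at hT htop ⊢
  obtain ⟨x₀, r, hl, hr, hsemi⟩ := hT
  apply out_of_DD h2 (minusQF m F a b) hQ hn hex (m + 1) hcard
    (minus_exists_nonsquare_simil h2 m hab)
    (by rw [minus_negOneO_mem_iff hodd m a b hab]; exact hc) htop hf hF x₀ hr
  have hc1 : cG ⇑(minusQF m F a b) x₀ = 1 := cG_unique hex x₀ 1 (fun v => by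
    rw [hsemi v, hr]; simp)
  have hDD : DD ⇑(minusQF m F a b) hex (m + 1) x₀
      = ⟨(Units.mk0 (a ^ 2 - 4 * b) hD) ^ ((p - 1) / 2), frobE F p⟩ := by
    apply SemidirectProduct.ext
    · rw [DD_left, eG, hc1, hl]
      apply Units.ext
      simp [det_blk]
    · exact hr
  rw [hDD, pair_pow]
  intro h
  have h3 := congrArg (fun z : Fˣ ⋊[unitsAct (F := F)] (F ≃+* F) => ((z.left : Fˣ) : F)) h
  simp only [SemidirectProduct.one_left, Units.val_pow_eq_pow_val, Units.val_mk0,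
    Units.val_one] at h3
  have h4 := expE_spec hpodd f
  have h5 : expE p f = Fintype.card F / 2 := by rw [hF]; omega
  rw [h5] at h3
  have hch : ringChar F ≠ 2 := by
    rw [ringChar.eq F p]; exact hp2
  exact not_isSquare_disc h2 hab ((FiniteField.isSquare_iff hch hD).2 h3)

end Cfsg.Agent.Lib.Helper13.OOut
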