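import Mathlib
import Cfsg.Agent.Lib.Helper13.OrthND
import Cfsg.Agent.Lib.Helper94.SympDecomp

set_option autoImplicit false
set_option linter.unusedSimpArgs false
set_option linter.unusedSectionVars false

/-! # Orthogonal decompositions into isometric blocks: basic facts and the filling argument -/

namespace Cfsg.Agent.Lib.Helper13.O

open QuadraticMap Module
open Cfsg.Agent.Lib.Helper44
open Cfsg.Agent.Lib.Helper94 (OrthDec DecStab)

variable {F V : Type*} [Field F] [AddCommGroup V] [Module F V]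

local notation "perp" => LinearMap.BilinForm.orthogonal

/-- block vectors -/
def Blk {t : ℕ} (D : Fin t → Submodule F V) (x : V) : Prop := ∃ j, x ∈ D j

/-- the data of an orthogonal decomposition into blocks of dimension at least three, each
containing a hyperbolic pair and a vector of norm `N` orthogonal to it -/
structure Blocks (Q : QuadraticForm F V) {t : ℕ} (D : Fin t → Submodule F V) (k : ℕ) (N : F) :
    Prop where
  od : OrthDec (polarBilin Q) D k
  nd : (polarBilin Q).Nondegenerate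
  two : (2 : F) ≠ 0
  dim : 12 < finrank F V
  hk : 3 ≤ k
  ht : 3 ≤ t
  hN : N ≠ 0
  triple : ∀ i, ∃ e ∈ D i, ∃ f ∈ D i, ∃ w ∈ D i, Q e = 0 ∧ Q f = 0 ∧ polar Q e f = 1 ∧
    polar Q e w = 0 ∧ polar Q f w = 0 ∧ Q w = N
  cyc : ∀ m l l' : Fin t, m ≠ l → m ≠ l' → l ≠ l' → ∃ κ ∈ Om Q, DecStab D κ ∧
    (∀ x ∈ D m, κ x ∈ D l') ∧ (∀ x ∈ D l, κ x ∈ D m)

/-- `D l ⊆ AE(e)` for all singular `e ∈ D m` -/
def RR (Q : QuadraticForm F V) (G : Subgroup (V ≃ₗ[F] V)) {t : ℕ} (D : Fin t → Submodule F V)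
    (m l : Fin t) : Prop :=
  ∀ e ∈ D m, ∀ (he : Q e = 0), ∀ y ∈ D l, y ∈ AE Q G e he

namespace Blocks

variable {Q : QuadraticForm F V} {t : ℕ} {D : Fin t → Submodule F V} {k : ℕ} {N : F}

lemma ort (h : Blocks Q D k N) {i j : Fin t} (hij : i ≠ j) {u v : V} (hu : u ∈ D i)
    (hv : v ∈ D j) : polar Q u v = 0 := h.od.ort i j hij u hu v hv

lemma same (h : Blocks Q D k N) {i j : Fin t} {u v : V} (hu : u ∈ D i)
    (hv : v ∈ D j) (huv : polar Q u v ≠ 0) : i = j := by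
  by_contra hij
  exact huv (h.ort hij hu hv)

lemma toOD [FiniteDimensional F V] (h : Blocks Q D k N) (i : Fin t) :
    OD Q (D i) (perp (polarBilin Q) (D i)) :=
  OD_of_nondeg h.nd (fun w hw hw0 => h.od.nd i w hw hw0)

lemma exists_block_ne (h : Blocks Q D k N) {x : V} (hx : x ≠ 0) :
    ∃ m, ∃ y ∈ D m, polar Q x y ≠ 0 := by
  by_contra hcon
  push Not at hcon
  obtain ⟨z, hz⟩ := polar_nondeg_exists h.nd hx
  obtain ⟨a, ha, hsum⟩ := h.od.exists_family z
  have h0 : polar Q x z = 0 := by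
    rw [← hsum]
    change polarBilin Q x (∑ i, a i) = 0
    rw [map_sum]
    exact Finset.sum_eq_zero fun i _ => hcon i (a i) (ha i)
  rw [polar_comm, hz] at h0
  exact one_ne_zero h0

/-- splitting off the component in `D i` -/
lemma split [FiniteDimensional F V] (h : Blocks Q D k N) (i : Fin t) (x : V) :
    ∃ v ∈ D i, ∃ x', (∀ y ∈ D i, polar Q x' y = 0) ∧ x = v + x' := by
  obtain ⟨v, hv, x', hx', rfl⟩ := (h.toOD i).decomp x
  exact ⟨v, hv, x', fun y hy => by rw [polar_comm]; exact mem_perp.1 hx' y hy, rfl⟩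

lemma two_blocks [FiniteDimensional F V] (h : Blocks Q D k N) {x : V} (hx : ¬ Blk D x) :
    ∃ i m, i ≠ m ∧ (∃ y ∈ D i, polar Q x y ≠ 0) ∧ (∃ y ∈ D m, polar Q x y ≠ 0) := by
  have hx0 : x ≠ 0 := by
    rintro rfl
    exact hx ⟨⟨0, by have := h.ht; omega⟩, Submodule.zero_mem _⟩
  obtain ⟨i, y, hy, hxy⟩ := h.exists_block_ne hx0
  obtain ⟨v, hv, x', hx', rfl⟩ := h.split i x
  have hx'0 : x' ≠ 0 := by
    rintro rfl
    exact hx ⟨i, by simpa using hv⟩
  obtain ⟨m, y', hy', hxy'⟩ := h.exists_block_ne hx'0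
  have him : i ≠ m := by
    rintro rfl
    exact hxy' (hx' y' hy')
  refine ⟨i, m, him, ⟨y, hy, hxy⟩, ⟨y', hy', ?_⟩⟩
  rw [polar_add_left, h.ort him hv hy', zero_add]
  exact hxy'

/-- every block contains a vector of norm `N` orthogonal to a given vector -/
lemma T1 (h : Blocks Q D k N) (i : Fin t) (u : V) : ∃ a ∈ D i, polar Q u a = 0 ∧ Q a = N := by
  obtain ⟨e, he, f, hf, w, hw, hQe, hQf, hef, hew, hfw, hQw⟩ := h.triple i
  by_cases h1 : polar Q u e = 0
  · by_cases h2 : polar Q u f = 0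
    · refine ⟨e + N • f, (D i).add_mem he ((D i).smul_mem _ hf), ?_, ?_⟩
      · rw [polar_add_right, polar_smul_right, h1, h2]; simp
      · rw [Q_add_smul, hQe, hQf, hef]; ring
    · refine ⟨w + (-(polar Q u w / polar Q u f)) • f, (D i).add_mem hw ((D i).smul_mem _ hf), ?_, ?_⟩
      · rw [polar_add_right, polar_smul_right, smul_eq_mul]; field_simp; ring
      · rw [Q_add_smul, hQw, hQf, polar_comm Q w f, hfw]; ring
  · refine ⟨w + (-(polar Q u w / polar Q u e)) • e, (D i).add_mem hw ((D i).smul_mem _ he), ?_, ?_⟩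
    · rw [polar_add_right, polar_smul_right, smul_eq_mul]; field_simp; ring
    · rw [Q_add_smul, hQw, hQe, polar_comm Q w e, hew]; ring

lemma exists_sing_ne (h : Blocks Q D k N) {m : Fin t} {x : V}
    (hxm : ∃ y ∈ D m, polar Q x y ≠ 0) : ∃ u ∈ D m, Q u = 0 ∧ polar Q u x ≠ 0 := by
  by_contra hcon
  push Not at hcon
  obtain ⟨e, he, f, hf, w, hw, hQe, hQf, hef, -⟩ := h.triple m
  obtain ⟨y, hy, hxy⟩ := hxm
  have := span_sing he hf hQe hQf hef (LinearMap.ker ((polarBilin Q).flip x)).toAddSubgroup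
    (fun u hu hQu => hcon u hu hQu) y hy
  apply hxy
  rw [polar_comm]
  exact this

lemma eichler_stab (h : Blocks Q D k N) {i : Fin t} {u w : V} (hu : u ∈ D i) (hw : w ∈ D i)
    (hQu : Q u = 0) (huw : polar Q u w = 0) : ∀ j, ∀ x ∈ D j, eichler Q u w hQu huw x ∈ D j := by
  intro j x hx
  rw [eichler_apply]
  by_cases hij : i = j
  · subst hij
    exact (D i).sub_mem ((D i).sub_mem ((D i).add_mem hx ((D i).smul_mem _ hu))
      ((D i).smul_mem _ hw)) ((D i).smul_mem _ hu)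
  · rw [h.ort hij hw hx, h.ort hij hu hx]
    simpa using hx

lemma refl_stab (h : Blocks Q D k N) {i : Fin t} {a : V} (ha : a ∈ D i) :
    ∀ j, ∀ x ∈ D j, refl Q a x ∈ D j := by
  intro j x hx
  rw [refl_apply]
  by_cases hij : i = j
  · subst hij
    exact (D i).sub_mem hx ((D i).smul_mem _ ha)
  · rw [h.ort hij ha hx]
    simpa using hx

variable {G : Subgroup (V ≃ₗ[F] V)}

lemma mem_of_stab [FiniteDimensional F V] (hG : ∀ φ ∈ Om Q, DecStab D φ → φ ∈ G)
    {φ : V ≃ₗ[F] V} (hφ : φ ∈ Om Q) (hs : ∀ j, ∀ x ∈ D j, φ x ∈ D j) : φ ∈ G :=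
  hG φ hφ ⟨1, fun j => Cfsg.Agent.Lib.Helper94.map_eq_of_forall_mem _ _ _ rfl (hs j)⟩

lemma mem_AE_blk [Fintype F] [FiniteDimensional F V] (h : Blocks Q D k N)
    (hG : ∀ φ ∈ Om Q, DecStab D φ → φ ∈ G) {i : Fin t} {u w : V} (hu : u ∈ D i) (hw : w ∈ D i)
    (hQu : Q u = 0) (huw : polar Q u w = 0) : w ∈ AE Q G u hQu :=
  ⟨huw, mem_of_stab hG (eichler_mem_Om h.nd (by have := h.dim; omega) _ _ _ _)
    (h.eichler_stab hu hw hQu huw)⟩

/-- **A1** -/
lemma fillm [Fintype F] [FiniteDimensional F V] (h : Blocks Q D k N)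
    (hG : ∀ φ ∈ Om Q, DecStab D φ → φ ∈ G) {c x : V} (hc : Q c = 0) {m : Fin t}
    (hcm : ∀ y ∈ D m, polar Q c y = 0) (hx : x ∈ AE Q G c hc)
    (hxm : ∃ y ∈ D m, polar Q x y ≠ 0) : ∀ y ∈ D m, y ∈ AE Q G c hc := by
  have hinv : ∀ u ∈ D m, ∀ w ∈ D m, ∀ (hu : Q u = 0) (huw : polar Q u w = 0),
      ∀ x ∈ AE Q G c hc, eichler Q u w hu huw x ∈ AE Q G c hc := by
    intro u hu w hw hQu huw x hx
    refine AE_fix (h.mem_AE_blk hG hu hw hQu huw).2 (eichler_mem Q _ _ _ _) ?_ hx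
    rw [eichler_apply, polar_comm Q w c, polar_comm Q u c, hcm w hw, hcm u hu]
    simp
  obtain ⟨u, hu, hQu, hux⟩ := h.exists_sing_ne hxm
  obtain ⟨a, ha, hua, hQa⟩ := h.T1 m u
  have h1 := (AE Q G c hc).sub_mem (hinv u hu a ha hQu hua x hx) hx
  have e1 : eichler Q u a hQu hua x - x
      = (polar Q a x - Q a * polar Q u x) • u - polar Q u x • a := by
    rw [eichler_apply]; module
  rw [e1] at h1
  refine (h.toOD m).symm.irr3 h.nd (by rw [h.od.finrank_eq]; exact h.hk) (AE Q G c hc) hinv h1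
    ((D m).sub_mem ((D m).smul_mem _ hu) ((D m).smul_mem _ ha)) ?_
  intro h0
  have h2 : polar Q ((polar Q a x - Q a * polar Q u x) • u - polar Q u x • a) a = 0 := by
    rw [h0]; simp
  rw [polar_sub_left, polar_smul_left, polar_smul_left, hua, polar_self, hQa] at h2
  simp only [smul_eq_mul, mul_zero, zero_sub, neg_eq_zero, nsmul_eq_mul, Nat.cast_ofNat,
    mul_eq_zero] at h2
  rcases h2 with h2 | h2 | h2
  · exact hux h2
  · exact h.two h2
  · exact h.hN h2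

/-- **A2** -/
lemma mem_AE_swap [Fintype F] [FiniteDimensional F V] (h : Blocks Q D k N)
    (hG : ∀ φ ∈ Om Q, DecStab D φ → φ ∈ G) {c : V} (hc : Q c = 0) {m : Fin t}
    (hcm : ∀ y ∈ D m, polar Q c y = 0) (hfill : ∀ y ∈ D m, y ∈ AE Q G c hc) {e : V}
    (he : e ∈ D m) (hQe : Q e = 0) : c ∈ AE Q G e hQe := by
  obtain ⟨a, ha, hea, hQa⟩ := h.T1 m e
  obtain ⟨hca, hE⟩ := hfill a ha
  have hge : eichler Q c a hc hca e = e := by
    rw [eichler_apply, polar_comm Q a e, hea, hcm e he]; simp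
  have ha' : (2 * N)⁻¹ • a ∈ AE Q G e hQe :=
    h.mem_AE_blk hG he ((D m).smul_mem _ ha) hQe (by rw [polar_smul_right, hea]; simp)
  have h1 := AE_fix hE (eichler_mem Q _ _ _ _) hge ha'
  have e1 : eichler Q c a hc hca ((2 * N)⁻¹ • a) = (2 * N)⁻¹ • a + c := by
    rw [eichler_apply, polar_smul_right, polar_smul_right, polar_self, hQa, hca]
    have : (2 * N)⁻¹ • (2 • N) = (1 : F) := by
      rw [smul_eq_mul, nsmul_eq_mul]
      have := h.two
      have := h.hN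
      field_simp
      norm_num
    rw [this]
    simp
  rw [e1] at h1
  have := (AE Q G e hQe).sub_mem h1 ha'
  simpa using this

lemma RR_of_fill [Fintype F] [FiniteDimensional F V] (h : Blocks Q D k N)
    (hG : ∀ φ ∈ Om Q, DecStab D φ → φ ∈ G) {c : V} (hc : Q c = 0) {m l : Fin t} (hml : m ≠ l)
    (hcm : ∀ y ∈ D m, polar Q c y = 0) (hfill : ∀ y ∈ D m, y ∈ AE Q G c hc)
    (hcl : ∃ y ∈ D l, polar Q c y ≠ 0) : RR Q G D m l := by
  intro e he hQe
  exact h.fillm hG hQe (fun y hy => h.ort hml he hy) (h.mem_AE_swap hG hc hcm hfill he hQe) hcl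

lemma RR_symm [Fintype F] [FiniteDimensional F V] (h : Blocks Q D k N)
    (hG : ∀ φ ∈ Om Q, DecStab D φ → φ ∈ G) {m l : Fin t} (hml : m ≠ l) (hR : RR Q G D m l) :
    RR Q G D l m := by
  obtain ⟨e, he, f, hf, w, hw, hQe, hQf, hef, -⟩ := h.triple m
  exact h.RR_of_fill hG hQe hml.symm (fun y hy => h.ort hml he hy) (hR e he hQe)
    ⟨f, hf, by rw [hef]; exact one_ne_zero⟩

lemma RR_map [Fintype F] [FiniteDimensional F V] (h : Blocks Q D k N) {κ : V ≃ₗ[F] V}
    (hκ : κ ∈ G) (hκO : κ ∈ OQ Q) {m l m' l' : Fin t} (h1 : ∀ x ∈ D m, κ x ∈ D m')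
    (h2 : ∀ x ∈ D l, κ x ∈ D l') (hR : RR Q G D m l) : RR Q G D m' l' := by
  intro e he hQe y hy
  have hm := Cfsg.Agent.Lib.Helper94.map_eq_of_forall_mem κ (D m) (D m')
    ((h.od.finrank_eq m).trans (h.od.finrank_eq m').symm) h1
  have hl := Cfsg.Agent.Lib.Helper94.map_eq_of_forall_mem κ (D l) (D l')
    ((h.od.finrank_eq l).trans (h.od.finrank_eq l').symm) h2
  rw [← hm] at he
  rw [← hl] at hy
  obtain ⟨e0, he0, rfl⟩ := he
  obtain ⟨y0, hy0, rfl⟩ := hy
  have hQe0 : Q e0 = 0 := by rw [← mem_OQ.1 hκO e0]; exact hQe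
  exact AE_map hκ hκO (hR e0 he0 hQe0 y0 hy0) hQe

lemma Om_le_of_RR [Fintype F] [FiniteDimensional F V] (h : Blocks Q D k N)
    (hG : ∀ φ ∈ Om Q, DecStab D φ → φ ∈ G) {m l : Fin t} (hml : m ≠ l) (hR : RR Q G D m l) :
    Om Q ≤ G := by
  have hall : ∀ l', l' ≠ m → RR Q G D m l' := by
    intro l' hl'
    by_cases hll : l' = l
    · subst hll; exact hR
    obtain ⟨κ, hκ, hκs, hk1, hk2⟩ := h.cyc m l l' hml hl'.symm (Ne.symm hll)
    exact h.RR_symm hG hl' (h.RR_map (hG κ hκ hκs) (Om_le_OQ Q hκ) hk1 hk2 hR)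
  obtain ⟨e, he, f, hf, w, hw, hQe, hQf, hef, -⟩ := h.triple m
  have hU : ∀ u ∈ D m, Q u = 0 → u ∈ UU Q G := by
    intro u hu hQu
    apply mem_UU_of_AE hQu
    intro v hv
    obtain ⟨a, ha, hsum⟩ := h.od.exists_family v
    rw [← hsum]
    apply AddSubgroup.sum_mem
    intro j _
    by_cases hj : j = m
    · subst hj
      refine h.mem_AE_blk hG hu (ha j) hQu ?_
      have h1 := h.od.B_sum a ha Finset.univ j u hu
      rw [if_pos (Finset.mem_univ j), hsum] at h1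
      change polar Q v u = polar Q (a j) u at h1
      rw [polar_comm, ← h1, polar_comm]
      exact hv
    · exact hall j hj u hu hQu (a j) (ha j)
  exact Om_le_of_UU h.nd h.dim (hU e he hQe) (hU f hf hQf) (by rw [hef]; exact one_ne_zero)

/-- **the filling criterion** -/
theorem GM [Fintype F] [FiniteDimensional F V] (h : Blocks Q D k N)
    (hG : ∀ φ ∈ Om Q, DecStab D φ → φ ∈ G) {c x : V} (hc : Q c = 0) (hc0 : c ≠ 0) {m : Fin t}
    (hcm : ∀ y ∈ D m, polar Q c y = 0) (hx : x ∈ AE Q G c hc)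
    (hxm : ∃ y ∈ D m, polar Q x y ≠ 0) : Om Q ≤ G := by
  obtain ⟨l, y, hy, hcy⟩ := h.exists_block_ne hc0
  have hml : m ≠ l := by
    rintro rfl
    exact hcy (hcm y hy)
  exact h.Om_le_of_RR hG hml
    (h.RR_of_fill hG hc hml hcm (h.fillm hG hc hcm hx hxm) ⟨y, hy, hcy⟩)

end Blocks

end Cfsg.Agent.Lib.Helper13.O
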