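import Mathlib
import Cfsg.Agent.Lib.Helper13.OrthDecA

set_option autoImplicit false
set_option linter.unusedSimpArgs false
set_option linter.unusedSectionVars false

/-! # Orthogonal decompositions: reflection classes -/

namespace Cfsg.Agent.Lib.Helper13.O

open QuadraticMap Module
open Cfsg.Agent.Lib.Helper44
open Cfsg.Agent.Lib.Helper94 (OrthDec DecStab)

variable {F V : Type*} [Field F] [AddCommGroup V] [Module F V]

local notation "perp" => LinearMap.BilinForm.orthogonal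

lemma refl_mul_refl_mem_Om [Fintype F] [FiniteDimensional F V] {Q : QuadraticForm F V}
    (hQ : (polarBilin Q).Nondegenerate) (h4 : finrank F V ≠ 4) {a b : V} (ha : Q a ≠ 0)
    (hab : Q a = Q b) : refl Q a * refl Q b ∈ Om Q := by
  have := prod_refl_mem_Om hQ h4 [a, b] (by
    intro v hv
    simp only [List.mem_cons, List.not_mem_nil, or_false] at hv
    rcases hv with rfl | rfl
    · exact ha
    · rw [← hab]; exact ha) (by simp) (by
    simp only [List.map_cons, List.map_nil, List.prod_cons, List.prod_nil, mul_one]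
    exact ⟨Q b, by rw [hab]⟩)
  simpa using this

lemma conj_two {Q : QuadraticForm F V} {G : Subgroup (V ≃ₗ[F] V)} {g : V ≃ₗ[F] V} (hg : g ∈ G)
    (hgO : g ∈ OQ Q) {a b : V} (hab : refl Q a * refl Q b ∈ G) :
    refl Q (g a) * refl Q (g b) ∈ G := by
  rw [← conj_refl hgO, ← conj_refl hgO]
  have e : g * refl Q a * g⁻¹ * (g * refl Q b * g⁻¹) = g * (refl Q a * refl Q b) * g⁻¹ := by group
  rw [e]
  exact G.mul_mem (G.mul_mem hg hab) (G.inv_mem hg)

/-- the vectors of norm `N` whose reflection is congruent modulo `G` to the reflections in the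
block vectors of norm `N` -/
def CC (Q : QuadraticForm F V) (G : Subgroup (V ≃ₗ[F] V)) {t : ℕ} (D : Fin t → Submodule F V)
    (N : F) : Set V :=
  {z | Q z = N ∧ ∀ a, Blk D a → Q a = N → refl Q z * refl Q a ∈ G}

namespace Blocks

variable {Q : QuadraticForm F V} {t : ℕ} {D : Fin t → Submodule F V} {k : ℕ} {N : F}
variable {G : Subgroup (V ≃ₗ[F] V)}

lemma decStab_of_blk [FiniteDimensional F V] (h : Blocks Q D k N) {φ : V ≃ₗ[F] V}
    (hφ : ∀ i, ∀ v ∈ D i, Blk D (φ v)) : DecStab D φ := by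
  by_contra hcon
  obtain ⟨x, ⟨j, hj⟩, hno⟩ := h.od.exists_not_mem {x | Blk D x} φ hcon hφ
  exact hno j hj

lemma blk_of_decStab {φ : V ≃ₗ[F] V} (hφ : DecStab D φ) {x : V} (hx : Blk D x) : Blk D (φ x) := by
  obtain ⟨σ, hσ⟩ := hφ
  obtain ⟨i, hi⟩ := hx
  exact ⟨σ i, by rw [← hσ i]; exact Submodule.mem_map_of_mem hi⟩

lemma exists_B (h : Blocks Q D k N) : ∃ a, Blk D a ∧ Q a = N := by
  obtain ⟨a, ha, -, hQa⟩ := h.T1 ⟨0, by have := h.ht; omega⟩ 0
  exact ⟨a, ⟨_, ha⟩, hQa⟩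

lemma refl_mul_refl_mem [Fintype F] [FiniteDimensional F V] (h : Blocks Q D k N)
    (hG : ∀ φ ∈ Om Q, DecStab D φ → φ ∈ G) {a b : V} (ha : Blk D a) (hb : Blk D b)
    (hQa : Q a = N) (hQb : Q b = N) : refl Q a * refl Q b ∈ G := by
  obtain ⟨i, hi⟩ := ha
  obtain ⟨j, hj⟩ := hb
  refine mem_of_stab hG (refl_mul_refl_mem_Om h.nd (by have := h.dim; omega)
    (by rw [hQa]; exact h.hN) (by rw [hQa, hQb])) ?_
  intro l x hx
  rw [LinearEquiv.mul_apply]
  exact h.refl_stab hi l _ (h.refl_stab hj l x hx)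

lemma blk_mem_CC [Fintype F] [FiniteDimensional F V] (h : Blocks Q D k N)
    (hG : ∀ φ ∈ Om Q, DecStab D φ → φ ∈ G) {a : V} (ha : Blk D a) (hQa : Q a = N) :
    a ∈ CC Q G D N :=
  ⟨hQa, fun _ hb hQb => h.refl_mul_refl_mem hG ha hb hQa hQb⟩

lemma mem_CC_of [Fintype F] [FiniteDimensional F V] (h : Blocks Q D k N)
    (hG : ∀ φ ∈ Om Q, DecStab D φ → φ ∈ G) {z a : V} (hz : Q z = N) (ha : a ∈ CC Q G D N)
    (hza : refl Q z * refl Q a ∈ G) : z ∈ CC Q G D N := by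
  refine ⟨hz, fun b hb hQb => ?_⟩
  have e : refl Q z * refl Q b = (refl Q z * refl Q a) * (refl Q a * refl Q b) := by
    rw [mul_assoc, ← mul_assoc (refl Q a), refl_mul_self, one_mul]
  rw [e]
  exact G.mul_mem hza (ha.2 b hb hQb)

lemma CC_mul (h : Blocks Q D k N) {z z' : V} (hz : z ∈ CC Q G D N) (hz' : z' ∈ CC Q G D N) :
    refl Q z * refl Q z' ∈ G := by
  obtain ⟨a, ha, hQa⟩ := h.exists_B
  have e : refl Q z * refl Q z' = (refl Q z * refl Q a) * (refl Q z' * refl Q a)⁻¹ := by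
    rw [mul_inv_rev, refl_inv, refl_inv, mul_assoc, ← mul_assoc (refl Q a), refl_mul_self, one_mul]
  rw [e]
  exact G.mul_mem (hz.2 a ha hQa) (G.inv_mem (hz'.2 a ha hQa))

lemma CC_map [Fintype F] [FiniteDimensional F V] (h : Blocks Q D k N)
    (hG : ∀ φ ∈ Om Q, DecStab D φ → φ ∈ G) {g : V ≃ₗ[F] V} (hg : g ∈ G) (hgO : g ∈ OQ Q)
    {z a : V} (hz : z ∈ CC Q G D N) (ha : a ∈ CC Q G D N) (hga : g a ∈ CC Q G D N) :
    g z ∈ CC Q G D N :=
  h.mem_CC_of hG (by rw [mem_OQ.1 hgO]; exact hz.1) hga (conj_two hg hgO (h.CC_mul hz ha))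

lemma CC_map_stab [Fintype F] [FiniteDimensional F V] (h : Blocks Q D k N)
    (hG : ∀ φ ∈ Om Q, DecStab D φ → φ ∈ G) {g : V ≃ₗ[F] V} (hg : g ∈ Om Q)
    (hs : ∀ j, ∀ x ∈ D j, g x ∈ D j) {z : V} (hz : z ∈ CC Q G D N) : g z ∈ CC Q G D N := by
  obtain ⟨a, ⟨i, hi⟩, hQa⟩ := h.exists_B
  exact h.CC_map hG (mem_of_stab hG hg hs) (Om_le_OQ Q hg) hz (h.blk_mem_CC hG ⟨i, hi⟩ hQa)
    (h.blk_mem_CC hG ⟨i, hs i a hi⟩ (by rw [mem_OQ.1 (Om_le_OQ Q hg)]; exact hQa))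

lemma CC_refl [Fintype F] [FiniteDimensional F V] (h : Blocks Q D k N)
    (hG : ∀ φ ∈ Om Q, DecStab D φ → φ ∈ G) {x z : V} (hx : x ∈ CC Q G D N)
    (hz : z ∈ CC Q G D N) : refl Q x z ∈ CC Q G D N := by
  refine h.mem_CC_of hG (by rw [mem_OQ.1 (refl_mem Q x)]; exact hz.1) hx ?_
  rw [← conj_refl (refl_mem Q x), refl_inv, mul_assoc, refl_mul_self, mul_one]
  exact h.CC_mul hx hz

lemma CC_AE (h : Blocks Q D k N) {z c : V} (hz : z ∈ CC Q G D N) (hzc : z + c ∈ CC Q G D N)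
    (hc : Q c = 0) (hc' : Q ((-N⁻¹) • c) = 0) : z ∈ AE Q G ((-N⁻¹) • c) hc' := by
  have hp : polar Q z c = 0 := by
    have h1 := hzc.1
    rw [QuadraticMap.map_add (⇑Q), hz.1, hc] at h1
    simpa using h1
  have hp' : polar Q ((-N⁻¹) • c) z = 0 := by
    rw [polar_smul_left, polar_comm, hp]; simp
  refine ⟨hp', ?_⟩
  have e : eichler Q ((-N⁻¹) • c) z hc' hp' = refl Q z * refl Q (z + c) := by
    ext x
    have h1 := refl_mul_refl_eq_eichler Q hc' hp' (by rw [hz.1]; exact h.hN) x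
    have h2 : z - Q z • ((-N⁻¹) • c) = z + c := by
      rw [hz.1, smul_smul, mul_neg, mul_inv_cancel₀ h.hN]; simp
    rw [h2] at h1
    rw [h1]
    simp [eichler]
  rw [e]
  exact h.CC_mul hz hzc

theorem Om_le_of_CC_add [Fintype F] [FiniteDimensional F V] (h : Blocks Q D k N)
    (hG : ∀ φ ∈ Om Q, DecStab D φ → φ ∈ G) {z c : V} (hz : z ∈ CC Q G D N)
    (hzc : z + c ∈ CC Q G D N) (hc : Q c = 0) (hc0 : c ≠ 0) {m : Fin t}
    (hcm : ∀ y ∈ D m, polar Q c y = 0) (hzm : ∃ y ∈ D m, polar Q z y ≠ 0) : Om Q ≤ G := by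
  have hc' : Q ((-N⁻¹) • c) = 0 := by rw [QuadraticMap.map_smul, hc]; simp
  refine h.GM hG hc' (smul_ne_zero (neg_ne_zero.2 (inv_ne_zero h.hN)) hc0) (m := m) ?_
    (h.CC_AE hz hzc hc hc') hzm
  intro y hy
  rw [polar_smul_left, hcm y hy]; simp

/-- an isometry mapping the block vectors of norm `N` to block vectors permutes the blocks -/
lemma decStab_of_B [FiniteDimensional F V] (h : Blocks Q D k N) {γ : V ≃ₗ[F] V} (hγ : γ ∈ OQ Q)
    (hB : ∀ a, Blk D a → Q a = N → Blk D (γ a)) : DecStab D γ := by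
  apply h.decStab_of_blk
  intro i
  have s1 : ∀ u ∈ D i, Q u = 0 → Blk D (γ u) := by
    intro u hu hQu
    obtain ⟨a, ha, hua, hQa⟩ := h.T1 i u
    obtain ⟨j, hj⟩ := hB a ⟨i, ha⟩ hQa
    have hQau : Q (a + u) = N := by
      rw [QuadraticMap.map_add (⇑Q), hQa, hQu, polar_comm, hua]; simp
    obtain ⟨j', hj'⟩ := hB (a + u) ⟨i, (D i).add_mem ha hu⟩ hQau
    have hne : polar Q (γ a) (γ (a + u)) ≠ 0 := by
      rw [OQ_polar hγ, polar_add_right, polar_self, hQa, polar_comm Q a u, hua]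
      simp [h.two, h.hN]
    have hjj := h.same hj hj' hne
    subst hjj
    refine ⟨j, ?_⟩
    have := (D j).sub_mem hj' hj
    rwa [map_add, add_sub_cancel_left] at this
  obtain ⟨e, he, f, hf, w, hw, hQe, hQf, hef, -⟩ := h.triple i
  obtain ⟨j, hj⟩ := s1 e he hQe
  have key : ∀ u ∈ D i, Q u = 0 → ∀ x, γ x ∈ D j → polar Q u x ≠ 0 → γ u ∈ D j := by
    intro u hu hQu x hx hux
    obtain ⟨j', hj'⟩ := s1 u hu hQu
    have hjj := h.same hj' hx (by rw [OQ_polar hγ]; exact hux)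
    exact hjj ▸ hj'
  have hfj : γ f ∈ D j := key f hf hQf e hj (by rw [polar_comm, hef]; exact one_ne_zero)
  have s3 : ∀ u ∈ D i, Q u = 0 → γ u ∈ D j := by
    intro u hu hQu
    by_cases h1 : polar Q u e = 0
    · by_cases h2 : polar Q u f = 0
      · have h3 : γ (u + e) ∈ D j := by
          refine key (u + e) ((D i).add_mem hu he) ?_ f hfj ?_
          · rw [QuadraticMap.map_add (⇑Q), hQu, hQe, h1]; simp
          · rw [polar_add_left, h2, hef]; simp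
        have := (D j).sub_mem h3 hj
        rwa [map_add, add_sub_cancel_right] at this
      · exact key u hu hQu f hfj h2
    · exact key u hu hQu e hj h1
  intro v hv
  exact ⟨j, span_sing he hf hQe hQf hef ((D j).comap (γ : V →ₗ[F] V)).toAddSubgroup s3 v hv⟩

/-- if `r_{y₁} r_{y₂}` permutes the blocks, the components of `y₁` lie in `⟨y₁, y₂⟩` -/
lemma comp_mem_span [FiniteDimensional F V] (h : Blocks Q D k N) {y1 y2 : V} (hy1 : Q y1 ≠ 0)
    (h12 : polar Q y1 y2 = 0) (hs : DecStab D (refl Q y1 * refl Q y2)) {j : Fin t} {p p' : V}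
    (hp : p ∈ D j) (hp' : ∀ y ∈ D j, polar Q p' y = 0) (hsum : y1 = p + p') :
    ∃ α β : F, p = α • y1 + β • y2 := by
  classical
  obtain ⟨σ, hσ⟩ := hs
  have hfix : ∀ i, σ i = i := by
    intro i
    have hfr := finrank_inf_orth h.nd (D i) {y1, y2}
    have hcard : ({y1, y2} : Finset V).card ≤ 2 := Finset.card_le_two
    have hne : D i ⊓ O.orth Q {y1, y2} ≠ ⊥ := by
      intro hb
      rw [hb, finrank_bot, h.od.finrank_eq] at hfr
      have := h.hk
      omega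
    obtain ⟨x, hx, hx0⟩ := Submodule.exists_mem_ne_zero_of_ne_bot hne
    have hxs := mem_orth.1 hx.2
    have hγx : (refl Q y1 * refl Q y2) x = x := by
      rw [LinearEquiv.mul_apply, refl_apply_of_polar_eq_zero Q (hxs y2 (by simp)),
        refl_apply_of_polar_eq_zero Q (hxs y1 (by simp))]
    have hxσ : x ∈ D (σ i) := by
      rw [← hσ i]
      exact ⟨x, hx.1, hγx⟩
    by_contra hne'
    obtain ⟨z, hz, hzx⟩ := h.od.nd i x hx.1 hx0
    exact hzx (h.ort (Ne.symm hne') hz hxσ)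
  have hst : ∀ x ∈ D j, (refl Q y1 * refl Q y2) x ∈ D j := by
    intro x hx
    have : (refl Q y1 * refl Q y2) x ∈ D (σ j) := by
      rw [← hσ j]; exact Submodule.mem_map_of_mem hx
    rwa [hfix j] at this
  have hγO : refl Q y1 * refl Q y2 ∈ OQ Q := (OQ Q).mul_mem (refl_mem Q y1) (refl_mem Q y2)
  have hp'm : p' ∈ perp (polarBilin Q) (D j) :=
    mem_perp.2 (fun y hy => by rw [polar_comm]; exact hp' y hy)
  have hst' := (h.toOD j).stab_symm h.nd hγO hst p' hp'm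
  have hγy : (refl Q y1 * refl Q y2) y1 = -y1 := by
    rw [LinearEquiv.mul_apply,
      refl_apply_of_polar_eq_zero Q (v := y2) (x := y1) (by rw [polar_comm]; exact h12),
      refl_apply_self Q hy1]
  have hzero : (refl Q y1 * refl Q y2) p + p = 0 := by
    have h1 : (refl Q y1 * refl Q y2) p + p ∈ D j ⊓ perp (polarBilin Q) (D j) := by
      refine ⟨(D j).add_mem (hst p hp) hp, ?_⟩
      have e : (refl Q y1 * refl Q y2) p + p = -((refl Q y1 * refl Q y2) p' + p') := by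
        have h2 : (refl Q y1 * refl Q y2) (p + p') = -(p + p') := by rw [← hsum]; exact hγy
        rw [map_add] at h2
        rw [eq_neg_iff_add_eq_zero]
        have : (refl Q y1 * refl Q y2) p + p + ((refl Q y1 * refl Q y2) p' + p')
            = ((refl Q y1 * refl Q y2) p + (refl Q y1 * refl Q y2) p') + (p + p') := by abel
        rw [this, h2]; abel
      rw [e]
      exact Submodule.neg_mem _ (Submodule.add_mem _ hst' hp'm)
    rw [(h.toOD j).compl.inf_eq_bot, Submodule.mem_bot] at h1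
    exact h1
  rw [LinearEquiv.mul_apply, refl_apply Q y2 p, refl_apply, polar_sub_right, polar_smul_right, h12]
    at hzero
  simp only [smul_eq_mul, mul_zero, sub_zero] at hzero
  refine ⟨2⁻¹ * ((Q y1)⁻¹ * polar Q y1 p), 2⁻¹ * ((Q y2)⁻¹ * polar Q y2 p), ?_⟩
  have h2 := h.two
  have e2 : (2 : F) • p = ((Q y1)⁻¹ * polar Q y1 p) • y1 + ((Q y2)⁻¹ * polar Q y2 p) • y2 := by
    have : (2 : F) • p = (p - ((Q y2)⁻¹ * polar Q y2 p) • y2 - ((Q y1)⁻¹ * polar Q y1 p) • y1 + p)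
        + (((Q y1)⁻¹ * polar Q y1 p) • y1 + ((Q y2)⁻¹ * polar Q y2 p) • y2) := by module
    rw [this, hzero, zero_add]
  have e3 : p = (2 : F)⁻¹ • ((2 : F) • p) := by rw [smul_smul, inv_mul_cancel₀ h2, one_smul]
  calc p = (2 : F)⁻¹ • ((2 : F) • p) := e3
    _ = _ := by rw [e2, smul_add, smul_smul, smul_smul]

/-- **B2** -/
theorem decStab_of_CC_blk [Fintype F] [FiniteDimensional F V] (h : Blocks Q D k N)
    (hG : ∀ φ ∈ Om Q, DecStab D φ → φ ∈ G) (hGO : G ≤ Om Q)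
    (hB2 : ∀ z ∈ CC Q G D N, Blk D z) {φ0 : V ≃ₗ[F] V} (hφ0 : φ0 ∈ G) : DecStab D φ0 := by
  have star : ∀ γ ∈ G, ∀ a, Blk D a → Q a = N → Blk D (γ a) → DecStab D γ := by
    intro γ hγ a ha hQa hγa
    have hγO := Om_le_OQ Q (hGO hγ)
    apply h.decStab_of_B hγO
    intro a' ha' hQa'
    apply hB2
    exact h.CC_map hG hγ hγO (h.blk_mem_CC hG ha' hQa') (h.blk_mem_CC hG ha hQa)
      (h.blk_mem_CC hG hγa (by rw [mem_OQ.1 hγO]; exact hQa))
  have hφO := Om_le_OQ Q (hGO hφ0)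
  have ht := h.ht
  obtain ⟨b, hb, hQb⟩ := h.exists_B
  obtain ⟨a1, ha1, hba1, hQa1⟩ := h.T1 ⟨0, by omega⟩ (φ0⁻¹ b)
  obtain ⟨a2, ha2, hba2, hQa2⟩ := h.T1 ⟨1, by omega⟩ (φ0⁻¹ b)
  obtain ⟨a3, ha3, hba3, hQa3⟩ := h.T1 ⟨2, by omega⟩ (φ0⁻¹ b)
  have h12 : polar Q a1 a2 = 0 := h.ort (by simp [Fin.ext_iff]) ha1 ha2
  have h13 : polar Q a1 a3 = 0 := h.ort (by simp [Fin.ext_iff]) ha1 ha3
  have h23 : polar Q a2 a3 = 0 := h.ort (by simp [Fin.ext_iff]) ha2 ha3
  have hyb : ∀ a, polar Q (φ0⁻¹ b) a = 0 → polar Q (φ0 a) b = 0 := by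
    intro a ha
    rw [← OQ_polar_inv hφO, polar_comm]; exact ha
  have hQy : ∀ a, Q a = N → Q (φ0 a) ≠ 0 := by
    intro a ha
    rw [mem_OQ.1 hφO, ha]; exact h.hN
  have hdec : ∀ a a', Blk D a → Blk D a' → Q a = N → Q a' = N → polar Q (φ0⁻¹ b) a = 0 →
      polar Q (φ0⁻¹ b) a' = 0 → DecStab D (refl Q (φ0 a) * refl Q (φ0 a')) := by
    intro a a' ha ha' hQa hQa' hba hba'
    refine star _ (conj_two hφ0 hφO (h.refl_mul_refl_mem hG ha ha' hQa hQa')) b hb hQb ?_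
    rw [LinearEquiv.mul_apply, refl_apply_of_polar_eq_zero Q (hyb a' hba'),
      refl_apply_of_polar_eq_zero Q (hyb a hba)]
    exact hb
  have hd12 := hdec a1 a2 ⟨_, ha1⟩ ⟨_, ha2⟩ hQa1 hQa2 hba1 hba2
  have hd13 := hdec a1 a3 ⟨_, ha1⟩ ⟨_, ha3⟩ hQa1 hQa3 hba1 hba3
  have hy10 : φ0 a1 ≠ 0 := by
    intro h0
    apply hQy a1 hQa1
    rw [h0]; simp
  obtain ⟨j, y, hy, hy1y⟩ := h.exists_block_ne hy10
  obtain ⟨p, hp, p', hp', hsum⟩ := h.split j (φ0 a1)
  obtain ⟨α, β, hαβ⟩ := h.comp_mem_span (hQy a1 hQa1) (by rw [OQ_polar hφO]; exact h12) hd12 hp hp'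
    hsum
  obtain ⟨α', β', hαβ'⟩ := h.comp_mem_span (hQy a1 hQa1) (by rw [OQ_polar hφO]; exact h13) hd13 hp
    hp' hsum
  have hβ : β = 0 := by
    have h1 : polar Q p (φ0 a2) = β * (2 * N) := by
      rw [hαβ, polar_add_left, polar_smul_left, polar_smul_left, OQ_polar hφO, h12, polar_self,
        mem_OQ.1 hφO, hQa2]
      simp
    have h2 : polar Q p (φ0 a2) = 0 := by
      rw [hαβ', polar_add_left, polar_smul_left, polar_smul_left, OQ_polar hφO, h12, OQ_polar hφO,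
        polar_comm Q a3 a2, h23]
      simp
    rw [h2] at h1
    rcases mul_eq_zero.1 h1.symm with h3 | h3
    · exact h3
    · exact absurd h3 (mul_ne_zero h.two h.hN)
  rw [hβ, zero_smul, add_zero] at hαβ
  have hα : α ≠ 0 := by
    rintro rfl
    rw [zero_smul] at hαβ
    apply hy1y
    rw [hsum, hαβ, zero_add]
    exact hp' y hy
  refine star φ0 hφ0 a1 ⟨_, ha1⟩ hQa1 ⟨j, ?_⟩
  have : φ0 a1 = α⁻¹ • p := by rw [hαβ, smul_smul, inv_mul_cancel₀ hα, one_smul]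
  rw [this]
  exact (D j).smul_mem _ hp

end Blocks

end Cfsg.Agent.Lib.Helper13.O
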