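import Mathlib
import Cfsg.Agent.Lib.Helper13.OrthDecB

set_option autoImplicit false
set_option linter.unusedSimpArgs false
set_option linter.unusedSectionVars false

/-! # Orthogonal decompositions: the maximality core -/

namespace Cfsg.Agent.Lib.Helper13.O

open QuadraticMap Module
open Cfsg.Agent.Lib.Helper44
open Cfsg.Agent.Lib.Helper94 (OrthDec DecStab)

variable {F V : Type*} [Field F] [AddCommGroup V] [Module F V]

local notation "perp" => LinearMap.BilinForm.orthogonal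

lemma exists_sq_ne_one [Fintype F] (hq : 4 ≤ Fintype.card F) : ∃ μ : F, μ ≠ 0 ∧ μ * μ ≠ 1 := by
  classical
  have hcard : ({0, 1, -1} : Finset F).card < (Finset.univ : Finset F).card := by
    have := Finset.card_le_three (a := (0 : F)) (b := 1) (c := -1)
    rw [Finset.card_univ]
    omega
  obtain ⟨μ, -, hμ⟩ := Finset.exists_mem_notMem_of_card_lt_card hcard
  simp only [Finset.mem_insert, Finset.mem_singleton, not_or] at hμ
  refine ⟨μ, hμ.1, fun h => ?_⟩
  have : (μ - 1) * (μ + 1) = 0 := by linear_combination h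
  rcases mul_eq_zero.1 this with h1 | h1
  · exact hμ.2.1 (by linear_combination h1)
  · exact hμ.2.2 (by linear_combination h1)

lemma conic [Fintype F] (hq : 4 ≤ Fintype.card F) (h2 : (2 : F) ≠ 0) (M : F) :
    ∃ l μ : F, l ≠ 0 ∧ 1 - l * l * M = μ * μ := by
  classical
  obtain ⟨s, hs0, hs⟩ : ∃ s : F, s ≠ 0 ∧ M + s * s ≠ 0 := by
    by_cases hr : ∃ r : F, r * r = -M
    · obtain ⟨r, hr⟩ := hr
      have hcard : ({0, r, -r} : Finset F).card < (Finset.univ : Finset F).card := by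
        have := Finset.card_le_three (a := (0 : F)) (b := r) (c := -r)
        rw [Finset.card_univ]
        omega
      obtain ⟨s, -, hs⟩ := Finset.exists_mem_notMem_of_card_lt_card hcard
      simp only [Finset.mem_insert, Finset.mem_singleton, not_or] at hs
      refine ⟨s, hs.1, fun h => ?_⟩
      have : (s - r) * (s + r) = 0 := by linear_combination h - hr
      rcases mul_eq_zero.1 this with h1 | h1
      · exact hs.2.1 (by linear_combination h1)
      · exact hs.2.2 (by linear_combination h1)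
    · refine ⟨1, one_ne_zero, fun h => hr ⟨1, by linear_combination h⟩⟩
  refine ⟨-2 * s / (M + s * s), 1 + (-2 * s / (M + s * s)) * s, ?_, ?_⟩
  · exact div_ne_zero (mul_ne_zero (neg_ne_zero.2 h2) hs0) hs
  · have hl : (-2 * s / (M + s * s)) * (M + s * s) = -2 * s := div_mul_cancel₀ _ hs
    linear_combination (-(-2 * s / (M + s * s))) * hl

namespace Blocks

variable {Q : QuadraticForm F V} {t : ℕ} {D : Fin t → Submodule F V} {k : ℕ} {N : F}
variable {G : Subgroup (V ≃ₗ[F] V)}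

theorem S1 [Fintype F] [FiniteDimensional F V] (h : Blocks Q D k N)
    (hG : ∀ φ ∈ Om Q, DecStab D φ → φ ∈ G) {z u d : V} (hz : z ∈ CC Q G D N) {i m : Fin t}
    (him : i ≠ m) (hu : u ∈ D i) (hu0 : u ≠ 0) (hQu : Q u = 0) (huz : polar Q u z = 0)
    (hd : d ∈ D i) (hud : polar Q u d = 0) (hdz : polar Q d z ≠ 0)
    (hzm : ∃ y ∈ D m, polar Q z y ≠ 0) : Om Q ≤ G := by
  have hE := h.CC_map_stab hG (eichler_mem_Om h.nd (by have := h.dim; omega) u d hQu hud)
    (h.eichler_stab hu hd hQu hud) hz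
  have e : eichler Q u d hQu hud z = z + polar Q d z • u := by
    rw [eichler_apply, huz]; simp
  rw [e] at hE
  refine h.Om_le_of_CC_add hG hz hE (by rw [QuadraticMap.map_smul, hQu]; simp)
    (smul_ne_zero hdz hu0) (m := m) ?_ hzm
  intro y hy
  rw [polar_smul_left, h.ort him hu hy]; simp

theorem B3_five [Fintype F] [FiniteDimensional F V] (h : Blocks Q D k N)
    (hG : ∀ φ ∈ Om Q, DecStab D φ → φ ∈ G) (h5 : 5 ≤ k) {z : V} (hz : z ∈ CC Q G D N)
    (hzb : ¬ Blk D z) : Om Q ≤ G := by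
  classical
  obtain ⟨i, m, him, ⟨d, hd, hzd⟩, hzm⟩ := h.two_blocks hzb
  have hcard : ({z, d} : Finset V).card ≤ 2 := Finset.card_le_two
  obtain ⟨u, hu, hus, hu0, hQu⟩ := exists_sing_inf h.nd (D i) {z, d}
    (by rw [h.od.finrank_eq]; omega)
  exact h.S1 hG hz him hu hu0 hQu (by rw [polar_comm]; exact hus z (by simp)) hd
    (by rw [polar_comm]; exact hus d (by simp)) (by rw [polar_comm]; exact hzd) hzm

theorem S2 [Fintype F] [FiniteDimensional F V] (h : Blocks Q D k N)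
    (hG : ∀ φ ∈ Om Q, DecStab D φ → φ ∈ G) (hq : ∃ μ : F, μ ≠ 0 ∧ μ * μ ≠ 1) {z c z' : V}
    (hz : z ∈ CC Q G D N) {i m : Fin t} (him : i ≠ m) (hc : c ∈ D i) (hc0 : c ≠ 0)
    (hQc : Q c = 0) (hz' : ∀ y ∈ D i, polar Q z' y = 0) (hsum : z = c + z')
    (hzm : ∃ y ∈ D m, polar Q z y ≠ 0) : Om Q ≤ G := by
  obtain ⟨μ, hμ0, hμ1⟩ := hq
  obtain ⟨c', hc', hQc', hcc'⟩ := (h.toOD i).partner h.nd hc hc0 hQc
  have hν : μ * μ ≠ 0 := mul_ne_zero hμ0 hμ0
  have hgOm : (([c - c', c - (μ * μ) • c'] : List V).map (refl Q)).prod ∈ Om Q := by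
    refine prod_refl_mem_Om h.nd (by have := h.dim; omega) _ (Q_hyp_list_ne Q hQc hQc' hcc' hν)
      (by simp) ?_
    rw [Q_hyp_list Q hQc hQc' hcc' (μ * μ)]
    exact ⟨μ, rfl⟩
  have hst : ∀ j, ∀ x ∈ D j, (([c - c', c - (μ * μ) • c'] : List V).map (refl Q)).prod x ∈ D j := by
    intro j
    refine prod_refl_mem_of_forall Q (D j) _ (fun v hv x hx => ?_)
    refine h.refl_stab (i := i) ?_ j x hx
    simp only [List.mem_cons, List.not_mem_nil, or_false] at hv
    rcases hv with rfl | rfl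
    · exact (D i).sub_mem hc hc'
    · exact (D i).sub_mem hc ((D i).smul_mem _ hc')
  have hcz : polar Q c z = 0 := by
    rw [hsum, polar_add_right, polar_self, hQc, polar_comm Q c z', hz' c hc]; simp
  have hc'z : polar Q c' z = 1 := by
    rw [hsum, polar_add_right, polar_comm Q c' c, hcc', polar_comm Q c' z', hz' c' hc']; simp
  have hE := h.CC_map_stab hG hgOm hst hz
  rw [hyp_rotation_apply Q hQc hQc' hcc' hν hcz, hc'z, mul_one] at hE
  refine h.Om_le_of_CC_add hG hz hE (by rw [QuadraticMap.map_smul, hQc]; simp)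
    (smul_ne_zero (sub_ne_zero.2 hμ1) hc0) (m := m) ?_ hzm
  intro y hy
  rw [polar_smul_left, h.ort him hc hy]; simp

lemma T2 (h : Blocks Q D k N) {i : Fin t} {v : V} (hv : v ∈ D i) {μ : F} (hμ : μ ≠ 0)
    (hQv : Q v = N * (μ * μ)) : ∃ u ∈ D i, u ≠ 0 ∧ Q u = 0 ∧ polar Q u v = 0 := by
  obtain ⟨e, he, f, hf, w, hw, hQe, hQf, hef, hew, hfw, hQw⟩ := h.triple i
  have he0 : e ≠ 0 := by
    rintro rfl
    simp at hef
  have hQv1 : Q (μ⁻¹ • v) = N := by
    rw [QuadraticMap.map_smul, hQv, smul_eq_mul]; field_simp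
  have hv1 : μ⁻¹ • v ∈ D i := (D i).smul_mem _ hv
  have key : ∀ y ∈ D i, ∀ s : F, refl Q y w = s • (μ⁻¹ • v) → s ≠ 0 →
      ∃ u ∈ D i, u ≠ 0 ∧ Q u = 0 ∧ polar Q u v = 0 := by
    intro y hy s hyw hs
    refine ⟨refl Q y e, h.refl_stab hy i e he, ?_, by rw [mem_OQ.1 (refl_mem Q y)]; exact hQe, ?_⟩
    · intro h0
      exact he0 ((refl Q y).injective (by rw [h0, map_zero]))
    · have h1 : polar Q (refl Q y e) (refl Q y w) = 0 := by rw [OQ_polar (refl_mem Q y)]; exact hew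
      rw [hyw, polar_smul_right, polar_smul_right, smul_eq_mul, smul_eq_mul] at h1
      rcases mul_eq_zero.1 h1 with h2 | h2
      · exact absurd h2 hs
      · rcases mul_eq_zero.1 h2 with h3 | h3
        · exact absurd h3 (inv_ne_zero hμ)
        · exact h3
  by_cases h1 : Q (w - μ⁻¹ • v) = 0
  · have h2 : Q (w - -(μ⁻¹ • v)) ≠ 0 := by
      intro h3
      have e1 := Q_add_smul Q w (μ⁻¹ • v) (-1)
      have e2 := Q_add_smul Q w (μ⁻¹ • v) 1
      simp only [neg_smul, one_smul, ← sub_eq_add_neg] at e1 e2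
      rw [sub_neg_eq_add] at h3
      rw [h1, hQw, hQv1] at e1
      rw [h3, hQw, hQv1] at e2
      have : (2 : F) * 2 * N = 0 := by linear_combination -e1 - e2
      exact (mul_ne_zero (mul_ne_zero h.two h.two) h.hN) this
    have h3 := refl_sub_apply (Q := Q) (x := -(μ⁻¹ • v)) (y := w)
      (by rw [QuadraticMap.map_neg, hQw, hQv1]) h2
    exact key _ ((D i).sub_mem hw ((D i).neg_mem hv1)) (-1) (by rw [h3]; simp) (by simp)
  · have h3 := refl_sub_apply (Q := Q) (x := μ⁻¹ • v) (y := w) (by rw [hQw, hQv1]) h1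
    exact key _ ((D i).sub_mem hw hv1) 1 (by rw [h3]; simp) one_ne_zero

theorem LB [Fintype F] [FiniteDimensional F V] (h : Blocks Q D k N)
    (hG : ∀ φ ∈ Om Q, DecStab D φ → φ ∈ G) (hq : ∃ μ : F, μ ≠ 0 ∧ μ * μ ≠ 1) {z v z' : V}
    (hz : z ∈ CC Q G D N) {i m : Fin t} (him : i ≠ m) (hv : v ∈ D i) (hv0 : v ≠ 0)
    (hz' : ∀ y ∈ D i, polar Q z' y = 0) (hsum : z = v + z')
    (hzm : ∃ y ∈ D m, polar Q z y ≠ 0) {μ : F} (hQv : Q v = N * (μ * μ)) : Om Q ≤ G := by
  by_cases hμ : μ = 0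
  · exact h.S2 hG hq hz him hv hv0 (by rw [hQv, hμ]; simp) hz' hsum hzm
  · obtain ⟨u, hu, hu0, hQu, huv⟩ := h.T2 hv hμ hQv
    refine h.S1 hG hz him hu hu0 hQu ?_ hv huv ?_ hzm
    · rw [hsum, polar_add_right, huv, polar_comm Q u z', hz' u hu]; simp
    · rw [hsum, polar_add_right, polar_self, polar_comm Q v z', hz' v hv, hQv]
      simp [h.two, h.hN, hμ]

theorem B3_q [Fintype F] [FiniteDimensional F V] (h : Blocks Q D k N)
    (hG : ∀ φ ∈ Om Q, DecStab D φ → φ ∈ G) (hq : 4 ≤ Fintype.card F) {z : V}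
    (hz : z ∈ CC Q G D N) (hzb : ¬ Blk D z) : Om Q ≤ G := by
  have hq' := exists_sq_ne_one (F := F) hq
  obtain ⟨i, m, him, ⟨y₀, hy₀, hzy₀⟩, hzm⟩ := h.two_blocks hzb
  obtain ⟨v, hv, z', hz', hsum⟩ := h.split i z
  have hv0 : v ≠ 0 := by
    rintro rfl
    apply hzy₀
    rw [hsum, zero_add]; exact hz' y₀ hy₀
  by_cases hsq : ∃ μ : F, Q v = N * (μ * μ)
  · obtain ⟨μ, hμ⟩ := hsq
    exact h.LB hG hq' hz him hv hv0 hz' hsum hzm hμ
  have hQv : Q v ≠ 0 := fun h0 => hsq ⟨0, by rw [h0]; simp⟩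
  have hvz' : polar Q v z' = 0 := by rw [polar_comm]; exact hz' v hv
  obtain ⟨e, he, f, hf, w, hw, hQe, hQf, hef, hew, hfw, hQw⟩ := h.triple i
  have he0 : e ≠ 0 := by
    rintro rfl
    simp at hef
  by_cases hev : polar Q e v = 0
  · refine h.S1 hG hz him he he0 hQe ?_ hv hev ?_ hzm
    · rw [hsum, polar_add_right, hev, polar_comm Q e z', hz' e he]; simp
    · rw [hsum, polar_add_right, polar_self, hvz']
      simp [h.two, hQv]
  have hN := h.hN
  have hNz : N = Q v + Q z' := by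
    rw [← hz.1, hsum, QuadraticMap.map_add (⇑Q), hvz']; simp
  obtain ⟨l, μ, hl0, hlμ⟩ := conic hq h.two (Q z' / N)
  set x : F := (l * N - polar Q w v) / polar Q e v with hx
  set a : V := w + x • e with ha
  have haD : a ∈ D i := (D i).add_mem hw ((D i).smul_mem _ he)
  have hQa : Q a = N := by
    rw [ha, Q_add_smul, hQw, hQe, polar_comm Q w e, hew]; ring
  have hav : polar Q a v = l * N := by
    rw [ha, polar_add_left, polar_smul_left, smul_eq_mul, hx]; field_simp; ring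
  have hza : polar Q z a = l * N := by
    rw [hsum, polar_add_left, polar_comm Q v a, hav, hz' a haD, add_zero]
  have hz2 := h.CC_refl hG hz (h.blk_mem_CC hG ⟨i, haD⟩ hQa)
  have e1 : refl Q z a = (a - l • v) + (-l) • z' := by
    rw [refl_apply, hz.1, hza]
    have : N⁻¹ * (l * N) = l := by field_simp
    rw [this]
    nth_rewrite 1 [hsum]
    module
  refine h.LB hG hq' hz2 him ((D i).sub_mem haD ((D i).smul_mem l hv)) ?_ ?_ e1 ?_ (μ := μ) ?_
  · intro h0
    apply hsq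
    refine ⟨l⁻¹, ?_⟩
    have h1 : a = l • v := sub_eq_zero.1 h0
    have h2 : N = l * l * Q v := by
      rw [← hQa, h1, QuadraticMap.map_smul, smul_eq_mul]
    rw [h2]; field_simp
  · intro y hy
    rw [polar_smul_left, hz' y hy]; simp
  · obtain ⟨y, hy, hzy⟩ := hzm
    refine ⟨y, hy, ?_⟩
    rw [refl_apply, polar_sub_left, polar_smul_left, h.ort him haD hy, hz.1, hza]
    simp only [smul_eq_mul, zero_sub, neg_ne_zero]
    exact mul_ne_zero (mul_ne_zero (inv_ne_zero hN) (mul_ne_zero hl0 hN)) hzy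
  · have h1 : Q (a - l • v) = Q a + l * l * Q v - l * polar Q a v := by
      rw [sub_eq_add_neg, ← neg_smul, Q_add_smul]; ring
    rw [h1, hQa, hav]
    have h2 : N - l * l * Q z' = N * (μ * μ) := by
      rw [← hlμ]; field_simp
    rw [← h2]
    linear_combination (l * l) * hNz.symm - (l * l) * hNz.symm + (-(l * l)) * hNz

/-- **the maximality core for decompositions into isometric blocks** -/
theorem core [Fintype F] [FiniteDimensional F V] (h : Blocks Q D k N)
    (hreg : 5 ≤ k ∨ 4 ≤ Fintype.card F) (G : Subgroup (V ≃ₗ[F] V))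
    (hG : ∀ φ ∈ Om Q, DecStab D φ → φ ∈ G) (hGO : G ≤ Om Q) (φ0 : V ≃ₗ[F] V) (hφ0 : φ0 ∈ G)
    (hns : ¬ DecStab D φ0) : Om Q ≤ G := by
  by_contra hcon
  apply hns
  refine h.decStab_of_CC_blk hG hGO ?_ hφ0
  intro z hz
  by_contra hzb
  apply hcon
  rcases hreg with h5 | hq
  · exact h.B3_five hG h5 hz hzb
  · exact h.B3_q hG hq hz hzb

theorem ne [Fintype F] [FiniteDimensional F V] (h : Blocks Q D k N) :
    ∃ φ ∈ Om Q, ¬ DecStab D φ := by
  have ht := h.ht
  obtain ⟨e, he, f, hf, w, hw, hQe, hQf, hef, hew, hfw, hQw⟩ := h.triple ⟨0, by omega⟩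
  obtain ⟨a, ha, -, hQa⟩ := h.T1 ⟨1, by omega⟩ 0
  have h01 : (⟨0, by omega⟩ : Fin t) ≠ ⟨1, by omega⟩ := by simp [Fin.ext_iff]
  have hea : polar Q e a = 0 := h.ort h01 he ha
  have hfa : polar Q f a = 0 := h.ort h01 hf ha
  refine ⟨eichler Q e a hQe hea, eichler_mem_Om h.nd (by have := h.dim; omega) _ _ _ _, ?_⟩
  intro hs
  obtain ⟨j, hj⟩ := blk_of_decStab hs ⟨_, hf⟩
  rw [eichler_apply, polar_comm Q a f, hfa, hef, hQa] at hj
  simp only [zero_smul, add_zero, one_smul, mul_one] at hj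
  have h1 : j = ⟨1, by omega⟩ := by
    refine h.same hj ha ?_
    rw [polar_sub_left, polar_sub_left, polar_smul_left, hfa, hea, polar_self, hQa]
    simp [h.two, h.hN]
  have h0 : j = ⟨0, by omega⟩ := by
    refine h.same hj he ?_
    rw [polar_sub_left, polar_sub_left, polar_smul_left, polar_comm Q f e, hef, polar_comm Q a e, hea,
      polar_self, hQe]
    simp
  exact h01 (h0.symm.trans h1)

end Blocks

end Cfsg.Agent.Lib.Helper13.O
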