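import Mathlib
import Cfsg.Agent.Lib.Helper13.OrthDecC

set_option autoImplicit false
set_option linter.unusedSimpArgs false
set_option linter.unusedSectionVars false

/-! # Orthogonal decompositions: block permutations and construction of the data -/

namespace Cfsg.Agent.Lib.Helper13.O

open QuadraticMap Module
open Cfsg.Agent.Lib.Helper44
open Cfsg.Agent.Lib.Helper94 (OrthDec DecStab)
open scoped commutatorElement

variable {F V : Type*} [Field F] [AddCommGroup V] [Module F V]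

local notation "perp" => LinearMap.BilinForm.orthogonal

lemma exists_OQ_of_linear [FiniteDimensional F V] {Q : QuadraticForm F V}
    (hQ : (polarBilin Q).Nondegenerate) (s0 : V →ₗ[F] V) (hs : ∀ x, Q (s0 x) = Q x) :
    ∃ s ∈ OQ Q, ∀ x, s x = s0 x := by
  have hpol : ∀ x y, polar Q (s0 x) (s0 y) = polar Q x y := by
    intro x y
    simp only [polar, ← map_add, hs]
  have hinj : Function.Injective s0 := by
    rw [injective_iff_map_eq_zero]
    intro x hx
    by_contra hx0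
    obtain ⟨z, hz⟩ := polar_nondeg_exists hQ hx0
    have := hpol z x
    rw [hx, hz] at this
    simp at this
  refine ⟨LinearEquiv.ofInjectiveEndo s0 hinj, fun x => ?_, fun x => ?_⟩
  · rw [LinearEquiv.coe_ofInjectiveEndo]; exact hs x
  · rw [LinearEquiv.coe_ofInjectiveEndo]

lemma exists_swap [FiniteDimensional F V] {Q : QuadraticForm F V}
    (hQ : (polarBilin Q).Nondegenerate) {A B : Submodule F V}
    (hA : OD Q A (perp (polarBilin Q) A)) (hB : OD Q B (perp (polarBilin Q) B))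
    (hAB : ∀ x ∈ A, ∀ y ∈ B, polar Q x y = 0) (e : A ≃ₗ[F] B)
    (he : ∀ x : A, Q ((e x : B) : V) = Q (x : V)) :
    ∃ s ∈ OQ Q, (∀ x ∈ A, s x ∈ B) ∧ (∀ x ∈ B, s x ∈ A) ∧
      (∀ x, (∀ y ∈ A, polar Q y x = 0) → (∀ y ∈ B, polar Q y x = 0) → s x = x) := by
  set Pa := Submodule.linearProjOfIsCompl A (perp (polarBilin Q) A) hA.compl with hPa
  set Pb := Submodule.linearProjOfIsCompl B (perp (polarBilin Q) B) hB.compl with hPb
  set s0 : V →ₗ[F] V := LinearMap.id - A.subtype ∘ₗ Pa - B.subtype ∘ₗ Pb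
    + B.subtype ∘ₗ (e : A →ₗ[F] B) ∘ₗ Pa + A.subtype ∘ₗ (e.symm : B →ₗ[F] A) ∘ₗ Pb with hs0
  have happ : ∀ x, s0 x = x - (Pa x : V) - (Pb x : V) + ((e (Pa x) : B) : V)
      + ((e.symm (Pb x) : A) : V) := by
    intro x
    simp [hs0]
  have hPa0 : ∀ x, (∀ y ∈ A, polar Q y x = 0) → Pa x = 0 := by
    intro x hx
    exact (Submodule.linearProjOfIsCompl_apply_eq_zero_iff hA.compl).2 (mem_perp.2 hx)
  have hPb0 : ∀ x, (∀ y ∈ B, polar Q y x = 0) → Pb x = 0 := by
    intro x hx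
    exact (Submodule.linearProjOfIsCompl_apply_eq_zero_iff hB.compl).2 (mem_perp.2 hx)
  have hPaA : ∀ x (hx : x ∈ A), Pa x = ⟨x, hx⟩ := fun x hx =>
    Submodule.linearProjOfIsCompl_apply_left hA.compl ⟨x, hx⟩
  have hPbB : ∀ x (hx : x ∈ B), Pb x = ⟨x, hx⟩ := fun x hx =>
    Submodule.linearProjOfIsCompl_apply_left hB.compl ⟨x, hx⟩
  have hBA : ∀ x ∈ B, ∀ y ∈ A, polar Q x y = 0 := fun x hx y hy => by
    rw [polar_comm]; exact hAB y hy x hx
  have hesymm : ∀ y : B, Q ((e.symm y : A) : V) = Q (y : V) := by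
    intro y
    rw [← he (e.symm y), LinearEquiv.apply_symm_apply]
  have hQs : ∀ x, Q (s0 x) = Q x := by
    intro x
    set u := Pa x with hu
    set v := Pb x with hv
    set r : V := x - (u : V) - (v : V) with hr
    have hrA : ∀ y ∈ A, polar Q y r = 0 := by
      have h1 : Pa (x - (u : V)) = 0 := by
        rw [map_sub, hPaA (u : V) u.2, ← hu]; simp
      have h2 := mem_perp.1 ((Submodule.linearProjOfIsCompl_apply_eq_zero_iff hA.compl).1 h1)
      intro y hy
      rw [hr, polar_sub_right, h2 y hy, hAB y hy v v.2, sub_zero]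
    have hrB : ∀ y ∈ B, polar Q y r = 0 := by
      have h1 : Pb (x - (v : V)) = 0 := by
        rw [map_sub, hPbB (v : V) v.2, ← hv]; simp
      have h2 := mem_perp.1 ((Submodule.linearProjOfIsCompl_apply_eq_zero_iff hB.compl).1 h1)
      intro y hy
      have e1 : r = x - (v : V) - (u : V) := by rw [hr]; abel
      rw [e1, polar_sub_right, h2 y hy, hBA y hy u u.2, sub_zero]
    have e1 : s0 x = r + ((e u : B) : V) + ((e.symm v : A) : V) := by rw [happ]
    have e2 : x = r + (u : V) + (v : V) := by rw [hr]; abel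
    have e3 : Q x = Q (r + (u : V) + (v : V)) := congrArg Q e2
    rw [e1, e3]
    rw [QuadraticMap.map_add (⇑Q), QuadraticMap.map_add (⇑Q), QuadraticMap.map_add (⇑Q) (r + (u : V)),
      QuadraticMap.map_add (⇑Q) r (u : V), he, hesymm, polar_add_left, polar_add_left,
      polar_comm Q r (e u : V), hrB _ (e u).2, polar_comm Q r (e.symm v : V), hrA _ (e.symm v).2,
      hBA _ (e u).2 _ (e.symm v).2, polar_comm Q r (u : V), hrA _ u.2, polar_comm Q r (v : V),
      hrB _ v.2, hAB _ u.2 _ v.2]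
  obtain ⟨s, hsO, hs⟩ := exists_OQ_of_linear hQ s0 hQs
  refine ⟨s, hsO, ?_, ?_, ?_⟩
  · intro x hx
    rw [hs, happ, hPaA x hx, hPb0 x (fun y hy => hBA y hy x hx)]
    simp
  · intro x hx
    rw [hs, happ, hPbB x hx, hPa0 x (fun y hy => hAB y hy x hx)]
    simp
  · intro x hxA hxB
    rw [hs, happ, hPa0 x hxA, hPb0 x hxB]
    simp

lemma comm_mem_Om' {Q : QuadraticForm F V} {g h : V ≃ₗ[F] V} (hg : g ∈ OQ Q) (hh : h ∈ OQ Q) :
    g * h * g⁻¹ * h⁻¹ ∈ Om Q := by
  refine ⟨⁅(⟨g, hg⟩ : ↥(OQ Q)), ⟨h, hh⟩⁆, ?_, ?_⟩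
  · exact Subgroup.commutator_mem_commutator (Subgroup.mem_top _) (Subgroup.mem_top _)
  · rfl

section

variable {Q : QuadraticForm F V} {t : ℕ} {D : Fin t → Submodule F V} {k : ℕ}

lemma inv_blocks [FiniteDimensional F V] (hod : OrthDec (polarBilin Q) D k) {s : V ≃ₗ[F] V}
    {π : Equiv.Perm (Fin t)} (hs : ∀ i, ∀ x ∈ D i, s x ∈ D (π i)) :
    ∀ i, ∀ x ∈ D i, s⁻¹ x ∈ D (π.symm i) := by
  intro i x hx
  have hm := Cfsg.Agent.Lib.Helper94.map_eq_of_forall_mem s (D (π.symm i)) (D i)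
    ((hod.finrank_eq _).trans (hod.finrank_eq _).symm)
    (fun y hy => by have := hs _ y hy; rwa [Equiv.apply_symm_apply] at this)
  rw [← hm] at hx
  obtain ⟨x', hx', rfl⟩ := hx
  have : s⁻¹ (s x') = x' := by rw [← LinearEquiv.mul_apply, inv_mul_cancel]; rfl
  change s⁻¹ (s x') ∈ _
  rw [this]; exact hx'

lemma exists_block_swap [FiniteDimensional F V] (hod : OrthDec (polarBilin Q) D k)
    (hQ : (polarBilin Q).Nondegenerate)
    (hiso : ∀ i j, ∃ e : D i ≃ₗ[F] D j, ∀ w : D i, Q ((e w : D j) : V) = Q (w : V))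
    {a b : Fin t} (hab : a ≠ b) :
    ∃ s ∈ OQ Q, ∀ i, ∀ x ∈ D i, s x ∈ D (Equiv.swap a b i) := by
  obtain ⟨e, he⟩ := hiso a b
  obtain ⟨s, hsO, h1, h2, h3⟩ := exists_swap hQ
    (OD_of_nondeg hQ (fun w hw hw0 => hod.nd a w hw hw0))
    (OD_of_nondeg hQ (fun w hw hw0 => hod.nd b w hw hw0))
    (fun x hx y hy => hod.ort a b hab x hx y hy) e he
  refine ⟨s, hsO, fun i x hx => ?_⟩
  by_cases hia : i = a
  · subst hia; rw [Equiv.swap_apply_left]; exact h1 x hx
  by_cases hib : i = b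
  · subst hib; rw [Equiv.swap_apply_right]; exact h2 x hx
  · rw [Equiv.swap_apply_of_ne_of_ne hia hib,
      h3 x (fun y hy => hod.ort a i (Ne.symm hia) y hy x hx)
        (fun y hy => hod.ort b i (Ne.symm hib) y hy x hx)]
    exact hx

lemma exists_cyc [FiniteDimensional F V] (hod : OrthDec (polarBilin Q) D k)
    (hQ : (polarBilin Q).Nondegenerate)
    (hiso : ∀ i j, ∃ e : D i ≃ₗ[F] D j, ∀ w : D i, Q ((e w : D j) : V) = Q (w : V))
    (m l l' : Fin t) (hml : m ≠ l) (hml' : m ≠ l') (hll' : l ≠ l') :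
    ∃ κ ∈ Om Q, DecStab D κ ∧ (∀ x ∈ D m, κ x ∈ D l') ∧ (∀ x ∈ D l, κ x ∈ D m) := by
  obtain ⟨s1, hs1O, hs1⟩ := exists_block_swap hod hQ hiso hml
  obtain ⟨s2, hs2O, hs2⟩ := exists_block_swap hod hQ hiso hll'
  have hs1' := inv_blocks hod hs1
  have hs2' := inv_blocks hod hs2
  rw [Equiv.symm_swap] at hs1' hs2'
  have key : ∀ i, ∀ x ∈ D i, (s1 * s2 * s1⁻¹ * s2⁻¹) x
      ∈ D (Equiv.swap m l (Equiv.swap l l' (Equiv.swap m l (Equiv.swap l l' i)))) := by
    intro i x hx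
    simp only [LinearEquiv.mul_apply]
    exact hs1 _ _ (hs2 _ _ (hs1' _ _ (hs2' _ _ hx)))
  refine ⟨s1 * s2 * s1⁻¹ * s2⁻¹, comm_mem_Om' hs1O hs2O, ?_, ?_, ?_⟩
  · by_contra hcon
    obtain ⟨x, ⟨j, hj⟩, hno⟩ := hod.exists_not_mem {x | Blk D x} _ hcon
      (fun i v hv => ⟨_, key i v hv⟩)
    exact hno j hj
  · intro x hx
    have := key m x hx
    rwa [Equiv.swap_apply_of_ne_of_ne hml hml', Equiv.swap_apply_left, Equiv.swap_apply_left,
      Equiv.swap_apply_of_ne_of_ne hml'.symm hll'.symm] at this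
  · intro x hx
    have := key l x hx
    rwa [Equiv.swap_apply_left, Equiv.swap_apply_of_ne_of_ne hml'.symm hll'.symm,
      Equiv.swap_apply_right, Equiv.swap_apply_right] at this

end

lemma OD.exists_third [FiniteDimensional F V] {Q : QuadraticForm F V} {W W' : Submodule F V}
    (h : OD Q W W') (hQ : (polarBilin Q).Nondegenerate) (h3 : 3 ≤ finrank F W) {e f : V}
    (he : e ∈ W) (hf : f ∈ W) (hQe : Q e = 0) (hQf : Q f = 0) (hef : polar Q e f = 1) :
    ∃ w ∈ W, polar Q e w = 0 ∧ polar Q f w = 0 ∧ Q w ≠ 0 := by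
  classical
  have hfr := finrank_inf_orth hQ W {e, f}
  have hcard : ({e, f} : Finset V).card ≤ 2 := Finset.card_le_two
  have hne : W ⊓ O.orth Q {e, f} ≠ ⊥ := by
    intro hb
    rw [hb, finrank_bot] at hfr
    omega
  obtain ⟨x, hx, hx0⟩ := Submodule.exists_mem_ne_zero_of_ne_bot hne
  have hxs := mem_orth.1 hx.2
  have hex : polar Q e x = 0 := hxs e (by simp)
  have hfx : polar Q f x = 0 := hxs f (by simp)
  obtain ⟨z, hz, hzx⟩ := h.nd hQ hx.1 hx0
  have hee : polar Q e e = 0 := by rw [polar_self, hQe]; simp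
  have hff : polar Q f f = 0 := by rw [polar_self, hQf]; simp
  have hfe : polar Q f e = 1 := by rw [polar_comm]; exact hef
  set y : V := z - polar Q f z • e - polar Q e z • f with hy
  have hyW : y ∈ W := W.sub_mem (W.sub_mem hz (W.smul_mem _ he)) (W.smul_mem _ hf)
  have hey : polar Q e y = 0 := by
    rw [hy, polar_sub_right, polar_sub_right, polar_smul_right, polar_smul_right, hee, hef]; simp
  have hfy : polar Q f y = 0 := by
    rw [hy, polar_sub_right, polar_sub_right, polar_smul_right, polar_smul_right, hfe, hff]; simp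
  have hyx : polar Q y x = 1 := by
    rw [hy, polar_sub_left, polar_sub_left, polar_smul_left, polar_smul_left, hex, hfx, hzx]; simp
  by_cases h1 : Q x = 0
  · by_cases h2 : Q y = 0
    · refine ⟨y + x, W.add_mem hyW hx.1, ?_, ?_, ?_⟩
      · rw [polar_add_right, hey, hex, add_zero]
      · rw [polar_add_right, hfy, hfx, add_zero]
      · rw [QuadraticMap.map_add (⇑Q), h1, h2, hyx]; simp
    · exact ⟨y, hyW, hey, hfy, h2⟩
  · exact ⟨x, hx.1, hex, hfx, h1⟩

theorem exists_blocks [Fintype F] [FiniteDimensional F V] {Q : QuadraticForm F V} {t : ℕ}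
    {D : Fin t → Submodule F V} {k : ℕ} (hod : OrthDec (polarBilin Q) D k)
    (hQ : (polarBilin Q).Nondegenerate) (h2 : (2 : F) ≠ 0) (hdim : 12 < finrank F V)
    (hk : 3 ≤ k) (ht : 3 ≤ t)
    (hiso : ∀ i j, ∃ e : D i ≃ₗ[F] D j, ∀ w : D i, Q ((e w : D j) : V) = Q (w : V)) :
    ∃ N, Blocks Q D k N := by
  set i0 : Fin t := ⟨0, by omega⟩ with hi0
  have hOD := OD_of_nondeg hQ (fun w hw hw0 => hod.nd i0 w hw hw0)
  obtain ⟨e, he, he0, hQe⟩ := exists_singular_of_finrank Q (D i0) (by rw [hod.finrank_eq]; exact hk)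
  obtain ⟨f, hf, hQf, hef⟩ := hOD.partner hQ he he0 hQe
  obtain ⟨w, hw, hew, hfw, hQw⟩ := hOD.exists_third hQ (by rw [hod.finrank_eq]; exact hk) he hf hQe
    hQf hef
  refine ⟨Q w, hod, hQ, h2, hdim, hk, ht, hQw, ?_, exists_cyc hod hQ hiso⟩
  intro i
  obtain ⟨ε, hε⟩ := hiso i0 i
  have hpol : ∀ x y : D i0, polar Q ((ε x : D i) : V) ((ε y : D i) : V) = polar Q (x : V) (y : V) := by
    intro x y
    have h1 := hε (x + y)
    rw [map_add] at h1
    unfold polar
    rw [← hε x, ← hε y]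
    have : ((ε x + ε y : D i) : V) = ((ε x : D i) : V) + ((ε y : D i) : V) := rfl
    rw [← this, h1]
    rfl
  refine ⟨_, (ε ⟨e, he⟩).2, _, (ε ⟨f, hf⟩).2, _, (ε ⟨w, hw⟩).2, ?_, ?_, ?_, ?_, ?_, ?_⟩
  · rw [hε]; exact hQe
  · rw [hε]; exact hQf
  · rw [hpol]; exact hef
  · rw [hpol]; exact hew
  · rw [hpol]; exact hfw
  · rw [hε]

end Cfsg.Agent.Lib.Helper13.O
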