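import Mathlib
import Cfsg.Agent.Lib.Helper13.OrthWrap
import Cfsg.Agent.Lib.Helper13.OrthDecSwap
import Cfsg.Agent.Lib.Helper94.SympDecompWrap

set_option autoImplicit false

/-! # Orthogonal decompositions: matrix form of the maximality theorem -/

namespace Cfsg.Agent.Lib.Helper13.O

open QuadraticMap Module
open Cfsg.Agent.Lib.Helper44
open Cfsg.Agent.Lib.Helper94 (OrthDec DecStab)

lemma finrank_eq_mul_of_decomp {F V : Type*} [Field F] [AddCommGroup V] [Module F V]
    [FiniteDimensional F V] {t m : ℕ} {D : Fin t → Submodule F V}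
    (hfr : ∀ i, finrank F (D i) = m) (hind : iSupIndep D) (htop : iSup D = ⊤) :
    finrank F V = t * m := by
  classical
  have hint : DirectSum.IsInternal D :=
    (DirectSum.isInternal_submodule_iff_iSupIndep_and_iSup_eq_top D).2 ⟨hind, htop⟩
  rw [Module.finrank_eq_card_basis
    (hint.collectedBasis (fun i => Module.finBasisOfFinrankEq F (D i) (hfr i)))]
  simp

variable {ι : Type} [Fintype ι] [DecidableEq ι] {F : Type*} [Field F]

lemma orthDec_of_quad {Q : QuadraticForm F (ι → F)} {t k : ℕ} {D : Fin t → Submodule F (ι → F)}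
    (hD : Cfsg.Geo.IsOrthogonalMDecomposition ⇑Q k D) : OrthDec (polarBilin Q) D k where
  two_le := hD.decomp.decomp.two_le
  pos := hD.decomp.decomp.pos
  finrank_eq := hD.decomp.decomp.finrank_eq
  sup := hD.decomp.decomp.iSup_eq_top
  nd := fun i w hw hw0 => (hD.decomp.nondegenerate i w hw hw0).1
  ort := fun i j hij u hu v hv => hD.decomp.orthogonal i j hij u hu v hv

lemma card_eq_mul_of_quad {Q : (ι → F) → F} {t k : ℕ} {D : Fin t → Submodule F (ι → F)}
    (hD : Cfsg.Geo.IsOrthogonalMDecomposition Q k D) : Fintype.card ι = t * k := by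
  have := finrank_eq_mul_of_decomp hD.decomp.decomp.finrank_eq hD.decomp.decomp.indep
    hD.decomp.decomp.iSup_eq_top
  rwa [Module.finrank_fintype_fun_eq_card] at this

/-- maximality of the stabiliser of a decomposition into at least three isometric blocks of
dimension at least three, in odd characteristic -/
theorem decomp_maximal [Fintype F] (Q : QuadraticForm F (ι → F))
    (hQ : (polarBilin Q).Nondegenerate) (h2 : (2 : F) ≠ 0) (hn : 12 < Fintype.card ι) {t k : ℕ}
    (D : Fin t → Submodule F (ι → F)) (hD : Cfsg.Geo.IsOrthogonalMDecomposition ⇑Q k D)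
    (hk : 3 ≤ k) (ht : 3 ≤ t) (hreg : 5 ≤ k ∨ 4 ≤ Fintype.card F) :
    Cfsg.Geo.IsMaximalIn (Cfsg.Geo.omegaGL ⇑Q)
      (Cfsg.Geo.decompositionStabilizer D ⊓ Cfsg.Geo.omegaGL ⇑Q) := by
  obtain ⟨N, hB⟩ := exists_blocks (orthDec_of_quad hD) hQ h2
    (by rw [Module.finrank_fintype_fun_eq_card]; exact hn) hk ht (fun i j => hD.isometric i j)
  exact omega_maximal_of_core Q (Cfsg.Geo.decompositionStabilizer D) (DecStab D)
    (fun g => Cfsg.Agent.Lib.Helper94.mem_decompositionStabilizer_iff D g) hB.ne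
    (fun G hG hGO φ0 h0 hns => hB.core hreg G hG hGO φ0 h0 hns)

end Cfsg.Agent.Lib.Helper13.O
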