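import Mathlib
import Cfsg.Agent.Lib.Helper13.OrthWrap
import Cfsg.Agent.Lib.Helper13.OrthND
import Cfsg.Agent.Lib.Helper13.PairWrap

set_option autoImplicit false

namespace Cfsg.Agent.Lib.Helper13.O

open QuadraticMap Module
open Cfsg.Agent.Lib.Helper44

variable {ι : Type} [Fintype ι] [DecidableEq ι] {F : Type*} [Field F]

/-- translate the exclusion of small hyperbolic planes -/
lemma smallOK_of [Fintype F] {Q : QuadraticForm F (ι → F)} {W W' : Submodule F (ι → F)}
    (h : OD Q W W') (hQ : (polarBilin Q).Nondegenerate)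
    (hex : Fintype.card F ≤ 3 → Cfsg.Geo.IsNondegenerateOn (QuadraticMap.polar ⇑Q) W →
      (finrank F W = 2 ∧ Cfsg.Geo.IsPlusTypeOn ⇑Q W) → False) : SmallOK Q W := by
  intro h2 ⟨u, hu, hu0, hQu⟩
  by_contra hq
  refine hex (by omega) ?_ ⟨h2, Submodule.span F {u}, ?_, ?_, ?_⟩
  · intro w hw hw0
    obtain ⟨z, hz, hzw⟩ := h.nd hQ hw hw0
    exact ⟨⟨z, hz, by rw [hzw]; exact one_ne_zero⟩,
      ⟨z, hz, by rw [polar_comm, hzw]; exact one_ne_zero⟩⟩
  · exact (Submodule.span_singleton_le_iff_mem u W).2 hu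
  · intro w hw
    obtain ⟨c, rfl⟩ := Submodule.mem_span_singleton.1 hw
    rw [QuadraticMap.map_smul, hQu]; simp
  · rw [finrank_span_singleton hu0, h2]

/-- an isometry carrying `W` into `W'` of the same dimension makes them isometric -/
lemma areIsometricFor_of_map {Q : QuadraticForm F (ι → F)} {W W' : Submodule F (ι → F)}
    (hfr : finrank F W = finrank F W') {φ : (ι → F) ≃ₗ[F] (ι → F)} (hφ : φ ∈ OQ Q)
    (hs : ∀ w ∈ W, φ w ∈ W') : Cfsg.Geo.AreIsometricFor ⇑Q W W' := by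
  have hmap := Cfsg.Agent.Lib.Helper13.map_eq_of_forall_mem' φ W W' hfr hs
  refine ⟨(φ.submoduleMap W).trans (LinearEquiv.ofEq _ _ hmap), fun w => ?_⟩
  exact mem_OQ.1 hφ w

end Cfsg.Agent.Lib.Helper13.O
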