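import Mathlib
import Cfsg.Agent.Lib.Helper13.OrthAE

set_option autoImplicit false
set_option linter.unusedSimpArgs false
set_option linter.unusedSectionVars false

namespace Cfsg.Agent.Lib.Helper13.O

open QuadraticMap Module
open Cfsg.Agent.Lib.Helper44

variable {F V : Type*} [Field F] [AddCommGroup V] [Module F V]

lemma exists_orth_ne [FiniteDimensional F V] {Q : QuadraticForm F V}
    (hQ : (polarBilin Q).Nondegenerate) (s : Finset V) {x : V}
    (hx : x ∉ Submodule.span F (s : Set V)) : ∃ w ∈ orth Q s, polar Q w x ≠ 0 := by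
  by_contra hcon
  push Not at hcon
  apply hx
  rw [← LinearMap.BilinForm.orthogonal_orthogonal hQ (polarBilin_isRefl Q)
    (Submodule.span F (s : Set V)), LinearMap.BilinForm.mem_orthogonal_iff]
  intro w hw
  exact hcon w hw

lemma eq_one_of_sq_char_two (h2 : (2 : F) = 0) {b : F} (hb : b * b = 1) : b = 1 := by
  have : (b - 1) * (b - 1) = 0 := by
    have e : (b - 1) * (b - 1) = b * b - 2 * b + 1 := by ring
    rw [e, hb, h2]
    have : (1 : F) + 1 = 0 := by rw [one_add_one_eq_two]; exact h2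
    linear_combination this
  rcases mul_eq_zero.1 this with h | h <;> exact sub_eq_zero.1 h

/-- in characteristic two an isometry stabilising a nonsingular line fixes it pointwise -/
lemma fix_of_stab_char_two (h2 : (2 : F) = 0) {Q : QuadraticForm F V} {v : V} (hv : Q v ≠ 0)
    {φ : V ≃ₗ[F] V} (hφ : φ ∈ OQ Q)
    (hs : ∀ w ∈ Submodule.span F {v}, φ w ∈ Submodule.span F {v}) : φ v = v := by
  obtain ⟨b, hb⟩ := Submodule.mem_span_singleton.1 (hs v (Submodule.mem_span_singleton_self v))
  have h1 : Q (φ v) = Q v := mem_OQ.1 hφ v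
  rw [← hb, QuadraticMap.map_smul, smul_eq_mul] at h1
  have h3 : b * b = 1 := by
    have := mul_right_cancel₀ hv (h1.trans (one_mul _).symm)
    exact this
  rw [← hb, eq_one_of_sq_char_two h2 h3, one_smul]

theorem nsv_core [Fintype F] [FiniteDimensional F V] (h2 : (2 : F) = 0) {Q : QuadraticForm F V}
    (hQ : (polarBilin Q).Nondegenerate) (hdim : 12 < finrank F V) {v : V} (hv : Q v ≠ 0)
    (G : Subgroup (V ≃ₗ[F] V)) (hG : ∀ φ ∈ Om Q, φ v = v → φ ∈ G) (hGO : G ≤ Om Q)
    (φ0 : V ≃ₗ[F] V) (hφ0 : φ0 ∈ G) (hns : φ0 v ≠ v) : Om Q ≤ G := by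
  classical
  have hφO : φ0 ∈ OQ Q := Om_le_OQ Q (hGO hφ0)
  have hG' : ∀ φ ∈ Om Q, φ (φ0 v) = φ0 v → φ ∈ G := by
    intro φ hφ hfix
    have h1 : φ0⁻¹ * φ * φ0 ∈ G := by
      refine hG _ ((Om Q).mul_mem ((Om Q).mul_mem ((Om Q).inv_mem (hGO hφ0)) hφ) (hGO hφ0)) ?_
      rw [LinearEquiv.mul_apply, LinearEquiv.mul_apply, hfix, ← LinearEquiv.mul_apply,
        inv_mul_cancel]
      rfl
    have e : φ = φ0 * (φ0⁻¹ * φ * φ0) * φ0⁻¹ := by group
    rw [e]
    exact G.mul_mem (G.mul_mem hφ0 h1) (G.inv_mem hφ0)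
  have hcard : ({v, φ0 v} : Finset V).card ≤ 2 := Finset.card_le_two
  obtain ⟨c, f, hc, hf, hQc, hQf, hcf⟩ := exists_hyp hQ {v, φ0 v} (by omega)
  rw [mem_orth] at hc hf
  have hvc : polar Q v c = 0 := hc v (by simp)
  have hv'c : polar Q (φ0 v) c = 0 := hc _ (by simp)
  have hvf : polar Q v f = 0 := hf v (by simp)
  have hv'f : polar Q (φ0 v) f = 0 := hf _ (by simp)
  have hcc : polar Q c c = 0 := by rw [polar_self, hQc]; simp
  have hnot : v ∉ Submodule.span F (({c, φ0 v} : Finset V) : Set V) := by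
    intro hmem
    rw [Finset.coe_insert, Finset.coe_singleton, Submodule.mem_span_pair] at hmem
    obtain ⟨α, β, hab⟩ := hmem
    have h1 : polar Q v f = α := by
      rw [← hab, polar_add_left, polar_smul_left, polar_smul_left, hcf, hv'f]; simp
    rw [hvf] at h1
    rw [← h1, zero_smul, zero_add] at hab
    have h3 : Q v = β * β * Q v := by
      conv_lhs => rw [← hab, QuadraticMap.map_smul, mem_OQ.1 hφO, smul_eq_mul]
    have h4 : β * β = 1 := (mul_right_cancel₀ hv (h3.symm.trans (one_mul _).symm))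
    rw [eq_one_of_sq_char_two h2 h4, one_smul] at hab
    exact hns hab
  obtain ⟨a, ha, hav⟩ := exists_orth_ne hQ {c, φ0 v} hnot
  rw [mem_orth] at ha
  have hca : polar Q c a = 0 := ha c (by simp)
  have hv'a : polar Q (φ0 v) a = 0 := ha _ (by simp)
  have haAE : a ∈ AE Q G c hQc := by
    refine ⟨hca, hG' _ (eichler_mem_Om hQ (by omega) _ _ _ _) ?_⟩
    rw [eichler_apply, polar_comm Q a, hv'a, polar_comm Q c, hv'c]; simp
  have hbase : ∀ w, polar Q c w = 0 → polar Q v w = 0 → w ∈ AE Q G c hQc := by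
    intro w hcw hvw
    refine ⟨hcw, hG _ (eichler_mem_Om hQ (by omega) _ _ _ _) ?_⟩
    rw [eichler_apply, polar_comm Q w, hvw, polar_comm Q c, hvc]; simp
  have hsm : ∀ ν : F, ν • a ∈ AE Q G c hQc := by
    intro ν
    by_cases hν : ν = 0
    · rw [hν, zero_smul]; exact (AE Q G c hQc).zero_mem
    have hgOm : (([c - f, c - ν • f] : List V).map (refl Q)).prod ∈ Om Q := by
      refine prod_refl_mem_Om hQ (by omega) _ (Q_hyp_list_ne Q hQc hQf hcf hν) ⟨1, rfl⟩ ?_
      have hch : ringChar F = 2 :=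
        CharP.ringChar_of_prime_eq_zero Nat.prime_two (by exact_mod_cast h2)
      exact FiniteField.isSquare_of_char_two hch _
    have hgG : (([c - f, c - ν • f] : List V).map (refl Q)).prod ∈ G := by
      refine hG _ hgOm ?_
      rw [hyp_rotation_apply Q hQc hQf hcf hν (by rw [polar_comm]; exact hvc), polar_comm Q f v, hvf]
      simp
    have hgc : (([c - f, c - ν • f] : List V).map (refl Q)).prod c = ν • c := by
      rw [hyp_rotation_apply Q hQc hQf hcf hν hcc, polar_comm Q f c, hcf]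
      module
    have hga : (([c - f, c - ν • f] : List V).map (refl Q)).prod a
        = a + ((ν - 1) * polar Q f a) • c := hyp_rotation_apply Q hQc hQf hcf hν hca
    have hQνc : Q (ν • c) = 0 := by rw [QuadraticMap.map_smul, hQc]; simp
    obtain ⟨k2, k3⟩ := AE_map hgG (Om_le_OQ Q hgOm) haAE (by rw [hgc]; exact hQνc)
    have k2' : polar Q (ν • c) (a + ((ν - 1) * polar Q f a) • c) = 0 := by
      rw [hgc, hga] at k2; exact k2
    have k4 : a + ((ν - 1) * polar Q f a) • c ∈ AE Q G (ν • c) hQνc := by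
      refine ⟨k2', ?_⟩
      rw [eichler_congr Q hgc.symm hga.symm hQνc k2' _ k2]
      exact k3
    have k5 := AE_smul (hc := hQc) hQνc k4
    have k6 : (ν * ((ν - 1) * polar Q f a)) • c ∈ AE Q G c hQc :=
      hbase _ (by rw [polar_smul_right, hcc]; simp) (by rw [polar_smul_right, hvc]; simp)
    have := (AE Q G c hQc).sub_mem k5 k6
    have e : ν • (a + ((ν - 1) * polar Q f a) • c) - (ν * ((ν - 1) * polar Q f a)) • c = ν • a := by
      module
    rwa [e] at this
  have hcU : c ∈ UU Q G := by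
    apply mem_UU_of_AE hQc
    intro w hw
    have hva : polar Q v a ≠ 0 := by rw [polar_comm]; exact hav
    have e : w = (w - (polar Q v w / polar Q v a) • a) + (polar Q v w / polar Q v a) • a := by abel
    rw [e]
    refine (AE Q G c hQc).add_mem (hbase _ ?_ ?_) (hsm _)
    · rw [polar_sub_right, polar_smul_right, hw, hca]; simp
    · rw [polar_sub_right, polar_smul_right, smul_eq_mul, div_mul_cancel₀ _ hva, sub_self]
  have hcard3 : ({c, f, v} : Finset V).card ≤ 3 := Finset.card_le_three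
  obtain ⟨z, hz, hQz⟩ := exists_ns hQ {c, f, v} (by omega)
  rw [mem_orth] at hz
  have hcz : polar Q c z = 0 := hz c (by simp)
  have hfz : polar Q f z = 0 := hz f (by simp)
  have hvz : polar Q v z = 0 := hz v (by simp)
  have hE : eichler Q f z hQf hfz ∈ G := by
    refine hG _ (eichler_mem_Om hQ (by omega) _ _ _ _) ?_
    rw [eichler_apply, polar_comm Q z, hvz, polar_comm Q f, hvf]; simp
  have hU2 := UU_map hcU hE (eichler_mem Q _ _ _ _)
  refine Om_le_of_UU hQ hdim hU2 hcU ?_
  rw [eichler_apply, polar_comm Q z c, hcz, polar_comm Q f c, hcf]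
  simp only [polar_add_left, polar_sub_left, polar_smul_left, hcc, polar_comm Q z c, hcz,
    polar_comm Q f c, hcf]
  simpa using hQz

theorem nsv_ne [Fintype F] [FiniteDimensional F V] {Q : QuadraticForm F V}
    (hQ : (polarBilin Q).Nondegenerate) (hdim : 12 < finrank F V) {v : V} (hv : Q v ≠ 0) :
    ∃ φ ∈ Om Q, ¬ ∀ w ∈ Submodule.span F {v}, φ w ∈ Submodule.span F {v} := by
  classical
  have hcard : ({v} : Finset V).card ≤ 1 := by simp
  obtain ⟨c, f, hc, hf, hQc, hQf, hcf⟩ := exists_hyp hQ {v} (by omega)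
  rw [mem_orth] at hc
  have hvc : polar Q v c = 0 := hc v (by simp)
  have hc0 : c ≠ 0 := by
    rintro rfl
    simp at hcf
  have hnot : v ∉ Submodule.span F {c} := by
    intro hmem
    obtain ⟨l, hl⟩ := Submodule.mem_span_singleton.1 hmem
    apply hv
    rw [← hl, QuadraticMap.map_smul, hQc]; simp
  obtain ⟨a, hca, hav⟩ := exists_perp_polar_eq_one hQ hnot
  refine ⟨eichler Q c a hQc hca, eichler_mem_Om hQ (by omega) _ _ _ _, fun hs => ?_⟩
  have h1 := hs v (Submodule.mem_span_singleton_self v)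
  rw [eichler_apply, hav, polar_comm Q c v, hvc] at h1
  simp only [one_smul, zero_smul, mul_zero, sub_zero] at h1
  have h2 := (Submodule.add_mem_iff_right _ (Submodule.mem_span_singleton_self v)).1 h1
  obtain ⟨l, hl⟩ := Submodule.mem_span_singleton.1 h2
  have h3 : Q c = l * l * Q v := by rw [← hl, QuadraticMap.map_smul, smul_eq_mul]
  rw [hQc] at h3
  have hl0 : l = 0 := by
    rcases mul_eq_zero.1 h3.symm with h | h
    · rcases mul_eq_zero.1 h with h | h <;> exact h
    · exact absurd h hv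
  apply hc0
  rw [← hl, hl0, zero_smul]

end Cfsg.Agent.Lib.Helper13.O
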