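import Mathlib
import Cfsg.Agent.Lib.Helper13.OrthNSV
import Cfsg.Agent.Lib.Helper13.OrthPar2

set_option autoImplicit false
set_option linter.unusedSimpArgs false
set_option linter.unusedSectionVars false

namespace Cfsg.Agent.Lib.Helper13.O

open QuadraticMap Module
open Cfsg.Agent.Lib.Helper44

variable {F V : Type*} [Field F] [AddCommGroup V] [Module F V]

lemma le_or_le_of_forall {A B C : Submodule F V} (h : ∀ a ∈ A, a ∈ B ∨ a ∈ C) : A ≤ B ∨ A ≤ C := by
  by_contra hcon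
  push Not at hcon
  obtain ⟨h1, h2⟩ := hcon
  obtain ⟨a, ha, haB⟩ := SetLike.not_le_iff_exists.1 h1
  obtain ⟨a', ha', ha'C⟩ := SetLike.not_le_iff_exists.1 h2
  have haC := (h a ha).resolve_left haB
  have ha'B := (h a' ha').resolve_right ha'C
  rcases h (a + a') (A.add_mem ha ha') with h3 | h3
  · exact haB ((B.add_mem_iff_left ha'B).1 h3)
  · exact ha'C ((C.add_mem_iff_right haC).1 h3)

lemma finrank_span_pair_le (x y : V) : finrank F (Submodule.span F ({x, y} : Set V)) ≤ 2 := by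
  classical
  have : finrank F (Submodule.span F ((({x, y} : Finset V)) : Set V)) ≤ ({x, y} : Finset V).card :=
    finrank_span_finset_le_card (R := F) ({x, y} : Finset V)
  have h2 : ({x, y} : Finset V).card ≤ 2 := Finset.card_le_two
  rw [Finset.coe_insert, Finset.coe_singleton] at this
  omega

lemma mem_inf_orth_singleton {Q : QuadraticForm F V} {A : Submodule F V} {f x : V} :
    x ∈ A ⊓ orth Q {f} ↔ x ∈ A ∧ polar Q f x = 0 := by
  rw [Submodule.mem_inf, mem_orth]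
  simp

lemma exists_not_mem_span_pair [FiniteDimensional F V] (A : Submodule F V) (hA : 3 ≤ finrank F A)
    (x y : V) : ∃ t ∈ A, t ∉ Submodule.span F ({x, y} : Set V) := by
  by_contra hcon
  push Not at hcon
  have hle : A ≤ Submodule.span F ({x, y} : Set V) := hcon
  have h1 := Submodule.finrank_mono hle
  have h2 := finrank_span_pair_le (F := F) x y
  omega

lemma prod_refl_fix (Q : QuadraticForm F V) (l : List V) (x : V) (h : ∀ v ∈ l, polar Q v x = 0) :
    (l.map (refl Q)).prod x = x := by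
  induction l with
  | nil => simp
  | cons v l ih =>
    simp only [List.map_cons, List.prod_cons, LinearEquiv.mul_apply]
    rw [ih (fun w hw => h w (List.mem_cons_of_mem _ hw)),
      refl_apply_of_polar_eq_zero Q (h v List.mem_cons_self)]

/-- a product of reflections interchanging two totally singular subspaces in perfect duality -/
lemma exists_swap_aux [FiniteDimensional F V] (Q : QuadraticForm F V) : ∀ (m : ℕ) (A B : Submodule F V),
    finrank F A ≤ m → (∀ a ∈ A, Q a = 0) → (∀ b ∈ B, Q b = 0) →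
    (∀ a ∈ A, a ≠ 0 → ∃ b ∈ B, polar Q a b ≠ 0) → (∀ b ∈ B, b ≠ 0 → ∃ a ∈ A, polar Q a b ≠ 0) →
    ∃ l : List V, (∀ v ∈ l, Q v = -1 ∧ v ∈ A ⊔ B) ∧ (∀ a ∈ A, (l.map (refl Q)).prod a ∈ B) ∧
      (∀ b ∈ B, (l.map (refl Q)).prod b ∈ A) := by
  classical
  intro m
  induction m with
  | zero =>
    intro A B hm _ _ _ hBA
    have hA : A = ⊥ := Submodule.finrank_eq_zero.1 (by omega)
    refine ⟨[], by simp, ?_, ?_⟩
    · intro a ha
      rw [hA, Submodule.mem_bot] at ha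
      rw [ha]; simp
    · intro b hb
      by_cases hb0 : b = 0
      · rw [hb0]; simp
      · obtain ⟨a, ha, hab⟩ := hBA b hb hb0
        rw [hA, Submodule.mem_bot] at ha
        rw [ha] at hab
        simp at hab
  | succ m ih =>
    intro A B hm hA hB hAB hBA
    by_cases hA0 : A = ⊥
    · exact ih A B (by rw [hA0, finrank_bot]; omega) hA hB hAB hBA
    obtain ⟨e, he, he0⟩ := Submodule.exists_mem_ne_zero_of_ne_bot hA0
    obtain ⟨f₀, hf₀, hef₀⟩ := hAB e he he0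
    set f : V := (polar Q e f₀)⁻¹ • f₀ with hf
    have hfB : f ∈ B := B.smul_mem _ hf₀
    have hef : polar Q e f = 1 := by
      rw [hf, polar_smul_right, smul_eq_mul, inv_mul_cancel₀ hef₀]
    have hfe : polar Q f e = 1 := by rw [polar_comm]; exact hef
    have hQe := hA e he
    have hQf := hB f hfB
    have hee : polar Q e e = 0 := by rw [polar_self, hQe]; simp
    have hff : polar Q f f = 0 := by rw [polar_self, hQf]; simp
    have hlt : A ⊓ orth Q {f} < A := by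
      refine lt_of_le_of_ne inf_le_left ?_
      intro heq
      have : e ∈ A ⊓ orth Q {f} := by rw [heq]; exact he
      have h1 := mem_orth.1 this.2 f (by simp)
      rw [hfe] at h1
      exact one_ne_zero h1
    have hfr := Submodule.finrank_lt_finrank_of_lt hlt
    obtain ⟨l, hl, hlA, hlB⟩ := ih (A ⊓ orth Q {f}) (B ⊓ orth Q {e}) (by omega)
      (fun a ha => hA a ha.1) (fun b hb => hB b hb.1)
      (by
        intro a ha ha0
        obtain ⟨b, hb, hab⟩ := hAB a ha.1 ha0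
        have haf : polar Q f a = 0 := mem_orth.1 ha.2 f (by simp)
        refine ⟨b - polar Q e b • f,
          mem_inf_orth_singleton.2 ⟨B.sub_mem hb (B.smul_mem _ hfB), ?_⟩, ?_⟩
        · rw [polar_sub_right, polar_smul_right, hef]; simp
        · rw [polar_sub_right, polar_smul_right, polar_comm Q a f, haf]
          simpa using hab)
      (by
        intro b hb hb0
        obtain ⟨a, ha, hab⟩ := hBA b hb.1 hb0
        have hbe : polar Q e b = 0 := mem_orth.1 hb.2 e (by simp)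
        refine ⟨a - polar Q f a • e,
          mem_inf_orth_singleton.2 ⟨A.sub_mem ha (A.smul_mem _ he), ?_⟩, ?_⟩
        · rw [polar_sub_right, polar_smul_right, hfe]; simp
        · rw [polar_sub_left, polar_smul_left, hbe]
          simpa using hab)
    have hperp : ∀ v ∈ l, polar Q v e = 0 ∧ polar Q v f = 0 := by
      intro v hv
      obtain ⟨a, ha, b, hb, rfl⟩ := Submodule.mem_sup.1 (hl v hv).2
      have h1 : polar Q f a = 0 := mem_orth.1 ha.2 f (by simp)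
      have h2 : polar Q e b = 0 := mem_orth.1 hb.2 e (by simp)
      constructor
      · rw [polar_add_left, polar_eq_zero_of_sing hA ha.1 he, polar_comm Q b e, h2, add_zero]
      · rw [polar_add_left, polar_comm Q a f, h1, polar_eq_zero_of_sing hB hb.1 hfB, add_zero]
    have hge : (l.map (refl Q)).prod e = e := prod_refl_fix Q l e (fun v hv => (hperp v hv).1)
    have hgf : (l.map (refl Q)).prod f = f := prod_refl_fix Q l f (fun v hv => (hperp v hv).2)
    have hQef : Q (e - f) = -1 := by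
      have := Q_add_smul Q e f (-1)
      simp only [neg_smul, one_smul, ← sub_eq_add_neg] at this
      rw [this, hQe, hQf, hef]; ring
    have hre : refl Q (e - f) e = f := by
      rw [refl_apply, hQef, polar_sub_left, hee, hfe]
      have : ((-1 : F))⁻¹ * (0 - 1) = 1 := by norm_num
      rw [this, one_smul]; abel
    have hrf : refl Q (e - f) f = e := by
      rw [refl_apply, hQef, polar_sub_left, hef, hff]
      have : ((-1 : F))⁻¹ * (1 - 0) = -1 := by norm_num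
      rw [this, neg_smul, one_smul]; abel
    refine ⟨(e - f) :: l, ?_, ?_, ?_⟩
    · intro v hv
      rcases List.mem_cons.1 hv with rfl | hv
      · exact ⟨hQef, Submodule.sub_mem _ (Submodule.mem_sup_left he) (Submodule.mem_sup_right hfB)⟩
      · exact ⟨(hl v hv).1, (sup_le_sup inf_le_left inf_le_left : _ ≤ A ⊔ B) (hl v hv).2⟩
    · intro a ha
      simp only [List.map_cons, List.prod_cons, LinearEquiv.mul_apply]
      have ha' : a - polar Q f a • e ∈ A ⊓ orth Q {f} := by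
        refine mem_inf_orth_singleton.2 ⟨A.sub_mem ha (A.smul_mem _ he), ?_⟩
        rw [polar_sub_right, polar_smul_right, hfe]; simp
      have h1 := hlA _ ha'
      have e1 : a = (a - polar Q f a • e) + polar Q f a • e := by abel
      have h2 : polar Q (e - f) ((l.map (refl Q)).prod (a - polar Q f a • e)) = 0 := by
        rw [polar_sub_left, mem_orth.1 h1.2 e (by simp), polar_eq_zero_of_sing hB hfB h1.1, sub_zero]
      have e2 : refl Q (e - f) ((l.map (refl Q)).prod a)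
          = (l.map (refl Q)).prod (a - polar Q f a • e) + polar Q f a • f := by
        conv_lhs => rw [e1]
        rw [map_add, map_smul, hge, map_add, map_smul, hre, refl_apply_of_polar_eq_zero Q h2]
      rw [e2]
      exact B.add_mem h1.1 (B.smul_mem _ hfB)
    · intro b hb
      simp only [List.map_cons, List.prod_cons, LinearEquiv.mul_apply]
      have hb' : b - polar Q e b • f ∈ B ⊓ orth Q {e} := by
        refine mem_inf_orth_singleton.2 ⟨B.sub_mem hb (B.smul_mem _ hfB), ?_⟩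
        rw [polar_sub_right, polar_smul_right, hef]; simp
      have h1 := hlB _ hb'
      have e1 : b = (b - polar Q e b • f) + polar Q e b • f := by abel
      have h2 : polar Q (e - f) ((l.map (refl Q)).prod (b - polar Q e b • f)) = 0 := by
        rw [polar_sub_left, mem_orth.1 h1.2 f (by simp), polar_eq_zero_of_sing hA he h1.1, sub_zero]
      have e2 : refl Q (e - f) ((l.map (refl Q)).prod b)
          = (l.map (refl Q)).prod (b - polar Q e b • f) + polar Q e b • e := by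
        conv_lhs => rw [e1]
        rw [map_add, map_smul, hgf, map_add, map_smul, hrf, refl_apply_of_polar_eq_zero Q h2]
      rw [e2]
      exact A.add_mem h1.1 (A.smul_mem _ he)

/-- a pair of complementary totally singular subspaces -/
structure TSP (Q : QuadraticForm F V) (W₁ W₂ : Submodule F V) : Prop where
  sing₁ : ∀ w ∈ W₁, Q w = 0
  sing₂ : ∀ w ∈ W₂, Q w = 0
  compl : IsCompl W₁ W₂

lemma pairStab_symm {W₁ W₂ : Submodule F V} {φ : V ≃ₗ[F] V} :
    PairStab W₂ W₁ φ ↔ PairStab W₁ W₂ φ := by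
  unfold PairStab
  tauto

namespace TSP

variable {Q : QuadraticForm F V} {W₁ W₂ : Submodule F V} {G : Subgroup (V ≃ₗ[F] V)}

lemma symm (h : TSP Q W₁ W₂) : TSP Q W₂ W₁ := ⟨h.sing₂, h.sing₁, h.compl.symm⟩

lemma decomp (h : TSP Q W₁ W₂) (z : V) : ∃ a ∈ W₁, ∃ b ∈ W₂, a + b = z :=
  Submodule.mem_sup.1 (by rw [h.compl.sup_eq_top]; trivial)

lemma polar₁ (h : TSP Q W₁ W₂) {x y : V} (hx : x ∈ W₁) (hy : y ∈ W₁) : polar Q x y = 0 :=
  polar_eq_zero_of_sing h.sing₁ hx hy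

lemma polar₂ (h : TSP Q W₁ W₂) {x y : V} (hx : x ∈ W₂) (hy : y ∈ W₂) : polar Q x y = 0 :=
  polar_eq_zero_of_sing h.sing₂ hx hy

lemma exists_comp₂ (h : TSP Q W₁ W₂) (w : V) : ∃ d ∈ W₂, ∀ x ∈ W₁, polar Q d x = polar Q w x := by
  obtain ⟨a, ha, d, hd, rfl⟩ := h.decomp w
  exact ⟨d, hd, fun x hx => by rw [polar_add_left, h.polar₁ ha hx, zero_add]⟩

lemma pairStab_eichler (h : TSP Q W₁ W₂) {a b : V} (ha : a ∈ W₁) (hb : b ∈ W₂) (hQa : Q a = 0)
    (hab : polar Q a b = 0) : PairStab W₁ W₂ (eichler Q a b hQa hab) := by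
  left
  constructor
  · intro x hx
    rw [eichler_apply, h.polar₁ ha hx]
    simp only [zero_smul, mul_zero, sub_zero]
    exact W₁.add_mem hx (W₁.smul_mem _ ha)
  · intro x hx
    rw [eichler_apply, h.polar₂ hb hx, h.sing₂ b hb]
    simp only [zero_smul, zero_mul, sub_zero, add_zero]
    exact W₂.sub_mem hx (W₂.smul_mem _ hb)

lemma base [Fintype F] [FiniteDimensional F V] (h : TSP Q W₁ W₂)
    (hQ : (polarBilin Q).Nondegenerate) (hdim : 4 < finrank F V)
    (hG : ∀ φ ∈ Om Q, PairStab W₁ W₂ φ → φ ∈ G) {c b : V} (hc : c ∈ W₁) (hb : b ∈ W₂)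
    (hQc : Q c = 0) (hcb : polar Q c b = 0) : b ∈ AE Q G c hQc :=
  ⟨hcb, hG _ (eichler_mem_Om hQ hdim _ _ _ _) (h.pairStab_eichler hc hb hQc hcb)⟩

lemma fillT [Fintype F] [FiniteDimensional F V] (h : TSP Q W₁ W₂)
    (hQ : (polarBilin Q).Nondegenerate) (hdim : 4 < finrank F V) (h3 : 3 ≤ finrank F W₁)
    (hG : ∀ φ ∈ Om Q, PairStab W₁ W₂ φ → φ ∈ G) {c x : V} (hc : c ∈ W₁) (hQc : Q c = 0)
    (hx : x ∈ W₁) (hxAE : x ∈ AE Q G c hQc) (hxc : x ∉ Submodule.span F {c}) :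
    ∀ a ∈ W₁, a ∈ AE Q G c hQc := by
  classical
  have step : ∀ a ∈ W₁, a ∉ Submodule.span F ({x, c} : Set V) → a ∈ AE Q G c hQc := by
    intro a ha hax
    have hx' : x ∉ Submodule.span F ((({a, c} : Finset V)) : Set V) := by
      rw [Finset.coe_insert, Finset.coe_singleton, Submodule.mem_span_pair]
      rintro ⟨α, β, hab⟩
      by_cases hα : α = 0
      · apply hxc
        rw [← hab, hα, zero_smul, zero_add]
        exact Submodule.smul_mem _ _ (Submodule.mem_span_singleton_self c)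
      · apply hax
        rw [Submodule.mem_span_pair]
        refine ⟨α⁻¹, -(α⁻¹ * β), ?_⟩
        rw [← hab, smul_add, smul_smul, smul_smul, inv_mul_cancel₀ hα]
        module
    obtain ⟨w, hw, hwx⟩ := exists_orth_ne hQ {a, c} hx'
    rw [mem_orth] at hw
    obtain ⟨d, hd, hdW⟩ := h.exists_comp₂ w
    have hda : polar Q d a = 0 := by rw [hdW a ha, polar_comm]; exact hw a (by simp)
    have hdc : polar Q d c = 0 := by rw [hdW c hc, polar_comm]; exact hw c (by simp)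
    have hdx : polar Q d x ≠ 0 := by rw [hdW x hx]; exact hwx
    set b : V := (polar Q d x)⁻¹ • d with hb
    have hbW : b ∈ W₂ := W₂.smul_mem _ hd
    have hab : polar Q a b = 0 := by rw [hb, polar_smul_right, polar_comm Q a d, hda]; simp
    have hbc : polar Q b c = 0 := by rw [hb, polar_smul_left, hdc]; simp
    have hbx : polar Q b x = 1 := by rw [hb, polar_smul_left, smul_eq_mul, inv_mul_cancel₀ hdx]
    have hE : eichler Q a b (h.sing₁ a ha) hab ∈ G :=
      hG _ (eichler_mem_Om hQ hdim _ _ _ _) (h.pairStab_eichler ha hbW _ hab)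
    have hfix : eichler Q a b (h.sing₁ a ha) hab c = c := by
      rw [eichler_apply, hbc, h.polar₁ ha hc]; simp
    have h1 := AE_fix hE (eichler_mem Q _ _ _ _) hfix hxAE
    rw [eichler_apply, hbx, h.polar₁ ha hx] at h1
    simp only [one_smul, zero_smul, mul_zero, sub_zero] at h1
    have := (AE Q G c hQc).sub_mem h1 hxAE
    simpa using this
  obtain ⟨t, ht, htx⟩ := exists_not_mem_span_pair W₁ h3 x c
  intro a ha
  by_cases hax : a ∈ Submodule.span F ({x, c} : Set V)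
  · have h1 : a + t ∉ Submodule.span F ({x, c} : Set V) := fun hm =>
      htx ((Submodule.add_mem_iff_right _ hax).1 hm)
    have := (AE Q G c hQc).sub_mem (step _ (W₁.add_mem ha ht) h1) (step t ht htx)
    simpa using this
  · exact step a ha hax

lemma UU_of_mixed [Fintype F] [FiniteDimensional F V] (h : TSP Q W₁ W₂)
    (hQ : (polarBilin Q).Nondegenerate) (hdim : 4 < finrank F V) (h3 : 3 ≤ finrank F W₁)
    (hG : ∀ φ ∈ Om Q, PairStab W₁ W₂ φ → φ ∈ G) {c a₁ a₂ : V} (hc : c ∈ W₁) (hQc : Q c = 0)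
    (ha₁ : a₁ ∈ W₁) (ha₂ : a₂ ∈ W₂) (ha : a₁ + a₂ ∈ AE Q G c hQc)
    (hac : a₁ ∉ Submodule.span F {c}) : c ∈ UU Q G := by
  have hca := ha.1
  rw [polar_add_right, h.polar₁ hc ha₁, zero_add] at hca
  have h2 := h.base hQ hdim hG hc ha₂ hQc hca
  have h1 : a₁ ∈ AE Q G c hQc := by
    have := (AE Q G c hQc).sub_mem ha h2
    simpa using this
  have hfill := h.fillT hQ hdim h3 hG hc hQc ha₁ h1 hac
  apply mem_UU_of_AE hQc
  intro v hv
  obtain ⟨v₁, hv₁, v₂, hv₂, rfl⟩ := h.decomp v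
  rw [polar_add_right, h.polar₁ hc hv₁, zero_add] at hv
  exact (AE Q G c hQc).add_mem (hfill v₁ hv₁) (h.base hQ hdim hG hc hv₂ hQc hv)

lemma UU_all₁ [Fintype F] [FiniteDimensional F V] (h : TSP Q W₁ W₂)
    (hQ : (polarBilin Q).Nondegenerate) (hdim : 4 < finrank F V)
    (hG : ∀ φ ∈ Om Q, PairStab W₁ W₂ φ → φ ∈ G) {c : V} (hc : c ∈ W₁) (hc0 : c ≠ 0)
    (hcU : c ∈ UU Q G) : ∀ c₁ ∈ W₁, c₁ ∈ UU Q G := by
  intro c₁ hc₁
  by_cases hs : c₁ ∈ Submodule.span F {c}
  · obtain ⟨l, rfl⟩ := Submodule.mem_span_singleton.1 hs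
    exact UU_smul hcU l
  · have hnot : c ∉ Submodule.span F {c₁ - c} := by
      intro hmem
      obtain ⟨l, hl⟩ := Submodule.mem_span_singleton.1 hmem
      apply hs
      by_cases hl0 : l = 0
      · rw [hl0, zero_smul] at hl
        exact absurd hl.symm hc0
      · rw [Submodule.mem_span_singleton]
        refine ⟨l⁻¹ * (1 + l), ?_⟩
        have : l • c₁ = (1 + l) • c := by
          rw [smul_sub] at hl
          rw [add_smul, one_smul]
          exact sub_eq_iff_eq_add.1 hl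
        rw [mul_smul, ← this, smul_smul, inv_mul_cancel₀ hl0, one_smul]
    obtain ⟨w, hw1, hw2⟩ := exists_perp_polar_eq_one hQ hnot
    obtain ⟨b, hb, hbW⟩ := h.exists_comp₂ w
    have ha : c₁ - c ∈ W₁ := W₁.sub_mem hc₁ hc
    have hab : polar Q (c₁ - c) b = 0 := by rw [polar_comm, hbW _ ha, polar_comm]; exact hw1
    have hbc : polar Q b c = 1 := by rw [hbW c hc]; exact hw2
    have hE : eichler Q (c₁ - c) b (h.sing₁ _ ha) hab ∈ G :=
      hG _ (eichler_mem_Om hQ hdim _ _ _ _) (h.pairStab_eichler ha hb _ hab)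
    have h1 := UU_map hcU hE (eichler_mem Q _ _ _ _)
    rw [eichler_apply, hbc, h.polar₁ ha hc] at h1
    simp only [one_smul, zero_smul, mul_zero, sub_zero] at h1
    have e : c + (c₁ - c) = c₁ := by abel
    rwa [e] at h1

lemma stepS [Fintype F] [FiniteDimensional F V] (h : TSP Q W₁ W₂)
    (hQ : (polarBilin Q).Nondegenerate) (hdim : 4 < finrank F V) (h5 : 5 ≤ finrank F W₁)
    (hG : ∀ φ ∈ Om Q, PairStab W₁ W₂ φ → φ ∈ G) {y b y₁ y₂ b₁ b₂ : V} (hy : y = y₁ + y₂)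
    (hb : b = b₁ + b₂) (hy₁ : y₁ ∈ W₁) (hy₂ : y₂ ∈ W₂) (hb₁ : b₁ ∈ W₁) (hb₂ : b₂ ∈ W₂)
    (hQy : Q y = 0) (hbAE : b ∈ AE Q G y hQy) (hy₁0 : y₁ ≠ 0)
    (hb₁y : b₁ ∉ Submodule.span F {y₁}) : ∃ c ∈ W₁, c ≠ 0 ∧ c ∈ UU Q G := by
  classical
  have hcard : ({y, b} : Finset V).card ≤ 2 := Finset.card_le_two
  have hfr := finrank_inf_orth hQ W₁ {y, b}
  obtain ⟨c, hc, hcs⟩ := exists_not_mem_span_pair (W₁ ⊓ orth Q {y, b}) (by omega) y₁ b₁
  have hcW := hc.1
  have hco := mem_orth.1 hc.2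
  have hyc : polar Q y c = 0 := hco y (by simp)
  have hbc : polar Q b c = 0 := hco b (by simp)
  have hQc := h.sing₁ c hcW
  have hc0 : c ≠ 0 := by
    rintro rfl
    exact hcs (Submodule.zero_mem _)
  have hnot : b₁ ∉ Submodule.span F ((({y₁, c} : Finset V)) : Set V) := by
    rw [Finset.coe_insert, Finset.coe_singleton, Submodule.mem_span_pair]
    rintro ⟨α, β, hab⟩
    by_cases hβ : β = 0
    · apply hb₁y
      rw [← hab, hβ, zero_smul, add_zero]
      exact Submodule.smul_mem _ _ (Submodule.mem_span_singleton_self _)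
    · apply hcs
      rw [Submodule.mem_span_pair]
      refine ⟨-(β⁻¹ * α), β⁻¹, ?_⟩
      rw [← hab, smul_add, smul_smul, smul_smul, inv_mul_cancel₀ hβ]
      module
  obtain ⟨w, hw, hwb⟩ := exists_orth_ne hQ {y₁, c} hnot
  rw [mem_orth] at hw
  obtain ⟨d, hd, hdW⟩ := h.exists_comp₂ w
  have hdy : polar Q d y₁ = 0 := by rw [hdW _ hy₁, polar_comm]; exact hw _ (by simp)
  have hdc : polar Q d c = 0 := by rw [hdW _ hcW, polar_comm]; exact hw _ (by simp)
  have hdb : polar Q d b₁ ≠ 0 := by rw [hdW _ hb₁]; exact hwb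
  obtain ⟨hyb, hE⟩ := hbAE
  have hfix : eichler Q y b hQy hyb c = c := by
    rw [eichler_apply, hbc, hyc]; simp
  have hdAE : d ∈ AE Q G c hQc :=
    h.base hQ hdim hG hcW hd hQc (by rw [polar_comm]; exact hdc)
  have h1 := AE_fix hE (eichler_mem Q _ _ _ _) hfix hdAE
  have hyd : polar Q y d = 0 := by
    rw [hy, polar_add_left, polar_comm Q y₁ d, hdy, h.polar₂ hy₂ hd, add_zero]
  have hbd : polar Q b d = polar Q d b₁ := by
    rw [hb, polar_add_left, h.polar₂ hb₂ hd, add_zero, polar_comm]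
  rw [eichler_apply, hyd, hbd] at h1
  simp only [zero_smul, mul_zero, sub_zero] at h1
  have e1 : d + polar Q d b₁ • y = polar Q d b₁ • y₁ + (d + polar Q d b₁ • y₂) := by
    rw [hy]; module
  rw [e1] at h1
  refine ⟨c, hcW, hc0, h.UU_of_mixed hQ hdim (by omega) hG hcW hQc (W₁.smul_mem _ hy₁)
    (W₂.add_mem hd (W₂.smul_mem _ hy₂)) h1 ?_⟩
  intro hmem
  obtain ⟨l, hl⟩ := Submodule.mem_span_singleton.1 hmem
  have hl0 : l ≠ 0 := by
    rintro rfl
    rw [zero_smul] at hl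
    rcases smul_eq_zero.1 hl.symm with h0 | h0
    · exact hdb h0
    · exact hy₁0 h0
  apply hcs
  rw [Submodule.mem_span_pair]
  refine ⟨l⁻¹ * polar Q d b₁, 0, ?_⟩
  rw [mul_smul, ← hl, smul_smul, inv_mul_cancel₀ hl0]
  simp

lemma stepY [Fintype F] [FiniteDimensional F V] (h : TSP Q W₁ W₂)
    (hQ : (polarBilin Q).Nondegenerate) (hdim : 4 < finrank F V) (h5 : 5 ≤ finrank F W₁)
    (h5' : 5 ≤ finrank F W₂)
    (hG : ∀ φ ∈ Om Q, PairStab W₁ W₂ φ → φ ∈ G) {φ0 : V ≃ₗ[F] V} (hφ0 : φ0 ∈ G)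
    (hφO : φ0 ∈ OQ Q) {x : V} (hx : x ∈ W₁) (hx1 : φ0 x ∉ W₁) (hx2 : φ0 x ∉ W₂) :
    (∃ c ∈ W₁, c ≠ 0 ∧ c ∈ UU Q G) ∨ (∃ c ∈ W₂, c ≠ 0 ∧ c ∈ UU Q G) := by
  classical
  obtain ⟨y₁, hy₁, y₂, hy₂, hy⟩ := h.decomp (φ0 x)
  have hy₁0 : y₁ ≠ 0 := by
    rintro rfl
    rw [zero_add] at hy
    exact hx2 (hy ▸ hy₂)
  have hy₂0 : y₂ ≠ 0 := by
    rintro rfl
    rw [add_zero] at hy
    exact hx1 (hy ▸ hy₁)
  have hfr := finrank_inf_orth hQ W₂ {x}
  simp only [Finset.card_singleton] at hfr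
  have hfr2 := LinearEquiv.finrank_map_eq φ0 (W₂ ⊓ orth Q {x})
  obtain ⟨b, hbm, hbs⟩ := exists_not_mem_span_pair ((W₂ ⊓ orth Q {x}).map (φ0 : V →ₗ[F] V))
    (by omega) y₁ y₂
  obtain ⟨v, hv, rfl⟩ := hbm
  have hvW := hv.1
  have hxv : polar Q x v = 0 := mem_orth.1 hv.2 x (by simp)
  have hQx := h.sing₁ x hx
  have hQy : Q (φ0 x) = 0 := by rw [mem_OQ.1 hφO]; exact hQx
  have hbAE : φ0 v ∈ AE Q G (φ0 x) hQy := AE_map hφ0 hφO (h.base hQ hdim hG hx hvW hQx hxv) _
  change φ0 v ∉ _ at hbs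
  obtain ⟨b₁, hb₁, b₂, hb₂, hb⟩ := h.decomp (φ0 v)
  by_cases hc : b₁ ∈ Submodule.span F {y₁}
  · right
    have hb₂y : b₂ ∉ Submodule.span F {y₂} := by
      intro hc2
      obtain ⟨α, hα⟩ := Submodule.mem_span_singleton.1 hc
      obtain ⟨β, hβ⟩ := Submodule.mem_span_singleton.1 hc2
      apply hbs
      rw [Submodule.mem_span_pair]
      exact ⟨α, β, by rw [hα, hβ, hb]⟩
    exact h.symm.stepS hQ hdim h5' (fun φ hφ hs => hG φ hφ (pairStab_symm.1 hs))
      (by rw [← hy, add_comm]) (by rw [← hb, add_comm]) hy₂ hy₁ hb₂ hb₁ hQy hbAE hy₂0 hb₂y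
  · left
    exact h.stepS hQ hdim h5 hG hy.symm hb.symm hy₁ hy₂ hb₁ hb₂ hQy hbAE hy₁0 hc

lemma final [Fintype F] [FiniteDimensional F V] (h : TSP Q W₁ W₂)
    (hQ : (polarBilin Q).Nondegenerate) (hdim : 12 < finrank F V)
    (hG : ∀ φ ∈ Om Q, PairStab W₁ W₂ φ → φ ∈ G) {c : V} (hc : c ∈ W₁) (hc0 : c ≠ 0)
    (hcU : c ∈ UU Q G) {J : V ≃ₗ[F] V} (hJG : J ∈ G) (hJO : J ∈ OQ Q) (hJ : ∀ w ∈ W₁, J w ∈ W₂) :
    Om Q ≤ G := by
  have hJc := UU_map hcU hJG hJO
  have hJc0 : J c ≠ 0 := fun hh => hc0 (by simpa using hh)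
  obtain ⟨z, hz⟩ := polar_nondeg_exists hQ hJc0
  obtain ⟨c₁, hc₁, hc₁W⟩ := h.symm.exists_comp₂ z
  have h1 : polar Q c₁ (J c) = 1 := by rw [hc₁W _ (hJ c hc)]; exact hz
  exact Om_le_of_UU hQ hdim (h.UU_all₁ hQ (by omega) hG hc hc0 hcU c₁ hc₁) hJc
    (by rw [h1]; exact one_ne_zero)

lemma exists_swap [Fintype F] [FiniteDimensional F V] (h : TSP Q W₁ W₂)
    (hQ : (polarBilin Q).Nondegenerate) (h4 : finrank F V ≠ 4)
    (hk : 2 * finrank F W₁ = finrank F V) (hev : Even (finrank F W₁)) :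
    ∃ J ∈ Om Q, (∀ w ∈ W₁, J w ∈ W₂) ∧ (∀ w ∈ W₂, J w ∈ W₁) := by
  obtain ⟨l, hl, hl1, hl2⟩ := exists_swap_aux Q (finrank F W₁) W₁ W₂ le_rfl h.sing₁ h.sing₂
    (by
      intro a ha ha0
      obtain ⟨z, hz⟩ := polar_nondeg_exists hQ ha0
      obtain ⟨d, hd, hdW⟩ := h.exists_comp₂ z
      exact ⟨d, hd, by rw [polar_comm, hdW a ha, hz]; exact one_ne_zero⟩)
    (by
      intro b hb hb0
      obtain ⟨z, hz⟩ := polar_nondeg_exists hQ hb0
      obtain ⟨d, hd, hdW⟩ := h.symm.exists_comp₂ z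
      exact ⟨d, hd, by rw [hdW b hb, hz]; exact one_ne_zero⟩)
  have hne : ∀ v ∈ l, Q v ≠ 0 := fun v hv => by rw [(hl v hv).1]; simp
  have hpar := even_finrank_inf_map_prod hQ h.sing₁ hk l hne
  have hle : W₁ ⊓ W₁.map ((l.map (refl Q)).prod : V →ₗ[F] V) ≤ ⊥ := by
    rw [← h.compl.inf_eq_bot]
    refine inf_le_inf_left _ ?_
    rintro _ ⟨w, hw, rfl⟩
    exact hl1 w hw
  rw [le_bot_iff.1 hle, finrank_bot, add_zero] at hpar
  have hlen : Even l.length := (Nat.even_add.1 hpar).1 hev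
  refine ⟨(l.map (refl Q)).prod, prod_refl_mem_Om hQ h4 l hne hlen ?_, hl1, hl2⟩
  have : (l.map Q).prod = (-1) ^ l.length := by
    have := List.prod_eq_pow_card (l.map Q) (-1) (by
      intro x hx
      obtain ⟨v, hv, rfl⟩ := List.mem_map.1 hx
      exact (hl v hv).1)
    rwa [List.length_map] at this
  rw [this, hlen.neg_one_pow]
  exact ⟨1, by simp⟩

theorem core [Fintype F] [FiniteDimensional F V] (h : TSP Q W₁ W₂)
    (hQ : (polarBilin Q).Nondegenerate) (hdim : 12 < finrank F V)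
    (hk : 2 * finrank F W₁ = finrank F V) (hev : Even (finrank F W₁))
    (hG : ∀ φ ∈ Om Q, PairStab W₁ W₂ φ → φ ∈ G) (hGO : G ≤ Om Q) {φ0 : V ≃ₗ[F] V}
    (hφ0 : φ0 ∈ G) (hns : ¬ PairStab W₁ W₂ φ0) : Om Q ≤ G := by
  have hadd := Submodule.finrank_add_eq_of_isCompl h.compl
  have hφO : φ0 ∈ OQ Q := Om_le_OQ Q (hGO hφ0)
  obtain ⟨J, hJOm, hJ1, hJ2⟩ := h.exists_swap hQ (by omega) hk hev
  have hJG : J ∈ G := hG J hJOm (Or.inr ⟨hJ1, hJ2⟩)
  have hG' : ∀ φ ∈ Om Q, PairStab W₂ W₁ φ → φ ∈ G := fun φ hφ hs => hG φ hφ (pairStab_symm.1 hs)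
  have hfin : (∃ c ∈ W₁, c ≠ 0 ∧ c ∈ UU Q G) ∨ (∃ c ∈ W₂, c ≠ 0 ∧ c ∈ UU Q G) → Om Q ≤ G := by
    rintro (⟨c, hc, hc0, hcU⟩ | ⟨c, hc, hc0, hcU⟩)
    · exact h.final hQ hdim hG hc hc0 hcU hJG (Om_le_OQ Q hJOm) hJ1
    · exact h.symm.final hQ hdim hG' hc hc0 hcU hJG (Om_le_OQ Q hJOm) hJ2
  by_cases hc1 : ∃ x ∈ W₁, φ0 x ∉ W₁ ∧ φ0 x ∉ W₂
  · obtain ⟨x, hx, hx1, hx2⟩ := hc1
    exact hfin (h.stepY hQ (by omega) (by omega) (by omega) hG hφ0 hφO hx hx1 hx2)
  by_cases hc2 : ∃ x ∈ W₂, φ0 x ∉ W₁ ∧ φ0 x ∉ W₂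
  · obtain ⟨x, hx, hx1, hx2⟩ := hc2
    exact hfin (h.symm.stepY hQ (by omega) (by omega) (by omega) hG' hφ0 hφO hx hx2 hx1).symm
  exfalso
  push Not at hc1 hc2
  have k1 : W₁ ≤ W₁.comap (φ0 : V →ₗ[F] V) ∨ W₁ ≤ W₂.comap (φ0 : V →ₗ[F] V) :=
    le_or_le_of_forall (fun a ha => by
      by_cases h1 : φ0 a ∈ W₁
      · exact Or.inl h1
      · exact Or.inr (hc1 a ha h1))
  have k2 : W₂ ≤ W₁.comap (φ0 : V →ₗ[F] V) ∨ W₂ ≤ W₂.comap (φ0 : V →ₗ[F] V) :=
    le_or_le_of_forall (fun a ha => by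
      by_cases h1 : φ0 a ∈ W₁
      · exact Or.inl h1
      · exact Or.inr (hc2 a ha h1))
  have hall : ∀ (A : Submodule F V), finrank F A < finrank F V → W₁ ≤ A.comap (φ0 : V →ₗ[F] V) →
      W₂ ≤ A.comap (φ0 : V →ₗ[F] V) → False := by
    intro A hA h1 h2
    have h3 : (⊤ : Submodule F V) ≤ A.comap (φ0 : V →ₗ[F] V) := by
      rw [← h.compl.sup_eq_top]; exact sup_le h1 h2
    have h4 : (⊤ : Submodule F V).map (φ0 : V →ₗ[F] V) ≤ A := Submodule.map_le_iff_le_comap.2 h3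
    have h5 := Submodule.finrank_mono h4
    rw [LinearEquiv.finrank_map_eq φ0 ⊤, finrank_top] at h5
    omega
  rcases k1 with k1 | k1 <;> rcases k2 with k2 | k2
  · exact hall W₁ (by omega) k1 k2
  · exact hns (Or.inl ⟨k1, k2⟩)
  · exact hns (Or.inr ⟨k1, k2⟩)
  · exact hall W₂ (by omega) k1 k2

theorem ne [Fintype F] [FiniteDimensional F V] (h : TSP Q W₁ W₂)
    (hQ : (polarBilin Q).Nondegenerate) (hdim : 4 < finrank F V) (h2 : 2 ≤ finrank F W₁) :
    ∃ φ ∈ Om Q, ¬ PairStab W₁ W₂ φ := by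
  have hW0 : W₁ ≠ ⊥ := by
    intro hb
    rw [hb, finrank_bot] at h2
    omega
  obtain ⟨u, hu, hu0⟩ := Submodule.exists_mem_ne_zero_of_ne_bot hW0
  obtain ⟨v, hv, hvu⟩ := exists_mem_not_mem_span_singleton W₁ h2 u
  obtain ⟨z, hz⟩ := polar_nondeg_exists hQ hu0
  obtain ⟨x, hx, hxW⟩ := h.exists_comp₂ z
  have hxu : polar Q x u = 1 := by rw [hxW u hu]; exact hz
  have huv : polar Q u v = 0 := h.polar₁ hu hv
  refine ⟨eichler Q u v (h.sing₁ u hu) huv, eichler_mem_Om hQ hdim _ _ _ _, ?_⟩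
  rintro (⟨-, hs⟩ | ⟨hs, -⟩)
  · have h2 := hs x hx
    rw [eichler_apply, h.sing₁ v hv, polar_comm Q u x, hxu] at h2
    simp only [zero_mul, zero_smul, sub_zero, one_smul] at h2
    have h3 : polar Q v x • u - v ∈ W₂ := by
      have := W₂.sub_mem h2 hx
      have e : x + polar Q v x • u - v - x = polar Q v x • u - v := by abel
      rwa [e] at this
    have h4 : polar Q v x • u - v ∈ W₁ := W₁.sub_mem (W₁.smul_mem _ hu) hv
    have h5 : polar Q v x • u - v ∈ W₁ ⊓ W₂ := ⟨h4, h3⟩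
    rw [h.compl.inf_eq_bot, Submodule.mem_bot, sub_eq_zero] at h5
    apply hvu
    rw [← h5]
    exact Submodule.smul_mem _ _ (Submodule.mem_span_singleton_self u)
  · have h2 := hs u hu
    rw [eichler_apply, polar_comm Q v u, huv, polar_self, h.sing₁ u hu] at h2
    simp only [zero_smul, add_zero, smul_zero, mul_zero, sub_zero] at h2
    have h5 : u ∈ W₁ ⊓ W₂ := ⟨hu, h2⟩
    rw [h.compl.inf_eq_bot, Submodule.mem_bot] at h5
    exact hu0 h5

end TSP

end Cfsg.Agent.Lib.Helper13.O
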