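import Mathlib
import Cfsg.Prelude.Def_ClassicalGeometry

set_option autoImplicit false

namespace Cfsg.Agent.Lib.Helper13

open Matrix

section blocks

variable {F : Type*} [Field F] {α β : Type*} [Fintype α] [Fintype β] [DecidableEq α] [DecidableEq β]

theorem gl_det_ne_zero {ι : Type*} [Fintype ι] [DecidableEq ι] (g : Matrix.GeneralLinearGroup ι F) :
    (g : Matrix ι ι F).det ≠ 0 :=
  ((Matrix.isUnit_iff_isUnit_det _).mp g.isUnit).ne_zero

omit [Fintype α] [Fintype β] [DecidableEq α] [DecidableEq β] in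
theorem block_eq (g : Matrix (α ⊕ β) (α ⊕ β) F) (h : g.toBlocks₂₁ = 0) :
    g = fromBlocks g.toBlocks₁₁ g.toBlocks₁₂ 0 g.toBlocks₂₂ := by
  conv_lhs => rw [← fromBlocks_toBlocks g, h]

theorem block_det (g : Matrix (α ⊕ β) (α ⊕ β) F) (h : g.toBlocks₂₁ = 0) :
    g.det = g.toBlocks₁₁.det * g.toBlocks₂₂.det := by
  conv_lhs => rw [block_eq g h, det_fromBlocks_zero₂₁]

/-- Block upper triangular invertible matrices are parametrised by their three blocks. -/
noncomputable def blockEquiv :
    {g : Matrix.GeneralLinearGroup (α ⊕ β) F // (g : Matrix (α ⊕ β) (α ⊕ β) F).toBlocks₂₁ = 0} ≃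
    Matrix.GeneralLinearGroup α F × Matrix.GeneralLinearGroup β F × Matrix α β F where
  toFun g :=
    (Matrix.GeneralLinearGroup.mkOfDetNeZero (g.1 : Matrix (α ⊕ β) (α ⊕ β) F).toBlocks₁₁ (by
        have h := gl_det_ne_zero g.1
        rw [block_det _ g.2] at h
        exact left_ne_zero_of_mul h),
     Matrix.GeneralLinearGroup.mkOfDetNeZero (g.1 : Matrix (α ⊕ β) (α ⊕ β) F).toBlocks₂₂ (by
        have h := gl_det_ne_zero g.1
        rw [block_det _ g.2] at h
        exact right_ne_zero_of_mul h),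
     (g.1 : Matrix (α ⊕ β) (α ⊕ β) F).toBlocks₁₂)
  invFun x := ⟨Matrix.GeneralLinearGroup.mkOfDetNeZero
      (fromBlocks (x.1 : Matrix α α F) x.2.2 0 (x.2.1 : Matrix β β F)) (by
        rw [det_fromBlocks_zero₂₁]
        exact mul_ne_zero (gl_det_ne_zero x.1) (gl_det_ne_zero x.2.1)), by
      change (fromBlocks (x.1 : Matrix α α F) x.2.2 0 (x.2.1 : Matrix β β F)).toBlocks₂₁ = 0
      simp⟩
  left_inv g := by
    apply Subtype.ext
    apply Units.ext
    exact (block_eq _ g.2).symm
  right_inv x := by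
    refine Prod.ext ?_ (Prod.ext ?_ ?_)
    · apply Units.ext
      change (fromBlocks (x.1 : Matrix α α F) x.2.2 0 (x.2.1 : Matrix β β F)).toBlocks₁₁ = _
      simp
    · apply Units.ext
      change (fromBlocks (x.1 : Matrix α α F) x.2.2 0 (x.2.1 : Matrix β β F)).toBlocks₂₂ = _
      simp
    · change (fromBlocks (x.1 : Matrix α α F) x.2.2 0 (x.2.1 : Matrix β β F)).toBlocks₁₂ = _
      simp

end blocks

section fin

variable {F : Type*} [Field F]

/-- The splitting of `Fin n` in the first `k` and the last `n - k` indices. -/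
def splitEquiv (n k : ℕ) (hk : k ≤ n) : Fin k ⊕ Fin (n - k) ≃ Fin n :=
  finSumFinEquiv.trans (finCongr (Nat.add_sub_cancel' hk))

theorem splitEquiv_inl (n k : ℕ) (hk : k ≤ n) (a : Fin k) :
    ((splitEquiv n k hk (Sum.inl a) : Fin n) : ℕ) = a := by
  simp [splitEquiv]

theorem splitEquiv_inr (n k : ℕ) (hk : k ≤ n) (b : Fin (n - k)) :
    ((splitEquiv n k hk (Sum.inr b) : Fin n) : ℕ) = k + b := by
  simp [splitEquiv]

theorem exists_inl_of_lt (n k : ℕ) (hk : k ≤ n) (i : Fin n) (hi : (i : ℕ) < k) :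
    ∃ a, splitEquiv n k hk (Sum.inl a) = i :=
  ⟨⟨i, hi⟩, Fin.ext (by rw [splitEquiv_inl])⟩

theorem exists_inr_of_le (n k : ℕ) (hk : k ≤ n) (i : Fin n) (hi : k ≤ (i : ℕ)) :
    ∃ b, splitEquiv n k hk (Sum.inr b) = i :=
  ⟨⟨i - k, by have := i.2; omega⟩, Fin.ext (by rw [splitEquiv_inr]; simp; omega)⟩

/-- The coordinate subspace spanned by the first `k` basis vectors, as a set. -/
def coordSet (F : Type*) [Field F] (n k : ℕ) : Set (Fin n → F) :=
  {v : Fin n → F | ∀ i : Fin n, k ≤ (i : ℕ) → v i = 0}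

theorem mem_coordSet_iff (n k : ℕ) (hk : k ≤ n) (v : Fin n → F) :
    v ∈ coordSet F n k ↔ (v ∘ splitEquiv n k hk) ∘ Sum.inr = 0 := by
  constructor
  · intro h
    funext b
    exact h _ (by rw [splitEquiv_inr]; omega)
  · intro h i hi
    obtain ⟨b, rfl⟩ := exists_inr_of_le n k hk i hi
    exact congrFun h b

/-- Entrywise description of the stabiliser of the coordinate subspace. -/
theorem mem_stabilizing_coord_iff (n k : ℕ) (hk : k ≤ n) (g : Matrix.GeneralLinearGroup (Fin n) F) :
    g ∈ Cfsg.stabilizing (Cfsg.glToMat (Fin n) F) (coordSet F n k) ↔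
      ((g : Matrix (Fin n) (Fin n) F).submatrix (splitEquiv n k hk) (splitEquiv n k hk)).toBlocks₂₁
        = 0 := by
  set e := splitEquiv n k hk with he
  set M : Matrix (Fin n) (Fin n) F := g.1 with hM
  constructor
  · intro h
    ext b a
    have h1 : (Pi.single (e (Sum.inl a)) 1 : Fin n → F) ∈ coordSet F n k := by
      intro i hi
      have : i ≠ e (Sum.inl a) := by
        intro hh
        rw [hh, he, splitEquiv_inl] at hi
        have := a.2
        omega
      simp [this]
    have h2 := (h _).mp h1 (e (Sum.inr b)) (by rw [he, splitEquiv_inr]; omega)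
    simpa [toBlocks₂₁, hM] using h2
  · intro h v
    change v ∈ coordSet F n k ↔ M *ᵥ v ∈ coordSet F n k
    rw [mem_coordSet_iff n k hk, mem_coordSet_iff n k hk, ← he]
    have h1 : (M *ᵥ v) ∘ e = (M.submatrix e e) *ᵥ (v ∘ e) := by
      rw [Matrix.submatrix_mulVec_equiv]
      simp [Function.comp_assoc]
    rw [h1, block_eq _ h, fromBlocks_mulVec]
    simp only [zero_mulVec, zero_add]
    have hdet : (M.submatrix e e).toBlocks₂₂.det ≠ 0 := by
      have h2 : (M.submatrix e e).det ≠ 0 := by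
        rw [Matrix.det_submatrix_equiv_self]
        exact gl_det_ne_zero g
      rw [block_det _ h] at h2
      exact right_ne_zero_of_mul h2
    constructor
    · intro hv
      funext b
      simp [hv]
    · intro hv
      have h3 : (M.submatrix e e).toBlocks₂₂ *ᵥ ((v ∘ e) ∘ Sum.inr) = 0 := by
        funext b
        have := congrFun hv b
        simpa using this
      exact Matrix.eq_zero_of_mulVec_eq_zero hdet h3

theorem mem_stabilizing_coord_iff' (n k : ℕ) (hk : k ≤ n) (g : Matrix.GeneralLinearGroup (Fin n) F) :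
    g ∈ Cfsg.stabilizing (Cfsg.glToMat (Fin n) F) (coordSet F n k) ↔
      ∀ i j : Fin n, k ≤ (i : ℕ) → (j : ℕ) < k → (g : Matrix (Fin n) (Fin n) F) i j = 0 := by
  rw [mem_stabilizing_coord_iff n k hk]
  constructor
  · intro h i j hi hj
    obtain ⟨b, rfl⟩ := exists_inr_of_le n k hk i hi
    obtain ⟨a, rfl⟩ := exists_inl_of_lt n k hk j hj
    exact congrFun (congrFun h b) a
  · intro h
    ext b a
    exact h _ _ (by rw [splitEquiv_inr]; omega) (by rw [splitEquiv_inl]; exact a.2)

/-- Reindexing `GL_n` along the splitting. -/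
def glReindex (F : Type*) [Field F] (n k : ℕ) (hk : k ≤ n) :
    Matrix.GeneralLinearGroup (Fin n) F ≃* Matrix.GeneralLinearGroup (Fin k ⊕ Fin (n - k)) F :=
  Units.mapEquiv (Matrix.reindexAlgEquiv F F (splitEquiv n k hk).symm).toRingEquiv.toMulEquiv

theorem glReindex_coe (n k : ℕ) (hk : k ≤ n) (g : Matrix.GeneralLinearGroup (Fin n) F) :
    ((glReindex F n k hk g : Matrix.GeneralLinearGroup (Fin k ⊕ Fin (n - k)) F) :
      Matrix (Fin k ⊕ Fin (n - k)) (Fin k ⊕ Fin (n - k)) F) =
      (g : Matrix (Fin n) (Fin n) F).submatrix (splitEquiv n k hk) (splitEquiv n k hk) := rfl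

/-- The stabiliser of the coordinate subspace is in bijection with the block triangular matrices. -/
def stabEquiv (F : Type*) [Field F] (n k : ℕ) (hk : k ≤ n) :
    ↥(Cfsg.stabilizing (Cfsg.glToMat (Fin n) F) (coordSet F n k)) ≃
    {g : Matrix.GeneralLinearGroup (Fin k ⊕ Fin (n - k)) F //
      (g : Matrix (Fin k ⊕ Fin (n - k)) (Fin k ⊕ Fin (n - k)) F).toBlocks₂₁ = 0} :=
  (glReindex F n k hk).toEquiv.subtypeEquiv (fun g => by
    rw [← SetLike.mem_coe, SetLike.mem_coe, mem_stabilizing_coord_iff n k hk]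
    rfl)

end fin

end Cfsg.Agent.Lib.Helper13
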