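import Mathlib
import Cfsg.Prelude.Def_ClassicalGeometry

set_option autoImplicit false

namespace Cfsg.Agent.Lib.Helper13

open Matrix

variable {F : Type*} [Field F] {ι : Type} [Fintype ι] [DecidableEq ι]

theorem polarVec_dotProduct (Q : QuadraticForm F (ι → F)) (v x : ι → F) :
    Cfsg.polarVec ⇑Q v ⬝ᵥ x = QuadraticMap.polar ⇑Q v x := by
  have hx : x = ∑ j, x j • (Pi.single j 1 : ι → F) := by
    funext j'
    simp [Finset.sum_apply, Pi.single_apply]
  conv_rhs => rw [hx]
  have h : QuadraticMap.polar ⇑Q v (∑ j, x j • (Pi.single j 1 : ι → F)) =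
      QuadraticMap.polarBilin Q v (∑ j, x j • (Pi.single j 1 : ι → F)) := rfl
  rw [h, map_sum]
  simp only [map_smul, QuadraticMap.polarBilin_apply_apply, smul_eq_mul, dotProduct, Cfsg.polarVec]
  apply Finset.sum_congr rfl
  intro j _
  ring

theorem det_one_add_smul_vecMulVec (c : F) (u p : ι → F) :
    (1 + c • vecMulVec u p).det = 1 + c * (p ⬝ᵥ u) := by
  have : c • vecMulVec u p = replicateCol Unit (c • u) * replicateRow Unit p := by
    rw [← vecMulVec_eq, smul_vecMulVec]
  rw [this, det_one_add_replicateCol_mul_replicateRow, dotProduct_smul, smul_eq_mul]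

theorem reflectionMatrix_mulVec (Q : QuadraticForm F (ι → F)) (v x : ι → F) :
    Cfsg.reflectionMatrix ⇑Q v *ᵥ x = x - ((Q v)⁻¹ * QuadraticMap.polar ⇑Q v x) • v := by
  unfold Cfsg.reflectionMatrix
  rw [sub_mulVec, one_mulVec, smul_mulVec, vecMulVec_mulVec, polarVec_dotProduct]
  funext i
  simp only [Pi.sub_apply, Pi.smul_apply, smul_eq_mul, MulOpposite.smul_eq_mul_unop,
    MulOpposite.unop_op]
  ring

theorem reflectionMatrix_preserves (Q : QuadraticForm F (ι → F)) (v : ι → F) (hv : Q v ≠ 0)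
    (x : ι → F) : Q (Cfsg.reflectionMatrix ⇑Q v *ᵥ x) = Q x := by
  rw [reflectionMatrix_mulVec, sub_eq_add_neg, ← neg_smul]
  have hadd : ∀ a b : ι → F, Q (a + b) = Q a + Q b + QuadraticMap.polar Q a b := by
    intro a b
    simp only [QuadraticMap.polar]; ring
  rw [hadd, QuadraticMap.map_smul, QuadraticMap.polar_smul_right, QuadraticMap.polar_comm Q x v]
  simp only [smul_eq_mul]
  field_simp
  ring

theorem reflectionMatrix_det (Q : QuadraticForm F (ι → F)) (v : ι → F) (hv : Q v ≠ 0) :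
    (Cfsg.reflectionMatrix ⇑Q v).det = -1 := by
  unfold Cfsg.reflectionMatrix
  rw [sub_eq_add_neg, ← neg_smul, det_one_add_smul_vecMulVec, polarVec_dotProduct,
    QuadraticMap.polar_self]
  simp only [smul_eq_mul, nsmul_eq_mul, Nat.cast_ofNat]
  field_simp
  ring

end Cfsg.Agent.Lib.Helper13
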